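import Cfsg.Agent.H26.FrobDiv

/-! Jordan's counting argument (fans), in a form that covers modular representations. -/

set_option autoImplicit false

namespace Cfsg.Agent.H8

open Subgroup MulAction Module
open scoped Pointwise

universe u

theorem landau_sum (s : ℕ) : ∀ D : ℕ, 0 < D → ∃ L : ℕ, ∀ {ι : Type u} (T : Finset ι) (ω : ι → ℕ)
    (g : ℕ) (c : ℤ), T.card ≤ s → 0 < g → (∀ i ∈ T, 0 < ω i) →
    (1 / g + c / D : ℚ) = ∑ i ∈ T, (1 / ω i : ℚ) → g ≤ L ∨ ∃ i ∈ T, g ≤ ω i := by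
  have key : ∀ (D : ℕ), 0 < D → ∀ {ι : Type u} (T : Finset ι) (ω : ι → ℕ) (g : ℕ) (c : ℤ),
      0 < g → (∀ i ∈ T, 0 < ω i) → (1 / g + c / D : ℚ) = ∑ i ∈ T, (1 / ω i : ℚ) →
      (g ≤ D ∨ ∃ i ∈ T, g ≤ ω i) ∨ ∃ i ∈ T, ω i ≤ T.card * D := by
    intro D hD ι T ω g c hg hω h
    have hD' : (0 : ℚ) < D := by exact_mod_cast hD
    have hg' : (0 : ℚ) < g := by exact_mod_cast hg
    have h0 : (0 : ℚ) ≤ ∑ i ∈ T, (1 / ω i : ℚ) := Finset.sum_nonneg fun _ _ => by positivity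
    rcases lt_trichotomy c 0 with hc | rfl | hc
    · refine Or.inl (Or.inl ?_)
      have h1 : (c : ℚ) / D ≤ -1 / D := by
        gcongr; exact_mod_cast Int.le_sub_one_of_lt hc
      have h2 : (1 : ℚ) / D ≤ 1 / g := by rw [neg_div] at h1; linarith
      exact_mod_cast (one_div_le_one_div hD' hg').1 h2
    · obtain ⟨i, hi⟩ : T.Nonempty := Finset.nonempty_iff_ne_empty.2 (by
        rintro rfl
        simp only [Int.cast_zero, zero_div, add_zero, Finset.sum_empty] at h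
        exact absurd h (by positivity))
      refine Or.inl (Or.inr ⟨i, hi, ?_⟩)
      have h1 := Finset.single_le_sum (f := fun i => (1 / ω i : ℚ)) (fun _ _ => by positivity) hi
      rw [← h, Int.cast_zero, zero_div, add_zero] at h1
      exact_mod_cast (one_div_le_one_div (by exact_mod_cast hω i hi) hg').1 h1
    · refine Or.inr (by_contra fun hn => ?_)
      push Not at hn
      have h1 : (1 : ℚ) / D ≤ c / D := by gcongr; exact_mod_cast hc
      have h2 : ∑ i ∈ T, (1 / ω i : ℚ) ≤ ∑ i ∈ T, (1 / (T.card * D) : ℚ) :=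
        Finset.sum_le_sum fun i hi => one_div_le_one_div_of_le
          (mul_pos (by exact_mod_cast Finset.card_pos.2 ⟨i, hi⟩) hD') (by exact_mod_cast (hn i hi).le)
      have h3 : ∑ i ∈ T, (1 / (T.card * D) : ℚ) ≤ 1 / D := by
        rw [Finset.sum_const, nsmul_eq_mul]
        rcases T.card.eq_zero_or_pos with h | h
        · rw [h]; simp
        · have : (T.card : ℚ) ≠ 0 := by positivity
          exact le_of_eq (by field_simp)
      have h4 : (0 : ℚ) < 1 / g := by positivity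
      linarith
  induction s with
  | zero =>
    refine fun D hD => ⟨D, fun T ω g c hT hg hω h => ?_⟩
    rcases key D hD T ω g c hg hω h with h | ⟨i, hi, -⟩
    · exact h
    · exact absurd (Finset.card_pos.2 ⟨i, hi⟩) (by omega)
  | succ s ih =>
    intro D hD
    classical
    obtain ⟨L, hL⟩ := ih (D * ((s + 1) * D).factorial) (by positivity)
    refine ⟨max D L, fun T ω g c hT hg hω h => ?_⟩
    rcases key D hD T ω g c hg hω h with (h | h) | ⟨i, hi, h1⟩
    · exact Or.inl (le_max_of_le_left h)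
    · exact Or.inr h
    obtain ⟨k, hk⟩ := Nat.dvd_factorial (hω i hi) (h1.trans (Nat.mul_le_mul_right D hT))
    have hk0 : k ≠ 0 := by rintro rfl; exact Nat.factorial_ne_zero _ hk
    rcases hL (T.erase i) ω g (c * (ω i * k) - D * k) (by rw [Finset.card_erase_of_mem hi]; omega)
      hg (fun j hj => hω j (Finset.mem_of_mem_erase hj)) (by
        rw [← Finset.add_sum_erase T _ hi] at h
        have := (hω i hi).ne'
        rw [eq_sub_of_add_eq' h.symm, hk]
        push_cast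
        field_simp
        ring) with h | ⟨j, hj, h⟩
    · exact Or.inl (le_max_of_le_right h)
    · exact Or.inr ⟨j, Finset.mem_of_mem_erase hj, h⟩

theorem exists_sum_orbits {G Γ X : Type*} [Group G] [Group Γ] [MulAction Γ X] [Fintype X]
    (c : G →* Γ) : ∃ T : Finset X, ∀ w : X → ℕ, (∀ g x, w (c g • x) = w x) →
      ∑ x, w x = ∑ x ∈ T, ((stabilizer Γ x).comap c).index * w x := by
  classical
  letI : MulAction G X := MulAction.compHom X c
  refine ⟨Finset.univ.image (Quotient.out : orbitRel.Quotient G X → X), fun w hw => ?_⟩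
  rw [Finset.sum_image fun _ _ _ _ h => Quotient.out_injective h,
    ← Finset.sum_fiberwise (s := Finset.univ) (g := (Quotient.mk'' : X → orbitRel.Quotient G X))]
  refine Finset.sum_congr rfl fun ω _ => ?_
  have h1 : ∀ x, Quotient.mk'' x = ω ↔ x ∈ orbit G ω.out := fun x => by
    rw [← orbitRel_apply, ← Quotient.eq'', Quotient.out_eq']
  rw [show (stabilizer Γ ω.out).comap c = stabilizer G ω.out from rfl, index_stabilizer,
    Finset.sum_congr rfl (g := fun _ => w ω.out) fun x hx => by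
      obtain ⟨g, rfl⟩ := (h1 x).1 (Finset.mem_filter.1 hx).2
      exact hw g _,
    Finset.sum_const, smul_eq_mul, ← Set.ncard_coe_finset]
  congr 2
  ext x
  simp [h1]

section fan

variable {G K R : Type*} [Group G] [Field K] [Ring R] [Algebra K R] (ρ : G →* R) (q N : ℕ)

/-- The commutant of the image of a subgroup. -/
def cz (K : Type*) [Field K] [Algebra K R] (ρ : G →* R) (B : Subgroup G) : Submodule K R where
  carrier := {x | ∀ b ∈ B, Commute (ρ b) x}
  add_mem' hx hy b hb := (hx b hb).add_right (hy b hb)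
  zero_mem' _ _ := Commute.zero_right _
  smul_mem' c _ hx b hb := (hx b hb).smul_right c

/-- The central elements of exponent `q`. -/
def zq : Subgroup G where
  carrier := {g | g ^ q = 1 ∧ (∀ x, Commute g x) ∧ ∀ x, Commute (ρ g) x}
  one_mem' := ⟨one_pow q, Commute.one_left, by simp⟩
  mul_mem' {a b} ha hb := ⟨by rw [(ha.2.1 b).mul_pow, ha.1, hb.1, mul_one],
    fun x => (ha.2.1 x).mul_left (hb.2.1 x),
    fun x => by rw [map_mul]; exact (ha.2.2 x).mul_left (hb.2.2 x)⟩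
  inv_mem' {a} ha := ⟨by rw [inv_pow, ha.1, inv_one], fun x => (ha.2.1 x).inv_left, fun x =>
    (show Commute ((ρ.toHomUnits a : Rˣ) : R) x from ha.2.2 x).units_inv_left⟩

/-- Fans: commutative subgroups of exponent `q` whose subgroups of small index have the same
commutant. -/
structure Fan (K : Type*) [Field K] [Algebra K R] (ρ : G →* R) (q N : ℕ) (F : Subgroup G) :
    Prop where
  pow : ∀ a ∈ F, a ^ q = 1
  comm : ∀ a ∈ F, ∀ b ∈ F, Commute a b
  cz_le : ∀ B ≤ F, B.relIndex F ≤ N → cz K ρ B ≤ cz K ρ F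

variable {ρ q N}

theorem cz_anti {A B : Subgroup G} (h : A ≤ B) : cz K ρ B ≤ cz K ρ A := fun _ hx b hb =>
  hx b (h hb)

theorem cz_sup {A B : Subgroup G} {x : R} (hA : x ∈ cz K ρ A) (hB : x ∈ cz K ρ B) :
    x ∈ cz K ρ (A ⊔ B) := by
  let H : Subgroup G :=
    { carrier := {g | Commute (ρ g) x}
      one_mem' := by simp
      mul_mem' := fun ha hb => by
        rw [Set.mem_setOf_eq, map_mul]; exact Commute.mul_left ha hb
      inv_mem' := fun {a} ha =>
        (show Commute ((ρ.toHomUnits a : Rˣ) : R) x from ha).units_inv_left }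
  exact (sup_le (c := H) hA hB :)

theorem fan_zq : Fan K ρ q N (zq ρ q) :=
  ⟨fun _ ha => ha.1, fun _ ha b _ => ha.2.1 b, fun _ _ _ x _ _ hb => hb.2.2 x⟩

theorem commute_conj (x : G) {a : G} {y : R} (h : Commute (ρ a) y) :
    Commute (ρ (x * a * x⁻¹)) (ρ x * y * ρ x⁻¹) := by
  have e : ρ x⁻¹ * ρ x = 1 := by rw [← map_mul, inv_mul_cancel, map_one]
  change _ * _ = _ * _
  rw [map_mul, map_mul]
  calc ρ x * ρ a * ρ x⁻¹ * (ρ x * y * ρ x⁻¹) = ρ x * (ρ a * (ρ x⁻¹ * ρ x) * y) * ρ x⁻¹ := by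
        noncomm_ring
    _ = ρ x * (y * (ρ x⁻¹ * ρ x) * ρ a) * ρ x⁻¹ := by rw [e, mul_one, mul_one, h.eq]
    _ = _ := by noncomm_ring

theorem Fan.smul {F : Subgroup G} (h : Fan K ρ q N F) (x : G) :
    Fan K ρ q N (MulAut.conj x • F) := by
  refine ⟨?_, ?_, fun B hB hN y hy => ?_⟩
  · rintro _ ⟨a, ha, rfl⟩
    exact (map_pow (MulAut.conj x) a q).symm.trans (by rw [h.pow a ha, map_one])
  · rintro _ ⟨a, ha, rfl⟩ _ ⟨b, hb, rfl⟩
    exact (h.comm a ha b hb).map (MulAut.conj x)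
  · have key : ∀ a, Commute (ρ (x * a * x⁻¹)) y ↔ Commute (ρ a) (ρ x⁻¹ * y * ρ x) := fun a => by
      refine ⟨fun h => by simpa [mul_assoc, -map_mul] using commute_conj x⁻¹ h, fun h => ?_⟩
      have := commute_conj x h
      rwa [← mul_assoc, ← mul_assoc, ← map_mul, mul_assoc _ (ρ x), ← map_mul, mul_inv_cancel,
        map_one, one_mul, mul_one] at this
    rintro _ ⟨a, ha, rfl⟩
    refine (key a).2 (h.cz_le (B.comap (MulAut.conj x).toMonoidHom) ?_ ?_
      (fun b hb => (key b).1 (hy _ hb)) a ha)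
    · intro b hb
      exact (smul_mem_pointwise_smul_iff (a := MulAut.conj x)).1 (hB hb)
    · rwa [relIndex_comap]

variable [Finite G]

theorem relIndex_ne_zero' (A B : Subgroup G) : A.relIndex B ≠ 0 := index_ne_zero_of_finite

theorem Fan.sup {A B : Subgroup G} (hA : Fan K ρ q N A) (hB : Fan K ρ q N B)
    (h : ∀ a ∈ A, ∀ b ∈ B, Commute a b) : Fan K ρ q N (A ⊔ B) := by
  have key : ∀ x ∈ A ⊔ B, ∃ a ∈ A, ∃ b ∈ B, a * b = x := fun x hx => by
    rwa [← SetLike.mem_coe, coe_mul_of_left_le_normalizer_right _ _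
      (le_trans (fun a ha => mem_centralizer_iff.2 fun b hb => (h a ha b hb).eq.symm)
        (centralizer_le_normalizer _))] at hx
  have key2 : ∀ {C D : Subgroup G}, Fan K ρ q N C → C ≤ A ⊔ B → D.relIndex (A ⊔ B) ≤ N →
      cz K ρ D ≤ cz K ρ C := fun {C D} hC h1 h2 => (cz_anti inf_le_left).trans
    (hC.cz_le (D ⊓ C) inf_le_right (by
      rw [inf_relIndex_right]
      exact (relIndex_le_of_le_right h1 (relIndex_ne_zero' _ _)).trans h2))
  refine ⟨fun x hx => ?_, fun x hx y hy => ?_, fun D _ hD x hx =>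
    cz_sup (key2 hA le_sup_left hD hx) (key2 hB le_sup_right hD hx)⟩
  · obtain ⟨a, ha, b, hb, rfl⟩ := key x hx
    rw [(h a ha b hb).mul_pow, hA.pow a ha, hB.pow b hb, mul_one]
  · obtain ⟨a, ha, b, hb, rfl⟩ := key x hx
    obtain ⟨a', ha', b', hb', rfl⟩ := key y hy
    exact ((hA.comm a ha a' ha').mul_right (h a ha b' hb')).mul_left
      ((h a' ha' b hb).symm.mul_right (hB.comm b hb b' hb'))

theorem Fan.commute (hρ : Function.Injective ρ) {A H F₁ F₂ : Subgroup G}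
    (hA : ∀ a ∈ A, ∀ b ∈ A, Commute a b) (hN : A.relIndex H ≤ N) (h₁ : Fan K ρ q N F₁)
    (h₂ : Fan K ρ q N F₂) (k₁ : F₁ ≤ H) (k₂ : F₂ ≤ H) : ∀ a ∈ F₁, ∀ b ∈ F₂, Commute a b := by
  have key : ∀ {F}, Fan K ρ q N F → F ≤ H → cz K ρ (A ⊓ F) ≤ cz K ρ F := fun hF h =>
    hF.cz_le _ inf_le_right (by
      rw [inf_relIndex_right]
      exact (relIndex_le_of_le_right h (relIndex_ne_zero' _ _)).trans hN)
  intro a ha b hb
  have h1 : ρ a ∈ cz K ρ F₂ := key h₂ k₂ fun c hc =>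
    (key h₁ k₁ (fun d hd => (hA d hd.1 c hc.1).map ρ) a ha).symm
  exact hρ (by rw [map_mul, map_mul, (h1 b hb).eq])

theorem exists_fan [FiniteDimensional K R] (hN : 1 ≤ N) (k : ℕ) : ∀ A : Subgroup G,
    (∀ a ∈ A, a ^ q = 1) → (∀ a ∈ A, ∀ b ∈ A, Commute a b) →
    finrank K R ≤ finrank K (cz K ρ A) + k → ∃ F ≤ A, Fan K ρ q N F ∧ F.relIndex A ≤ N ^ k := by
  induction k with
  | zero =>
    refine fun A h1 h2 h3 => ⟨A, le_rfl, ⟨h1, h2, fun B _ _ => ?_⟩, by simp⟩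
    rw [Submodule.eq_top_of_finrank_eq (le_antisymm (Submodule.finrank_le _) h3)]
    exact le_top
  | succ k ih =>
    intro A h1 h2 h3
    by_cases h : ∀ B ≤ A, B.relIndex A ≤ N → cz K ρ B ≤ cz K ρ A
    · exact ⟨A, le_rfl, ⟨h1, h2, h⟩, by rw [relIndex_self]; exact Nat.one_le_pow _ _ hN⟩
    push Not at h
    obtain ⟨B, hB, hBN, h⟩ := h
    have h4 := Submodule.finrank_lt_finrank_of_lt (lt_of_le_not_ge (cz_anti hB) h)
    obtain ⟨F, hF, h5, h6⟩ := ih B (fun a ha => h1 a (hB ha)) (fun a ha b hb => h2 a (hB ha) b (hB hb))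
      (by omega)
    exact ⟨F, hF.trans hB, h5, by
      rw [← relIndex_mul_relIndex _ _ _ hF hB, pow_succ]; exact Nat.mul_le_mul h6 hBN⟩

theorem exists_torsion {p m : ℕ} (hp : p.Prime) (hm : (Nat.card G).factorization p ≤ m)
    (hq : q = ordCompl[p] (Nat.card G)) {A : Subgroup G} (hA : ∀ a ∈ A, ∀ b ∈ A, Commute a b) :
    ∃ B ≤ A, (∀ a ∈ B, a ^ q = 1) ∧ B.relIndex A ≤ p ^ m := by
  haveI := Fact.mk hp
  let φ : A →* G := MonoidHom.mk' (fun a => (a : G) ^ q) fun a b => (hA a a.2 b b.2).mul_pow q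
  refine ⟨φ.ker.map A.subtype, map_subtype_le _, ?_, ?_⟩
  · rintro _ ⟨a, ha, rfl⟩
    exact ha
  · have h1 : IsPGroup p φ.range := by
      rintro ⟨_, a, rfl⟩
      refine ⟨(Nat.card G).factorization p, Subtype.ext ?_⟩
      change ((a : G) ^ q) ^ _ = 1
      rw [← pow_mul, hq, mul_comm, Nat.ordProj_mul_ordCompl_eq_self, pow_card_eq_one']
    obtain ⟨j, hj⟩ := h1.exists_card_eq
    rw [relIndex, subgroupOf, comap_map_eq_self_of_injective A.subtype_injective, index_ker, hj]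
    exact Nat.pow_le_pow_right hp.pos (((hp.pow_dvd_iff_le_factorization Nat.card_pos.ne').1
      (hj ▸ card_subgroup_dvd_card _)).trans hm)

theorem relIndex_centralizer_le {B : ℕ} {g : G} {H : Subgroup G} {S : Set G}
    (hS : Nat.card {a // a ∈ S ∧ IsConj g a} ≤ B) (hH : ∀ x ∈ H, x * g * x⁻¹ ∈ S) :
    (centralizer {g}).relIndex H ≤ B := by
  refine le_trans (Nat.card_le_card_of_injective
    (fun c : H ⧸ (centralizer {g}).subgroupOf H => (⟨c.out * g * (c.out : G)⁻¹, hH _ c.out.2,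
      isConj_iff.2 ⟨_, rfl⟩⟩ : {a // a ∈ S ∧ IsConj g a})) fun a b h => ?_) hS
  rw [← a.out_eq, ← b.out_eq, QuotientGroup.eq]
  refine mem_centralizer_singleton_iff.2 ?_
  have h1 : (a.out : G) * g * (a.out : G)⁻¹ = b.out * g * (b.out : G)⁻¹ := congrArg Subtype.val h
  change (a.out : G)⁻¹ * b.out * g = g * ((a.out : G)⁻¹ * b.out)
  calc _ = (a.out : G)⁻¹ * (b.out * g * (b.out : G)⁻¹) * b.out := by group
    _ = _ := by rw [← h1]; group

/-- The pairs counted in Jordan's argument. -/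
structure JOm (K : Type*) [Field K] [Algebra K R] (ρ : G →* R) (q N : ℕ) (F : Subgroup G) (g : G) :
    Prop where
  pow : g ^ q = 1
  fan : Fan K ρ q N F
  le : F ≤ centralizer {g}
  max : ∀ F', Fan K ρ q N F' → F' ≤ centralizer {g} → F ≤ F' → F' ≤ F
  ne : ¬ (g ∈ zq ρ q ∧ F = zq ρ q)

omit [Finite G] in
theorem le_cent_iff {F : Subgroup G} {g : G} : F ≤ centralizer {g} ↔ ∀ a ∈ F, Commute a g :=
  forall₂_congr fun _ _ => mem_centralizer_singleton_iff

theorem JOm.zq_le {F : Subgroup G} {g : G} (h : JOm K ρ q N F g) : zq ρ q ≤ F :=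
  le_sup_right.trans (h.max _ (h.fan.sup fan_zq fun a _ _ hb => (hb.2.1 a).symm)
    (sup_le h.le (le_cent_iff.2 fun _ ha => ha.2.1 g)) le_sup_left)

theorem JOm.mul {F : Subgroup G} {g f : G} (h : JOm K ρ q N F g) (hf : f ∈ F) :
    JOm K ρ q N F (g * f) := by
  have h1 := le_cent_iff.1 h.le
  refine ⟨by rw [(h1 f hf).symm.mul_pow, h.pow, h.fan.pow f hf, mul_one], h.fan,
    le_cent_iff.2 fun a ha => (h1 a ha).mul_right (h.fan.comm a ha f hf),
    fun F' h2 h3 h4 => h.max F' h2 (le_cent_iff.2 fun a ha => ?_) h4, fun h2 => h.ne ⟨?_, h2.2⟩⟩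
  · simpa using (le_cent_iff.1 h3 a ha).mul_right (h2.comm a ha f (h4 hf)).inv_right
  · exact (mul_mem_cancel_right (h2.2 ▸ hf)).1 h2.1

omit [Finite G] in
theorem conj_smul_zq (x : G) : MulAut.conj x • zq ρ q = zq ρ q := by
  ext a
  rw [mem_pointwise_smul_iff_inv_smul_mem]
  have key : ∀ (y b : G), b ∈ zq ρ q → y * b * y⁻¹ ∈ zq ρ q := fun y b hb => by
    rwa [← (hb.2.1 y).eq, mul_inv_cancel_right]
  exact ⟨fun h => by simpa [mul_assoc] using key x _ h, fun h => by simpa using key x⁻¹ _ h⟩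

omit [Finite G] in
theorem JOm.smul {F : Subgroup G} {g : G} (h : JOm K ρ q N F g) (x : G) :
    JOm K ρ q N (MulAut.conj x • F) (MulAut.conj x • g) := by
  have key : ∀ (y a : G) (F : Subgroup G), F ≤ centralizer {a} →
      MulAut.conj y • F ≤ centralizer {MulAut.conj y • a} := fun y a F hF =>
    le_cent_iff.2 (by rintro _ ⟨b, hb, rfl⟩; exact (le_cent_iff.1 hF b hb).map (MulAut.conj y))
  refine ⟨(map_pow (MulAut.conj x) g q).symm.trans (by rw [h.pow, map_one]), h.fan.smul x,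
    key x g F h.le, fun F' h1 h2 h3 => ?_, fun h1 => h.ne ⟨?_, ?_⟩⟩
  · rw [← pointwise_smul_le_pointwise_smul_iff (a := (MulAut.conj x)⁻¹), inv_smul_smul] at h3 ⊢
    refine h.max _ (map_inv MulAut.conj x ▸ h1.smul x⁻¹) ?_ h3
    have := key x⁻¹ _ _ h2
    rwa [map_inv, inv_smul_smul] at this
  · exact smul_mem_pointwise_smul_iff.1 ((conj_smul_zq (ρ := ρ) (q := q) x).symm ▸ h1.1)
  · exact MulAction.injective _ (h1.2.trans (conj_smul_zq x).symm)

section core

variable [FiniteDimensional K R] {p m B d : ℕ} (hρ : Function.Injective ρ) (hp : p.Prime)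
  (hm : (Nat.card G).factorization p ≤ m) (hq : q = ordCompl[p] (Nat.card G))
  (hd : finrank K R ≤ d) (hN : 1 ≤ N)
  (H1 : ∀ g, g ^ q = 1 → g ∉ zq ρ q → ∃ A : Subgroup G, (∀ a ∈ A, ∀ b ∈ A, Commute a b) ∧
    A.relIndex (centralizer {g}) ≤ N)
  (H2 : ∀ S : Set G, (∀ a ∈ S, a ^ q = 1) → (∀ a ∈ S, ∀ b ∈ S, Commute a b) →
    ∀ g, Nat.card {a // a ∈ S ∧ IsConj g a} ≤ B)
include hρ hp hm hq hd hN H1

theorem exists_top_fan {g : G} (h1 : g ^ q = 1) (h2 : g ∉ zq ρ q) : ∃ F, JOm K ρ q N F g ∧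
    (∀ F', JOm K ρ q N F' g → F' = F) ∧ F.relIndex (centralizer {g}) ≤ N ^ d * p ^ m * N := by
  obtain ⟨A, hA, hAN⟩ := H1 g h1 h2
  obtain ⟨F, hF⟩ := Set.Finite.exists_maximal
    (s := {F | Fan K ρ q N F ∧ F ≤ centralizer {g}}) (Set.toFinite _)
    ⟨_, fan_zq, le_cent_iff.2 fun _ ha => ha.2.1 g⟩
  have key : ∀ F', Fan K ρ q N F' → F' ≤ centralizer {g} → F' ≤ F := fun F' h3 h4 =>
    le_sup_right.trans (hF.2 ⟨hF.1.1.sup h3 (Fan.commute hρ hA hAN hF.1.1 h3 hF.1.2 h4),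
      sup_le hF.1.2 h4⟩ le_sup_left)
  refine ⟨F, ⟨h1, hF.1.1, hF.1.2, fun F' h3 h4 _ => key F' h3 h4, fun h => h2 h.1⟩,
    fun F' h => le_antisymm (key F' h.fan h.le) (h.max F hF.1.1 hF.1.2 (key F' h.fan h.le)), ?_⟩
  obtain ⟨A', h3, h4, h5⟩ := exists_torsion hp hm hq (A := A ⊓ centralizer {g})
    fun a ha b hb => hA a ha.1 b hb.1
  obtain ⟨F', h6, h7, h8⟩ := exists_fan (K := K) (ρ := ρ) hN d A' h4
    (fun a ha b hb => hA a (h3 ha).1 b (h3 hb).1) (by omega)
  refine (relIndex_le_of_le_left (key F' h7 (h6.trans (h3.trans inf_le_right)))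
    (relIndex_ne_zero' _ _)).trans ?_
  rw [← relIndex_mul_relIndex _ _ _ (h6.trans h3) inf_le_right, ← relIndex_mul_relIndex _ _ _ h6 h3,
    inf_relIndex_right]
  gcongr

include H2

theorem JOm.relIndex_le {F H : Subgroup G} {g : G} (h : JOm K ρ q N F g)
    (hH : ∀ x ∈ H, MulAut.conj x • g • (F : Set G) = g • (F : Set G)) :
    F.relIndex H ≤ N ^ d * p ^ m * N * B := by
  obtain ⟨g', hg', h1⟩ : ∃ g' ∈ g • (F : Set G), g' ∉ zq ρ q := by
    by_cases hg : g ∈ zq ρ q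
    · obtain ⟨f, hf, h2⟩ := SetLike.exists_of_lt (lt_of_le_of_ne h.zq_le fun e => h.ne ⟨hg, e.symm⟩)
      exact ⟨g * f, ⟨f, hf, rfl⟩, fun h3 => h2 ((mul_mem_cancel_left hg).1 h3)⟩
    · exact ⟨g, ⟨1, one_mem F, mul_one g⟩, hg⟩
  have h2 : ∀ a ∈ g • (F : Set G), JOm K ρ q N F a := by
    rintro _ ⟨f, hf, rfl⟩
    exact h.mul hf
  obtain ⟨F', -, h3, h4⟩ := exists_top_fan hρ hp hm hq hd hN H1 (h2 g' hg').pow h1
  rw [← h3 F (h2 g' hg')] at h4
  rw [← inf_eq_left.2 (h2 g' hg').le, ← relIndex_inf_mul_relIndex]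
  refine Nat.mul_le_mul ((relIndex_le_of_le_right inf_le_left (relIndex_ne_zero' _ _)).trans h4)
    (relIndex_centralizer_le (H2 (g • (F : Set G)) (fun a ha => (h2 a ha).pow) ?_ g')
      fun x hx => hH x hx ▸ Set.smul_mem_smul_set (a := MulAut.conj x) hg')
  rintro a ha _ ⟨f, hf, rfl⟩
  obtain ⟨f', hf', rfl⟩ := ha
  exact ((Commute.refl g).mul_left (le_cent_iff.1 h.le f' hf')).mul_right
    (le_cent_iff.1 (h.mul hf').le f hf).symm

end core

end fan

end Cfsg.Agent.H8
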