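import Cfsg.Agent.H8.BF1

/-! The Brauer-Feit analogue of Jordan's theorem. -/

set_option autoImplicit false

namespace Cfsg.Agent.H8

open Subgroup MulAction Module
open scoped Pointwise

universe u v w

section count

variable {G K R : Type*} [Group G] [Field K] [Ring R] [Algebra K R] {ρ : G →* R} {q N : ℕ}

theorem conj_smul_eq_of_commute {f : G} {S : Set G} (h : ∀ a ∈ S, Commute a f) :
    MulAut.conj f • S = S := by
  rw [← Set.image_smul, Set.image_congr (g := id) fun a ha => by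
    simp [← (h a ha).eq], Set.image_id]

theorem JOm.le_stab {F : Subgroup G} {g : G} (h : JOm K ρ q N F g) :
    F ≤ (stabilizer (MulAut G) ((F, g • (F : Set G)) : Subgroup G × Set G)).comap MulAut.conj :=
  fun f hf => Prod.ext (SetLike.coe_injective (conj_smul_eq_of_commute fun a ha =>
    h.fan.comm a ha f hf)) (conj_smul_eq_of_commute (by
      rintro _ ⟨a, ha, rfl⟩
      exact (le_cent_iff.1 h.le f hf).symm.mul_left (h.fan.comm a ha f hf)))

variable [Finite G]

theorem card_eq_index_mul {F H : Subgroup G} (h : F ≤ H) :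
    Nat.card G = F.relIndex H * (H.index * Nat.card F) := by
  rw [← mul_assoc, relIndex_mul_index h, index_mul_card]

open scoped Classical in
theorem card_dvd_card_JOm [Fintype G] [Fintype (Subgroup G)] {J : ℕ}
    (hJ : ∀ (F H : Subgroup G) (g : G), JOm K ρ q N F g →
      (∀ x ∈ H, MulAut.conj x • g • (F : Set G) = g • (F : Set G)) → F.relIndex H ≤ J) :
    Nat.card G ∣ J.factorial *
      (Finset.univ.filter fun x : Subgroup G × G => JOm K ρ q N x.1 x.2).card := by
  set Ω := Finset.univ.filter fun x : Subgroup G × G => JOm K ρ q N x.1 x.2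
  have hΩ : ∀ x, x ∈ Ω ↔ JOm K ρ q N x.1 x.2 := fun x => by simp [Ω]
  obtain ⟨T, hT⟩ := exists_sum_orbits (X := Subgroup G × Set G) (MulAut.conj : G →* MulAut G)
  let π : Subgroup G × G → Subgroup G × Set G := fun x => (x.1, x.2 • (x.1 : Set G))
  have hπ : ∀ (c : MulAut G) x, π (c • x) = c • π x := fun c x => Prod.ext rfl (by
    change (c • x.2) • c • (x.1 : Set G) = c • x.2 • (x.1 : Set G)
    simp only [← Set.image_smul, Set.image_image, smul_eq_mul, smul_mul'])
  have key : ∀ (g : G) b, ∀ x ∈ Ω.filter (π · = b),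
      MulAut.conj g • x ∈ Ω.filter (π · = MulAut.conj g • b) := fun g b x hx => by
    obtain ⟨h1, h2⟩ := Finset.mem_filter.1 hx
    exact Finset.mem_filter.2 ⟨(hΩ _).2 (((hΩ _).1 h1).smul g), by rw [hπ, h2]⟩
  rw [Finset.card_eq_sum_card_fiberwise (f := π) (t := Finset.univ) (by simp),
    hT _ fun g b => (Finset.card_nbij' (MulAut.conj g • ·) (MulAut.conj g⁻¹ • ·)
      (key g b) (fun x hx => by simpa using key g⁻¹ _ x hx) (fun x _ => by simp)
      (fun x _ => by simp)).symm,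
    Finset.mul_sum]
  · refine Finset.dvd_sum fun b _ => ?_
    rcases (Ω.filter (π · = b)).eq_empty_or_nonempty with h | ⟨⟨F, g⟩, h⟩
    · simp [h]
    obtain ⟨h1, rfl⟩ := Finset.mem_filter.1 h
    have h2 := (hΩ _).1 h1
    have h3 : (Ω.filter (π · = π (F, g))).card = Nat.card F := by
      rw [← Nat.card_eq_finsetCard]
      have h4 : ∀ f : F, (g * f) • (F : Set G) = g • (F : Set G) := fun f => by
        rw [mul_smul, smul_coe_set f.2]
      refine (Nat.card_congr (Equiv.ofBijective (fun f : F => (⟨(F, g * f), Finset.mem_filter.2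
        ⟨(hΩ _).2 (h2.mul f.2), Prod.ext rfl (h4 f)⟩⟩ : Ω.filter (π · = π (F, g))))
        ⟨fun a b h => ?_, ?_⟩)).symm
      · exact Subtype.ext (mul_left_cancel (congrArg Prod.snd (congrArg Subtype.val h)))
      · rintro ⟨⟨F', g'⟩, h⟩
        obtain ⟨rfl, h4⟩ := Prod.ext_iff.1 (Finset.mem_filter.1 h).2
        obtain ⟨f, hf, h5⟩ : g' ∈ g • (F' : Set G) :=
          (show g' • (F' : Set G) = g • (F' : Set G) from h4) ▸ ⟨1, one_mem F', mul_one g'⟩
        exact ⟨⟨f, hf⟩, Subtype.ext (Prod.ext rfl h5)⟩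
    rw [h3, card_eq_index_mul h2.le_stab]
    exact Nat.mul_dvd_mul_right (Nat.dvd_factorial (Nat.pos_of_ne_zero (relIndex_ne_zero' _ _))
      (hJ _ _ g h2 fun x hx => congrArg Prod.snd hx)) _

open scoped Classical in
theorem card_JOm [Fintype G] [Fintype (Subgroup G)]
    (hu : ∀ g, g ^ q = 1 → g ∉ zq ρ q → ∃ F, JOm K ρ q N F g ∧ ∀ F', JOm K ρ q N F' g → F' = F) :
    (Finset.univ.filter fun x : Subgroup G × G => JOm K ρ q N x.1 x.2).card + Nat.card (zq ρ q) =
      Nat.card {g : G // g ^ q = 1} +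
        (Finset.univ.filter fun F => JOm K ρ q N F 1).card * Nat.card (zq ρ q) := by
  have hZ : Nat.card (zq ρ q) = (Finset.univ.filter (· ∈ zq ρ q)).card := by
    rw [Nat.card_eq_fintype_card, Fintype.card_subtype]
  have h1 := Finset.card_filter_add_card_filter_not
    (s := Finset.univ.filter fun x : Subgroup G × G => JOm K ρ q N x.1 x.2) (·.2 ∈ zq ρ q)
  have h2 := Finset.card_filter_add_card_filter_not
    (s := Finset.univ.filter fun g : G => g ^ q = 1) (· ∈ zq ρ q)
  have h3 : ((Finset.univ.filter fun x : Subgroup G × G => JOm K ρ q N x.1 x.2).filter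
      (·.2 ∈ zq ρ q)) = (Finset.univ.filter fun F => JOm K ρ q N F 1) ×ˢ
        (Finset.univ.filter (· ∈ zq ρ q)) := by
    ext ⟨F, g⟩
    simp only [Finset.mem_filter, Finset.mem_univ, true_and, Finset.mem_product]
    exact and_congr_left fun hg => ⟨fun h => by simpa using h.mul (inv_mem (h.zq_le hg)),
      fun h => by simpa using h.mul (h.zq_le hg)⟩
  have h4 : ((Finset.univ.filter fun g : G => g ^ q = 1).filter (· ∈ zq ρ q)) =
      Finset.univ.filter (· ∈ zq ρ q) := by
    ext g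
    simpa using fun h : g ∈ zq ρ q => h.1
  have h5 : ((Finset.univ.filter fun x : Subgroup G × G => JOm K ρ q N x.1 x.2).filter
      (¬ ·.2 ∈ zq ρ q)).card =
      ((Finset.univ.filter fun g : G => g ^ q = 1).filter (¬ · ∈ zq ρ q)).card := by
    refine Finset.card_bij (fun x _ => x.2) (fun x hx => ?_) (fun x hx y hy h => ?_) fun g hg => ?_
    · simp only [Finset.mem_filter, Finset.mem_univ, true_and] at hx ⊢
      exact ⟨hx.1.pow, hx.2⟩
    · simp only [Finset.mem_filter, Finset.mem_univ, true_and] at hx hy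
      obtain ⟨F, -, hF⟩ := hu x.2 hx.1.pow hx.2
      exact Prod.ext ((hF _ hx.1).trans (hF _ (h ▸ hy.1)).symm) h
    · simp only [Finset.mem_filter, Finset.mem_univ, true_and] at hg ⊢
      obtain ⟨F, hF, -⟩ := hu g hg.1 hg.2
      exact ⟨(F, g), ⟨hF, hg.2⟩, rfl⟩
  rw [h3, Finset.card_product, h5] at h1
  rw [h4] at h2
  rw [Nat.card_eq_fintype_card (α := {g : G // g ^ q = 1}), Fintype.card_subtype, hZ]
  omega

end count

theorem jordan_core {p : ℕ} (hp : p.Prime) (m N B d : ℕ) (hN : 1 ≤ N) : ∃ L : ℕ,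
    ∀ (G : Type u) (K : Type v) (R : Type w) [Group G] [Finite G] [Field K] [Ring R] [Algebra K R]
      [FiniteDimensional K R] (ρ : G →* R) (q : ℕ), Function.Injective ρ →
      (Nat.card G).factorization p ≤ m → q = ordCompl[p] (Nat.card G) → finrank K R ≤ d →
      (∀ g, g ^ q = 1 → g ∉ zq ρ q → ∃ A : Subgroup G, (∀ a ∈ A, ∀ b ∈ A, Commute a b) ∧
        A.relIndex (centralizer {g}) ≤ N) →
      (∀ S : Set G, (∀ a ∈ S, a ^ q = 1) → (∀ a ∈ S, ∀ b ∈ S, Commute a b) →
        ∀ g, Nat.card {a // a ∈ S ∧ IsConj g a} ≤ B) →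
      ∃ A : Subgroup G, (∀ a ∈ A, ∀ b ∈ A, Commute a b) ∧ A.index ≤ L := by
  classical
  obtain ⟨J, hJ0⟩ : ∃ J, J = N ^ d * p ^ m * N * B := ⟨_, rfl⟩
  obtain ⟨L, hL⟩ := landau_sum.{u} (2 * J) (J.factorial * p ^ m) (by have := hp.pos; positivity)
  refine ⟨max L J, fun G K R _ _ _ _ _ _ ρ q hρ hm hq hd H1 H2 => ?_⟩
  cases nonempty_fintype G
  cases nonempty_fintype (Subgroup G)
  have hJ : ∀ (F H : Subgroup G) (g : G), JOm K ρ q N F g →
      (∀ x ∈ H, MulAut.conj x • g • (F : Set G) = g • (F : Set G)) → F.relIndex H ≤ J :=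
    fun F H g h1 h2 => hJ0 ▸ h1.relIndex_le hρ hp hm hq hd hN H1 H2 h2
  obtain ⟨j, hj⟩ := card_dvd_card_JOm hJ
  have hc := card_JOm (K := K) (N := N) fun g h1 h2 =>
    (exists_top_fan hρ hp hm hq hd hN H1 h1 h2).imp fun F h => ⟨h.1, h.2.1⟩
  set Ω := Finset.univ.filter fun x : Subgroup G × G => JOm K ρ q N x.1 x.2
  set 𝓜 := Finset.univ.filter fun F => JOm K ρ q N F 1
  have h𝓜 : ∀ F, F ∈ 𝓜 ↔ JOm K ρ q N F 1 := fun F => by simp [𝓜]
  obtain ⟨T, hT⟩ := exists_sum_orbits (X := Subgroup G) (MulAut.conj : G →* MulAut G)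
  let St : Subgroup G → Subgroup G := fun F => (stabilizer (MulAut G) F).comap MulAut.conj
  have hT' : ∀ w : Subgroup G → ℕ, (∀ (g : G) F, w (MulAut.conj g • F) = w F) →
      ∑ F ∈ 𝓜, w F = ∑ F ∈ T.filter (· ∈ 𝓜), (St F).index * w F := fun w hw => by
    have := hT (fun F => if F ∈ 𝓜 then w F else 0) fun g F => by
      rw [hw]
      refine if_congr ?_ rfl rfl
      rw [h𝓜, h𝓜]
      exact ⟨fun h => by simpa using h.smul g⁻¹, fun h => by simpa using h.smul g⟩
    rw [← Finset.sum_filter, Finset.filter_mem_eq_inter, Finset.univ_inter] at this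
    rw [this, Finset.sum_filter]
    exact Finset.sum_congr rfl fun F _ => by split_ifs <;> simp [St]
  have hSt : ∀ F ∈ 𝓜, F ≤ St F ∧ F.relIndex (St F) ≤ J := fun F hF =>
    ⟨fun f hf => congrArg Prod.fst (((h𝓜 F).1 hF).le_stab hf), hJ F _ 1 ((h𝓜 F).1 hF)
      fun x hx => by rw [one_smul]; exact congrArg (fun H : Subgroup G => (H : Set G)) hx⟩
  have hG : 0 < Nat.card G := Nat.card_pos
  have hs : (T.filter (· ∈ 𝓜)).card ≤ 2 * J := by
    have h1 : ∑ F ∈ 𝓜, Nat.card F ≤ Ω.card := by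
      refine le_trans (le_of_eq ?_) (Finset.card_le_card (s := Finset.univ.filter
        fun x : Subgroup G × G => x.1 ∈ 𝓜 ∧ x.2 ∈ x.1) fun x hx => ?_)
      · rw [Finset.card_eq_sum_card_fiberwise (f := Prod.fst) (t := 𝓜)
          fun x hx => (Finset.mem_filter.1 hx).2.1]
        refine Finset.sum_congr rfl fun F hF => ?_
        rw [Nat.card_eq_fintype_card, Fintype.card_subtype]
        refine Finset.card_nbij' (fun g => (F, g)) Prod.snd (fun g hg => by simpa [hF] using hg)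
          (fun x hx => ?_) (fun _ _ => rfl) fun x hx => ?_
        · simp only [Finset.coe_filter, Finset.mem_filter, Finset.mem_univ, true_and,
            Set.mem_setOf_eq] at hx ⊢
          exact hx.2 ▸ hx.1.2
        · exact Prod.ext (Finset.mem_filter.1 hx).2.symm rfl
      · obtain ⟨h1, h2⟩ := (Finset.mem_filter.1 hx).2
        simpa [Ω] using ((h𝓜 _).1 h1).mul h2
    have h2 : 𝓜.card * (2 * Nat.card (zq ρ q)) ≤ ∑ F ∈ 𝓜, Nat.card F := by
      refine Finset.card_nsmul_le_sum _ _ _ fun F hF => ?_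
      have h3 := (h𝓜 F).1 hF
      obtain ⟨k, hk⟩ := card_dvd_of_le h3.zq_le
      have h4 : k ≠ 1 := by
        rintro rfl
        exact h3.ne ⟨one_mem _, (eq_of_le_of_card_ge h3.zq_le (by omega)).symm⟩
      have h5 : k ≠ 0 := by
        rintro rfl
        exact (Nat.card_pos (α := F)).ne' hk
      rw [hk, mul_comm]
      exact Nat.mul_le_mul_left _ (by omega)
    have h3 : Nat.card {g : G // g ^ q = 1} ≤ Nat.card G := Finite.card_subtype_le _
    have h4 : (T.filter (· ∈ 𝓜)).card * Nat.card G ≤ J * ∑ F ∈ 𝓜, Nat.card F := by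
      rw [hT' _ fun g F => (Nat.card_congr (equivSMul (MulAut.conj g) F).toEquiv).symm,
        Finset.mul_sum]
      refine Finset.card_nsmul_le_sum _ _ _ fun F hF => ?_
      obtain ⟨h5, h6⟩ := hSt F (Finset.mem_filter.1 hF).2
      rw [card_eq_index_mul h5]
      exact Nat.mul_le_mul_right _ h6
    refine Nat.le_of_mul_le_mul_right (h4.trans ?_) hG
    rw [mul_comm 2, mul_assoc]
    refine Nat.mul_le_mul_left _ ?_
    rw [mul_left_comm] at h2
    omega
  obtain ⟨k, hk⟩ := H26.dvd_card_pow_eq_one (G := G) (hq ▸ Nat.ordCompl_dvd _ p : q ∣ _)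
  obtain ⟨e, he⟩ := Nat.exists_eq_add_of_le hm
  have hGq : Nat.card G = p ^ (Nat.card G).factorization p * q := by
    rw [hq, Nat.ordProj_mul_ordCompl_eq_self]
  have hZ : ∀ F, zq ρ q ≤ St F := fun F z hz =>
    SetLike.coe_injective (conj_smul_eq_of_commute fun a _ => (hz.2.1 a).symm)
  rcases hL (T.filter (· ∈ 𝓜)) (fun F => (zq ρ q).relIndex (St F)) (zq ρ q).index
    (j * p ^ m - k * p ^ e * J.factorial) hs (Nat.pos_of_ne_zero index_ne_zero_of_finite)
    (fun F _ => Nat.pos_of_ne_zero (relIndex_ne_zero' _ _)) (by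
      have hG' : (Nat.card G : ℚ) ≠ 0 := by positivity
      have h1 : ∀ F, (1 / (zq ρ q).relIndex (St F) : ℚ) =
          ((St F).index * 1 : ℕ) * Nat.card (zq ρ q) / Nat.card G := fun F => by
        have := relIndex_ne_zero' (zq ρ q) (St F)
        rw [div_eq_div_iff (by positivity) hG', card_eq_index_mul (hZ F)]
        push_cast; ring
      have h2 : (1 / (zq ρ q).index : ℚ) = Nat.card (zq ρ q) / Nat.card G := by
        have : (zq ρ q).index ≠ 0 := index_ne_zero_of_finite
        rw [div_eq_div_iff (by positivity) hG', ← (zq ρ q).index_mul_card]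
        push_cast; ring
      have h3 : (((j * p ^ m - k * p ^ e * J.factorial : ℤ) : ℚ) / (J.factorial * p ^ m : ℕ)) =
          (Ω.card - Nat.card {g : G // g ^ q = 1}) / Nat.card G := by
        have := hp.pos
        have hj' : (J.factorial : ℚ) * Ω.card = Nat.card G * j := by exact_mod_cast hj
        have hq' : (Nat.card G : ℚ) = p ^ (Nat.card G).factorization p * q := by
          exact_mod_cast hGq
        rw [div_eq_div_iff (by positivity) hG', hk]
        push_cast
        rw [he, pow_add]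
        linear_combination (-(p : ℚ) ^ (Nat.card G).factorization p * p ^ e) * hj' -
          (k * p ^ e * J.factorial : ℚ) * hq'
      have h4 : (Ω.card : ℚ) + Nat.card (zq ρ q) =
          Nat.card {g : G // g ^ q = 1} + 𝓜.card * Nat.card (zq ρ q) := by exact_mod_cast hc
      rw [Finset.sum_congr rfl fun F _ => h1 F, ← Finset.sum_div, ← Finset.sum_mul,
        ← Nat.cast_sum, ← hT' _ fun _ _ => rfl, h2, h3, ← add_div, ← Finset.card_eq_sum_ones]
      congr 1
      linear_combination h4) with h | ⟨F, hF, h⟩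
  · exact ⟨zq ρ q, fun a ha b _ => ha.2.1 b, le_max_of_le_left h⟩
  · obtain ⟨h5, h6⟩ := hSt F (Finset.mem_filter.1 hF).2
    refine ⟨F, ((h𝓜 F).1 (Finset.mem_filter.1 hF).2).fan.comm, le_max_of_le_right ?_⟩
    have h7 : (St F).index ≤ 1 := by
      rw [← relIndex_mul_index (hZ F)] at h
      exact Nat.le_of_mul_le_mul_left (by simpa using h)
        (Nat.pos_of_ne_zero (relIndex_ne_zero' (zq ρ q) (St F)))
    rw [← relIndex_mul_index h5]
    simpa using Nat.mul_le_mul h6 h7

section linear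

variable {G K V : Type*} [Group G] [Field K] [IsAlgClosed K] [AddCommGroup V] [Module K V]
  [FiniteDimensional K V]

omit [IsAlgClosed K] in
theorem maxGen_eq_of_pow {f : End K V} {q : ℕ} (hq : (q : K) ≠ 0) (h : f ^ q = 1) (μ : K) :
    f.maxGenEigenspace μ = f.eigenspace μ :=
  (End.isSemisimple_of_squarefree_aeval_eq_zero
    (Polynomial.X_pow_sub_one_separable_iff.2 hq).squarefree
    (by simp [h])).isFinitelySemisimple.maxGenEigenspace_eq_eigenspace μ

theorem card_isConj_le (ρ : G →* End K V) (hρ : Function.Injective ρ) {q n : ℕ} (hq : (q : K) ≠ 0)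
    (hn : finrank K V ≤ n) (S : Set G) (h1 : ∀ a ∈ S, a ^ q = 1)
    (h2 : ∀ a ∈ S, ∀ b ∈ S, Commute a b) (g : G) :
    Nat.card {a // a ∈ S ∧ IsConj g a} ≤ (n + 1) ^ n := by
  have h3 := End.iSup_iInf_maxGenEigenspace_eq_top_of_iSup_maxGenEigenspace_eq_top_of_commute
    (fun a : S => ρ a) (fun a b _ => (h2 a a.2 b b.2).map ρ)
    fun a => End.iSup_maxGenEigenspace_eq_top _
  obtain ⟨b, hb1, hb2, hb3⟩ := exists_linearIndependent K
    {v : V | v ≠ 0 ∧ ∀ a ∈ S, ∃ μ : K, ρ a v = μ • v}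
  have h4 : Submodule.span K b = ⊤ := by
    rw [hb2, eq_top_iff, ← h3]
    refine iSup_le fun χ v hv => ?_
    by_cases h0 : v = 0
    · rw [h0]; exact zero_mem _
    refine Submodule.subset_span ⟨h0, fun a ha => ⟨χ ⟨a, ha⟩, End.mem_eigenspace_iff.1 ?_⟩⟩
    rw [← maxGen_eq_of_pow hq (by rw [← map_pow, h1 a ha, map_one])]
    exact (Submodule.mem_iInf _).1 hv ⟨a, ha⟩
  haveI := hb3.finite
  haveI := (ρ g).eigenspaces_iSupIndep.fintypeNeBotOfFiniteDimensional
  have h5 : ∀ (a : {a // a ∈ S ∧ IsConj g a}) (v : b),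
      ∃ μ : {μ // (ρ g).eigenspace μ ≠ ⊥}, ρ a v = μ.1 • v.1 := by
    rintro ⟨a, ha, hc⟩ v
    obtain ⟨x, rfl⟩ := isConj_iff.1 hc
    obtain ⟨μ, hμ⟩ := (hb1 v.2).2 _ ha
    refine ⟨⟨μ, (Submodule.ne_bot_iff _).2 ⟨ρ x⁻¹ v, End.mem_eigenspace_iff.2 ?_, fun h => ?_⟩⟩, hμ⟩
    · rw [← map_smul, ← hμ, ← End.mul_apply, ← End.mul_apply, ← map_mul, ← map_mul]
      congr 2; group
    · refine (hb1 v.2).1 ?_
      have := congrArg (ρ x) h
      rwa [← End.mul_apply, ← map_mul, mul_inv_cancel, map_one, map_zero] at this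
  choose φ hφ using h5
  refine (Nat.card_le_card_of_injective φ fun a a' h => Subtype.ext (hρ
    (LinearMap.ext_on h4 fun v hv => by rw [hφ a ⟨v, hv⟩, hφ a' ⟨v, hv⟩, h]))).trans ?_
  have h6 : Nat.card {μ // (ρ g).eigenspace μ ≠ ⊥} ≤ n := by
    rw [Nat.card_eq_fintype_card]
    exact (ρ g).eigenspaces_iSupIndep.subtype_ne_bot_le_finrank.trans hn
  have h7 : Nat.card b ≤ n := by
    cases nonempty_fintype b
    rw [Nat.card_eq_fintype_card]
    exact hb3.fintype_card_le_finrank.trans hn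
  rw [Nat.card_fun]
  exact (Nat.pow_le_pow_left (h6.trans n.le_succ) _).trans (Nat.pow_le_pow_right n.succ_pos h7)

/-- Restriction of a representation to an invariant subspace. -/
def resRep (ρ : G →* End K V) (W : Submodule K V) (h : ∀ g, ∀ v ∈ W, ρ g v ∈ W) :
    G →* End K W where
  toFun g := (ρ g).restrict (h g)
  map_one' := by ext; simp
  map_mul' _ _ := by ext; simp

theorem exists_split {f : End K V} {q : ℕ} (hq : (q : K) ≠ 0) (h : f ^ q = 1)
    (hf : ¬ ∀ x, Commute f x) : ∃ W₁ W₂ : Submodule K V, W₁ ≠ ⊤ ∧ W₂ ≠ ⊤ ∧ W₁ ⊔ W₂ = ⊤ ∧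
      ∀ x, Commute f x → (∀ v ∈ W₁, x v ∈ W₁) ∧ ∀ v ∈ W₂, x v ∈ W₂ := by
  haveI : Nontrivial V := not_subsingleton_iff_nontrivial.1 fun _ =>
    hf fun _ => Subsingleton.elim _ _
  obtain ⟨μ, hμ⟩ := End.exists_eigenvalue f
  have hk : LinearMap.ker (f - μ • 1) = f.eigenspace μ := by rw [End.eigenspace_def]
  refine ⟨LinearMap.ker (f - μ • 1), LinearMap.range (f - μ • 1), fun h1 => hf fun x => ?_,
    fun h1 => hμ ?_, ?_, fun x hx => ⟨fun v hv => ?_, ?_⟩⟩
  · rw [sub_eq_zero.1 (LinearMap.ker_eq_top.1 h1)]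
    exact (Commute.one_left x).smul_left μ
  · exact hk.symm.trans (LinearMap.ker_eq_bot_iff_range_eq_top.2 h1)
  · refine Submodule.eq_top_of_finrank_eq ?_
    have h1 : LinearMap.ker (f - μ • 1) ⊓ LinearMap.range (f - μ • 1) = ⊥ := by
      refine eq_bot_iff.2 ?_
      rintro _ ⟨h1, v, rfl⟩
      have h2 : v ∈ f.maxGenEigenspace μ := (End.mem_maxGenEigenspace _ _ _).2 ⟨2, h1⟩
      rwa [maxGen_eq_of_pow hq h, ← hk] at h2
    have h2 := Submodule.finrank_sup_add_finrank_inf_eq (LinearMap.ker (f - μ • 1))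
      (LinearMap.range (f - μ • 1))
    have h3 := LinearMap.finrank_range_add_finrank_ker (f - μ • 1)
    rw [h1, finrank_bot] at h2
    omega
  · have h1 : Commute (f - μ • 1) x := hx.sub_left ((Commute.one_left x).smul_left μ)
    rw [LinearMap.mem_ker, ← End.mul_apply, h1.eq, End.mul_apply, LinearMap.mem_ker.1 hv, map_zero]
  · have h1 : Commute (f - μ • 1) x := hx.sub_left ((Commute.one_left x).smul_left μ)
    rintro _ ⟨v, rfl⟩
    exact ⟨x v, by rw [← End.mul_apply, h1.eq, End.mul_apply]⟩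

end linear

theorem brauer_feit_aux {p : ℕ} (hp : p.Prime) (m n : ℕ) : ∃ N : ℕ, 1 ≤ N ∧
    ∀ (G : Type u) (K V : Type v) [Group G] [Finite G] [Field K] [IsAlgClosed K] [CharP K p]
      [AddCommGroup V] [Module K V] [FiniteDimensional K V] (ρ : G →* End K V),
      finrank K V ≤ n → (Nat.card G).factorization p ≤ m →
      ∃ A : Subgroup G, (∀ a ∈ A, ∀ b ∈ A, Commute (ρ a) (ρ b)) ∧ A.index ≤ N := by
  induction n with
  | zero =>
    refine ⟨1, le_rfl, fun G K V _ _ _ _ _ _ _ _ ρ hn _ => ⟨⊤, fun a _ b _ => ?_, by simp⟩⟩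
    haveI : Subsingleton V := finrank_zero_iff.1 (Nat.le_zero.1 hn)
    exact Subsingleton.elim _ _
  | succ n ih =>
    obtain ⟨N, hN, ih⟩ := ih
    obtain ⟨L, hL⟩ := jordan_core.{u, v, v} hp m (N * N) ((n + 1 + 1) ^ (n + 1))
      ((n + 1) * (n + 1)) (Nat.mul_pos hN hN)
    refine ⟨max 1 L, le_max_left _ _, fun G K V _ _ _ _ _ _ _ _ ρ hn hm => ?_⟩
    let σ : G ⧸ ρ.ker →* End K V := QuotientGroup.lift _ ρ fun _ h => h
    have hσ : Function.Injective σ := (injective_iff_map_eq_one σ).2 fun x hx => by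
      obtain ⟨x, rfl⟩ := QuotientGroup.mk_surjective x
      exact (QuotientGroup.eq_one_iff x).2 hx
    have hm' : (Nat.card (G ⧸ ρ.ker)).factorization p ≤ m :=
      (Nat.factorization_le_factorization_of_dvd_right (card_quotient_dvd_card _)
        Nat.card_pos.ne' Nat.card_pos.ne').trans hm
    have hq : ((ordCompl[p] (Nat.card (G ⧸ ρ.ker)) : ℕ) : K) ≠ 0 := fun h =>
      Nat.not_dvd_ordCompl hp Nat.card_pos.ne' ((CharP.cast_eq_zero_iff K p _).1 h)
    refine (hL (G ⧸ ρ.ker) K (End K V) σ _ hσ hm' rfl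
      (by rw [finrank_linearMap]; exact Nat.mul_le_mul hn hn) (fun g h1 h2 => ?_)
      (card_isConj_le σ hσ hq hn)).elim fun A ⟨hA, hAL⟩ => ?_
    swap
    · refine ⟨A.comap (QuotientGroup.mk' _), fun a ha b hb => (hA _ ha _ hb).map σ, ?_⟩
      rw [index_comap_of_surjective _ (QuotientGroup.mk'_surjective _)]
      exact le_max_of_le_right hAL
    obtain ⟨W₁, W₂, k₁, k₂, k₃, k₄⟩ := exists_split (f := σ g) hq
      (by rw [← map_pow, h1, map_one]) fun h => h2 ⟨h1, fun x => hσ (by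
        rw [map_mul, map_mul, (h (σ x)).eq]), h⟩
    have k₅ := fun x : centralizer {g} =>
      k₄ (σ x) ((show Commute g x from x.2 g rfl).map σ)
    have hm'' : (Nat.card (centralizer {g})).factorization p ≤ m :=
      (Nat.factorization_le_factorization_of_dvd_right (card_subgroup_dvd_card _)
        Nat.card_pos.ne' Nat.card_pos.ne').trans hm'
    obtain ⟨A₁, l₁, l₂⟩ := ih (centralizer {g}) K W₁
      (resRep (σ.comp (centralizer {g}).subtype) W₁ fun x => (k₅ x).1)
      (by have := Submodule.finrank_lt k₁; omega) hm''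
    obtain ⟨A₂, l₃, l₄⟩ := ih (centralizer {g}) K W₂
      (resRep (σ.comp (centralizer {g}).subtype) W₂ fun x => (k₅ x).2)
      (by have := Submodule.finrank_lt k₂; omega) hm''
    refine ⟨(A₁ ⊓ A₂).map (centralizer {g}).subtype, ?_, ?_⟩
    · rintro _ ⟨a, ha, rfl⟩ _ ⟨b, hb, rfl⟩
      refine hσ (LinearMap.ext fun v => ?_)
      obtain ⟨x, hx, y, hy, rfl⟩ := Submodule.mem_sup.1 (k₃ ▸ Submodule.mem_top (x := v))
      rw [map_mul, map_mul, map_add, map_add]
      have e1 := congrArg Subtype.val (DFunLike.congr_fun (l₁ a ha.1 b hb.1).eq ⟨x, hx⟩)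
      have e2 := congrArg Subtype.val (DFunLike.congr_fun (l₃ a ha.2 b hb.2).eq ⟨y, hy⟩)
      exact congrArg₂ (· + ·) e1 e2
    · rw [relIndex, subgroupOf, comap_map_eq_self_of_injective (subtype_injective _)]
      exact index_inf_le.trans (Nat.mul_le_mul l₂ l₄)

theorem index_normalCore_le {G : Type*} [Group G] [Finite G] (A : Subgroup G) :
    A.normalCore.index ≤ A.index.factorial := by
  rw [normalCore_eq_ker, index_ker, index, ← Nat.card_perm]
  exact card_le_card_group _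

theorem brauer_feit_linear (p : ℕ) [hp : Fact p.Prime] : ∃ f : ℕ → ℕ → ℕ,
    ∀ (G : Type u) [Group G] [Finite G] (F : Type v) [Field F] [CharP F p] (n : ℕ)
      (ρ : Representation F G (Fin n → F)), Function.Injective ρ → ∀ m : ℕ,
      (Nat.card G).factorization p = m →
      ∃ A : Subgroup G, A.Normal ∧ IsMulCommutative A ∧ A.index < f m n := by
  choose N _ hN using brauer_feit_aux.{u, v} hp.out
  refine ⟨fun m n => (N m n).factorial + 1, fun G _ _ F _ _ n ρ hρ m hm => ?_⟩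
  let φ : End F (Fin n → F) →+* End (AlgebraicClosure F) (Fin n → AlgebraicClosure F) :=
    (Matrix.toLinAlgEquiv' (R := AlgebraicClosure F)).toRingEquiv.toRingHom.comp
      ((algebraMap F (AlgebraicClosure F)).mapMatrix.comp
        (LinearMap.toMatrixAlgEquiv' (R := F)).toRingEquiv.toRingHom)
  have hφ : Function.Injective φ := Matrix.toLinAlgEquiv'.injective.comp
    ((Matrix.map_injective (algebraMap F (AlgebraicClosure F)).injective).comp
      LinearMap.toMatrixAlgEquiv'.injective)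
  obtain ⟨A, h1, h2⟩ := hN m n G (AlgebraicClosure F) (Fin n → AlgebraicClosure F)
    (φ.toMonoidHom.comp ρ) (by simp) hm.le
  refine ⟨A.normalCore, inferInstance, ⟨⟨fun a b => Subtype.ext ((hφ.comp hρ) ?_)⟩⟩,
    Nat.lt_succ_of_le ((index_normalCore_le A).trans (Nat.factorial_le h2))⟩
  exact (map_mul (φ.toMonoidHom.comp ρ) _ _).trans
    ((h1 _ (A.normalCore_le a.2) _ (A.normalCore_le b.2)).eq.trans (map_mul _ _ _).symm)

end Cfsg.Agent.H8
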