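import Mathlib
import Cfsg.Agent.H6.Col

/-!
Frobenius' commutation theorem for finite unitary groups and Jordan's theorem.
-/

set_option autoImplicit false
set_option linter.dupNamespace false

namespace Cfsg.Agent.H8

open Cfsg Cfsg.Agent.H4 Cfsg.Agent.H6
open scoped ComplexConjugate

section prj
variable {H : Type*} [Group H] [Fintype H] {R : Type*} [Ring R] [Algebra ℂ R]

/-- The projection onto the `lam`-eigenspace. -/
noncomputable def prj (u : H →* R) (lam : H →* ℂˣ) : R :=
  (Nat.card H : ℂ)⁻¹ • ∑ h, ((lam h⁻¹ : ℂˣ) : ℂ) • u h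

variable (u : H →* R)

theorem mul_prj (lam : H →* ℂˣ) (x : H) : u x * prj u lam = (lam x : ℂ) • prj u lam := by
  rw [prj, mul_smul_comm, smul_comm (lam x : ℂ), Finset.mul_sum, Finset.smul_sum (r := (lam x : ℂ))]
  congr 1
  refine Fintype.sum_equiv (Equiv.mulLeft x) _ _ fun h => ?_
  simp only [mul_smul_comm, ← map_mul, Equiv.coe_mulLeft, smul_smul, ← Units.val_mul]
  rw [mul_inv_rev, map_mul lam x, mul_comm (lam x), ← map_mul, inv_mul_cancel_right]

theorem prj_mul (lam : H →* ℂˣ) (x : H) : prj u lam * u x = (lam x : ℂ) • prj u lam := by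
  rw [prj, smul_mul_assoc, smul_comm (lam x : ℂ), Finset.sum_mul, Finset.smul_sum (r := (lam x : ℂ))]
  congr 1
  refine Fintype.sum_equiv (Equiv.mulRight x) _ _ fun h => ?_
  simp only [smul_mul_assoc, ← map_mul, Equiv.coe_mulRight, smul_smul, ← Units.val_mul]
  rw [mul_inv_rev, mul_inv_cancel_left]

theorem prj_mul_prj (lam μ : H →* ℂˣ) [Decidable (lam = μ)] :
    prj u μ * prj u lam = if lam = μ then prj u lam else 0 := by
  have h1 : prj u μ * prj u lam = classInner (lf lam) (lf μ) • prj u lam := by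
    conv_lhs => rw [prj]
    rw [smul_mul_assoc, Finset.sum_mul, classInner_def, mul_smul, Finset.sum_smul]
    congr 1
    refine Finset.sum_congr rfl fun h _ => ?_
    rw [smul_mul_assoc, mul_prj, smul_smul, lf, lf, conj_linear, mul_comm]
  rw [h1, inner_lf]
  split_ifs <;> simp

theorem sum_prj (hc : ∀ a b : H, a * b = b * a) [Fintype (H →* ℂˣ)] :
    ∑ lam, prj u lam = 1 := by
  simp only [prj]
  rw [← Finset.smul_sum, Finset.sum_comm]
  simp only [← Finset.sum_smul]
  rw [Finset.sum_eq_single 1]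
  · simp only [inv_one, map_one, Units.val_one, Finset.sum_const, Finset.card_univ, nsmul_eq_mul,
      mul_one, card_lf hc, smul_smul]
    rw [inv_mul_cancel₀ natCard_ne_zero', one_smul]
  · intro h _ hh
    rw [sum_lf_apply hc (inv_ne_one.2 hh), zero_smul]
  · simp

theorem map_prj {S : Type*} [Ring S] [Algebra ℂ S] (φ : R →ₐ[ℂ] S) (lam : H →* ℂˣ) :
    φ (prj u lam) = prj ((φ : R →* S).comp u) lam := by
  simp [prj]

end prj

theorem card_le_finrank_of_prj {Λ V : Type*} [Fintype Λ] [DecidableEq Λ] [AddCommGroup V]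
    [Module ℂ V] [FiniteDimensional ℂ V] (P : Λ → Module.End ℂ V) (hne : ∀ i, P i ≠ 0)
    (h : ∀ i j, P i * P j = if j = i then P j else 0) :
    Fintype.card Λ ≤ Module.finrank ℂ V := by
  have h1 : ∀ i, ∃ v, P i v ≠ 0 := fun i => by
    by_contra h1
    push Not at h1
    exact hne i (LinearMap.ext h1)
  choose v hv using h1
  refine LinearIndependent.fintype_card_le_finrank (b := fun i => P i (v i)) ?_
  rw [Fintype.linearIndependent_iff]
  intro c hc i
  have h2 := congrArg (P i) hc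
  rw [map_sum, map_zero, Finset.sum_eq_single i] at h2
  · rw [map_smul, ← Module.End.mul_apply, h, if_pos rfl] at h2
    exact (smul_eq_zero.1 h2).resolve_right (hv i)
  · intro j _ hj
    rw [map_smul, ← Module.End.mul_apply, h, if_neg hj]
    simp
  · simp

theorem exists_arc : ∃ f : ℂ → Finset.Ioc (-6 : ℤ) 6, ∀ z w : ℂ, ‖z‖ = 1 → ‖w‖ = 1 → f z = f w →
    √3 / 2 < (z⁻¹ * w).re := by
  have hp := Real.pi_pos
  refine ⟨fun z => ⟨⌈6 * z.arg / Real.pi⌉, ?_⟩, fun z w hz hw h => ?_⟩
  · rw [Finset.mem_Ioc, Int.lt_ceil, Int.ceil_le, lt_div_iff₀ hp, div_le_iff₀ hp]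
    have h1 := Complex.neg_pi_lt_arg z
    have h2 := Complex.arg_le_pi z
    push_cast
    constructor <;> linarith
  · have h1 : ⌈6 * z.arg / Real.pi⌉ = ⌈6 * w.arg / Real.pi⌉ := congrArg Subtype.val h
    have h2 : |6 * z.arg / Real.pi - 6 * w.arg / Real.pi| < 1 := by
      have e1 := Int.le_ceil (6 * z.arg / Real.pi)
      have e2 := Int.ceil_lt_add_one (6 * z.arg / Real.pi)
      have e3 := Int.le_ceil (6 * w.arg / Real.pi)
      have e4 := Int.ceil_lt_add_one (6 * w.arg / Real.pi)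
      rw [h1] at e1 e2
      rw [abs_sub_lt_iff]
      constructor <;> linarith
    rw [← sub_div, abs_div, abs_of_pos hp, div_lt_one hp, ← mul_sub, abs_mul] at h2
    have h3 : z⁻¹ * w = Complex.exp (((w.arg - z.arg : ℝ) : ℂ) * Complex.I) := by
      conv_lhs => rw [← Complex.norm_mul_exp_arg_mul_I z, ← Complex.norm_mul_exp_arg_mul_I w, hz, hw]
      simp only [Complex.ofReal_one, one_mul, ← Complex.exp_neg, ← Complex.exp_add]
      congr 1
      push_cast
      ring
    rw [h3, Complex.exp_ofReal_mul_I_re, ← Real.cos_pi_div_six, ← Real.cos_abs (_ - _), abs_sub_comm]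
    refine Real.cos_lt_cos_of_nonneg_of_le_pi (abs_nonneg _) (by linarith) ?_
    norm_num at h2
    linarith

section cstar
variable {R : Type*} [CStarAlgebra R] [Nontrivial R]

section
variable {H : Type*} [Group H] (u : H →* R) (hu : ∀ g, star (u g) = u g⁻¹)
include hu

theorem norm_unit_eq (g : H) : ‖u g‖ = 1 :=
  CStarRing.norm_of_mem_unitary (Unitary.mem_iff.2
    ⟨by rw [hu, ← map_mul, inv_mul_cancel, map_one], by rw [hu, ← map_mul, mul_inv_cancel, map_one]⟩)

theorem norm_conj_sub_le (x g : H) (α : ℂ) :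
    ‖u (x * g * x⁻¹) - algebraMap ℂ R α‖ ≤ ‖u g - algebraMap ℂ R α‖ := by
  have e : u (x * g * x⁻¹) - algebraMap ℂ R α = u x * (u g - algebraMap ℂ R α) * u x⁻¹ := by
    rw [mul_sub, sub_mul, ← Algebra.commutes, mul_assoc _ (u x), ← map_mul, ← map_mul, ← map_mul,
      mul_inv_cancel, map_one, mul_one]
  rw [e]
  refine (norm_mul_le _ _).trans ?_
  rw [norm_unit_eq u hu, mul_one]
  refine (norm_mul_le _ _).trans ?_
  rw [norm_unit_eq u hu, one_mul]

variable [Fintype H]

omit [Nontrivial R] in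
theorem star_prj (lam : H →* ℂˣ) : star (prj u lam) = prj u lam := by
  rw [prj, star_smul, star_sum]
  congr 1
  · simp
  refine Fintype.sum_equiv (Equiv.inv H) _ _ fun h => ?_
  rw [star_smul, hu, Equiv.inv_apply, ← conj_linear lam h⁻¹]
  rfl

theorem norm_prj_sub (lam : H →* ℂˣ) : ‖prj u lam - algebraMap ℂ R (1 / 2)‖ = 1 / 2 := by
  classical
  have h1 := prj_mul_prj u lam lam
  rw [if_pos rfl] at h1
  have h2 : star (prj u lam - algebraMap ℂ R (1 / 2)) * (prj u lam - algebraMap ℂ R (1 / 2)) =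
      algebraMap ℂ R (1 / 4) := by
    rw [star_sub, star_prj u hu, ← algebraMap_star_comm]
    simp only [Algebra.algebraMap_eq_smul_one, mul_sub, sub_mul, h1, mul_smul_comm, smul_mul_assoc,
      mul_one, one_mul, smul_smul]
    rw [show star (1 / 2 : ℂ) = 1 / 2 by simp]
    module
  have h3 := CStarRing.norm_star_mul_self (x := prj u lam - algebraMap ℂ R (1 / 2))
  rw [h2, norm_algebraMap'] at h3
  have h4 : ‖(1 / 4 : ℂ)‖ = 1 / 4 := by simp
  nlinarith [norm_nonneg (prj u lam - algebraMap ℂ R (1 / 2))]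

theorem exists_norm_eq (hc : ∀ a b : H, a * b = b * a) (x : H) (α : ℂ) :
    ∃ lam, prj u lam ≠ 0 ∧ ‖u x - algebraMap ℂ R α‖ = ‖(lam x : ℂ) - α‖ := by
  classical
  have := Fintype.ofFinite (H →* ℂˣ)
  have hn : IsStarNormal (u x - algebraMap ℂ R α) := ⟨by
    rw [star_sub, hu, ← algebraMap_star_comm]
    refine Commute.sub_left (Commute.sub_right ?_ (Algebra.commutes _ _).symm)
      (Algebra.commutes _ _)
    exact (Commute.refl x).inv_left.map u⟩
  obtain ⟨k, hk, h1⟩ := spectrum.exists_nnnorm_eq_spectralRadius (u x - algebraMap ℂ R α)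
  rw [IsStarNormal.spectralRadius_eq_nnnorm, ENNReal.coe_inj] at h1
  have h2 : ‖k‖ = ‖u x - algebraMap ℂ R α‖ := congrArg NNReal.toReal h1
  by_contra h3
  push Not at h3
  have h4 : ∀ lam : H →* ℂˣ, ((k - (lam x - α))⁻¹ * (k - (lam x - α))) • prj u lam = prj u lam :=
    fun lam => by
      by_cases h : prj u lam = 0
      · rw [h, smul_zero]
      · rw [inv_mul_cancel₀ (sub_ne_zero.2 fun e => h3 lam h (by rw [← h2, e])), one_smul]
  refine spectrum.mem_iff.1 hk ⟨⟨_, ∑ lam, (k - (lam x - α))⁻¹ • prj u lam, ?_, ?_⟩, rfl⟩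
  · rw [← sum_prj u hc, Finset.mul_sum]
    refine Finset.sum_congr rfl fun lam _ => ?_
    rw [mul_smul_comm, sub_mul, sub_mul, mul_prj, ← Algebra.smul_def, ← Algebra.smul_def,
      ← sub_smul, ← sub_smul, smul_smul, h4]
  · rw [← sum_prj u hc, Finset.sum_mul]
    refine Finset.sum_congr rfl fun lam _ => ?_
    rw [smul_mul_assoc, mul_sub, mul_sub, prj_mul, ← Algebra.commutes, ← Algebra.commutes,
      ← Algebra.smul_def, ← Algebra.smul_def, ← sub_smul, ← sub_smul, smul_smul, h4]

end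

omit [Nontrivial R] in
theorem norm_comm_le (a b : R) (α β : ℂ) :
    ‖a * b - b * a‖ ≤ 2 * ‖a - algebraMap ℂ R α‖ * ‖b - algebraMap ℂ R β‖ := by
  have e : a * b - b * a = (a - algebraMap ℂ R α) * (b - algebraMap ℂ R β) -
      (b - algebraMap ℂ R β) * (a - algebraMap ℂ R α) := by
    simp only [Algebra.algebraMap_eq_smul_one, mul_sub, sub_mul, mul_smul_comm, smul_mul_assoc,
      mul_one, one_mul, smul_smul]
    module
  rw [e]
  refine (norm_sub_le _ _).trans ?_
  have h1 := norm_mul_le (a - algebraMap ℂ R α) (b - algebraMap ℂ R β)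
  have h2 := norm_mul_le (b - algebraMap ℂ R β) (a - algebraMap ℂ R α)
  linarith

variable {G : Type*} [Group G] [Finite G] (u : G →* R) (hu : ∀ g, star (u g) = u g⁻¹)
include hu

theorem commute_of_commute_conj {a b : G} (hb : ‖u b - algebraMap ℂ R 1‖ < 1)
    (h : Commute (u a) (u (b * a * b⁻¹))) : Commute (u a) (u b) := by
  classical
  let H := Subgroup.zpowers a
  have := Fintype.ofFinite H
  have := Fintype.ofFinite (H →* ℂˣ)
  have hc : ∀ x y : H, x * y = y * x := fun x y => mul_comm' x y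
  let v := u.comp H.subtype
  have hv : ∀ g, star (v g) = v g⁻¹ := fun g => hu g
  have h1 : ∀ lam, Commute (prj v lam) (u b) := fun lam => by
    obtain ⟨P, hP⟩ : ∃ P, P = prj v lam := ⟨_, rfl⟩
    have hPP : P * P = P := by rw [hP, prj_mul_prj, if_pos rfl]
    obtain ⟨Q, hQ⟩ : ∃ Q, Q = u b * P * u b⁻¹ := ⟨_, rfl⟩
    have e1 : u b⁻¹ * u b = 1 := by rw [← map_mul, inv_mul_cancel, map_one]
    have e2 : u b * u b⁻¹ = 1 := by rw [← map_mul, mul_inv_cancel, map_one]
    have hQQ : Q * Q = Q := by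
      rw [hQ]
      calc _ = u b * (P * (u b⁻¹ * u b) * P) * u b⁻¹ := by noncomm_ring
        _ = _ := by rw [e1, mul_one, hPP]
    have hPQ : Commute P Q := by
      rw [hQ, hP, prj, mul_smul_comm, smul_mul_assoc, Finset.mul_sum, Finset.sum_mul]
      refine Commute.smul_left (Commute.smul_right (Commute.sum_left _ _ _ fun x _ =>
        Commute.sum_right _ _ _ fun y _ => ?_) _) _
      rw [mul_smul_comm, smul_mul_assoc]
      refine Commute.smul_left (Commute.smul_right ?_ _) _
      obtain ⟨i, hi⟩ := mem_powers_iff_mem_zpowers.2 x.2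
      obtain ⟨j, hj⟩ := mem_powers_iff_mem_zpowers.2 y.2
      change Commute (u x) (u b * u y * u b⁻¹)
      rw [← hi, ← hj, ← map_mul, ← map_mul, ← conj_pow, map_pow, map_pow]
      exact h.pow_pow i j
    have h2 : ‖P - Q‖ < 1 := by
      have e : P - Q = (P * u b - u b * P) * u b⁻¹ := by rw [sub_mul, mul_assoc P, e2, mul_one, hQ]
      have h3 := norm_comm_le P (u b) (1 / 2) 1
      rw [hP, norm_prj_sub v hv, ← hP] at h3
      rw [e]
      refine (norm_mul_le _ _).trans_lt ?_
      rw [norm_unit_eq u hu]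
      linarith
    have h3 : (P - Q) * (P - Q) * (P - Q) = P - Q := by
      have e3 : Q * P = P * Q := hPQ.eq.symm
      have e4 : (P - Q) * (P - Q) = P + Q - 2 * (P * Q) := by
        rw [sub_mul, mul_sub, mul_sub, hPP, hQQ, e3]; noncomm_ring
      have e5 : P * Q * P = P * Q := by rw [mul_assoc, e3, ← mul_assoc, hPP]
      have e6 : P * Q * Q = P * Q := by rw [mul_assoc, hQQ]
      rw [e4]
      calc _ = P * P + Q * P - 2 * (P * Q * P) - (P * Q + Q * Q - 2 * (P * Q * Q)) := by
            noncomm_ring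
        _ = _ := by rw [hPP, e3, e5, hQQ, e6]; noncomm_ring
    have h4 : ‖P - Q‖ ≤ ‖P - Q‖ * ‖P - Q‖ * ‖P - Q‖ := by
      conv_lhs => rw [← h3]
      exact (norm_mul_le _ _).trans (mul_le_mul_of_nonneg_right (norm_mul_le _ _) (norm_nonneg _))
    have h5 : ‖P - Q‖ = 0 := by
      by_contra h5
      have h6 := lt_of_le_of_ne (norm_nonneg (P - Q)) (Ne.symm h5)
      have h7 : ‖P - Q‖ * ‖P - Q‖ < 1 := by nlinarith
      nlinarith
    rw [norm_eq_zero, sub_eq_zero] at h5
    rw [← hP]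
    change P * u b = u b * P
    conv_lhs => rw [h5, hQ, mul_assoc, e1, mul_one]
  have h2 : u a = ∑ lam, (lam ⟨a, Subgroup.mem_zpowers a⟩ : ℂ) • prj v lam := by
    rw [← mul_one (u a), ← sum_prj v hc, Finset.mul_sum]
    exact Finset.sum_congr rfl fun lam _ => mul_prj v lam ⟨a, Subgroup.mem_zpowers a⟩
  rw [h2]
  exact Commute.sum_left _ _ _ fun lam _ => (h1 lam).smul_left _

theorem frobenius_commute {a : G} {α : ℂ} (ha : ‖u a - algebraMap ℂ R α‖ < 1 / 2) (b : G)
    (hb : ‖u b - algebraMap ℂ R 1‖ < 1) : Commute (u a) (u b) := by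
  induction hn : {g | ‖u g - algebraMap ℂ R 1‖ < ‖u b - algebraMap ℂ R 1‖}.ncard
    using Nat.strong_induction_on generalizing b with
  | _ n ih =>
  by_cases h0 : ‖u b - algebraMap ℂ R 1‖ = 0
  · rw [norm_eq_zero, sub_eq_zero, map_one] at h0
    rw [h0]
    exact Commute.one_right _
  have h1 := lt_of_le_of_ne (norm_nonneg _) (Ne.symm h0)
  have h2 : ‖u (a * b * a⁻¹ * b⁻¹) - algebraMap ℂ R 1‖ < ‖u b - algebraMap ℂ R 1‖ := by
    have e : u (a * b * a⁻¹ * b⁻¹) - algebraMap ℂ R 1 =
        (u a * u b - u b * u a) * u (a⁻¹ * b⁻¹) := by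
      simp only [sub_mul, ← map_mul, map_one]
      rw [mul_assoc (a * b), show b * a * (a⁻¹ * b⁻¹) = 1 by group, map_one]
    have h3 := norm_comm_le (u a) (u b) α 1
    rw [e]
    refine (norm_mul_le _ _).trans_lt ?_
    rw [norm_unit_eq u hu]
    nlinarith
  have h3 := ih _ (hn ▸ Set.ncard_lt_ncard ⟨fun g hg => lt_trans hg h2, fun h =>
    lt_irrefl _ (Set.mem_setOf_eq ▸ h h2 :)⟩) _ (h2.trans hb) rfl
  refine commute_of_commute_conj u hu hb ?_
  have h4 : Commute (u a) (u a⁻¹ * u (a * b * a⁻¹ * b⁻¹)) :=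
    ((Commute.refl a).inv_right.map u).mul_right h3
  rw [← map_mul, show a⁻¹ * (a * b * a⁻¹ * b⁻¹) = (b * a * b⁻¹)⁻¹ by group] at h4
  obtain ⟨c, hc⟩ : ∃ c, c = b * a * b⁻¹ := ⟨_, rfl⟩
  rw [← hc] at h4 ⊢
  have h5 := h4.pow_right (orderOf c⁻¹ - 1)
  rw [← map_pow] at h5
  have h6 : c⁻¹ ^ (orderOf c⁻¹ - 1) = c := by
    rw [← mul_left_inj c⁻¹, ← pow_succ, Nat.sub_add_cancel (orderOf_pos _), pow_orderOf_eq_one,
      mul_inv_cancel]
  rwa [h6] at h5

theorem jordan_cstar (hinj : Function.Injective u) {n : ℕ}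
    (hn : ∀ (H : Subgroup G) [Fintype H], Nat.card {lam // prj (u.comp H.subtype) lam ≠ 0} ≤ n) :
    ∃ A : Subgroup G, A.Normal ∧ (∀ x ∈ A, ∀ y ∈ A, x * y = y * x) ∧ ∀ H : Subgroup G,
      (∀ x ∈ H, ∀ y ∈ H, x * y = y * x) → (A.subgroupOf H).index ≤ 12 ^ n := by
  classical
  let S : Set G := {g | ‖u g - algebraMap ℂ R (√3 / 2 : ℝ)‖ < 1 / 2 ∧ ‖u g - algebraMap ℂ R 1‖ < 1}
  have h1 : Subgroup.closure S ≤ Subgroup.centralizer S := (Subgroup.closure_le _).2 fun b hb a ha =>
    hinj (by rw [map_mul, map_mul]; exact (frobenius_commute u hu ha.1 b hb.2).eq)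
  refine ⟨Subgroup.closure S, ⟨fun g hg x => ?_⟩, fun x hx y hy => ?_, fun H hH => ?_⟩
  · refine (Subgroup.closure_le ((Subgroup.closure S).comap (MulAut.conj x).toMonoidHom)).2
      (fun g hg => Subgroup.subset_closure ?_) hg
    exact ⟨(norm_conj_sub_le u hu x g _).trans_lt hg.1, (norm_conj_sub_le u hu x g _).trans_lt hg.2⟩
  · exact (Subgroup.closure_le (Subgroup.centralizer {y})).2 (fun g hg z hz => by
      rw [hz]; exact (h1 hy g hg).symm) hx y rfl |>.symm
  · have := Fintype.ofFinite H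
    have := Fintype.ofFinite (H →* ℂˣ)
    let v := u.comp H.subtype
    have hv : ∀ g, star (v g) = v g⁻¹ := fun g => hu g
    have hc : ∀ x y : H, x * y = y * x := fun x y => Subtype.ext (hH x x.2 y y.2)
    obtain ⟨f, hf⟩ := exists_arc
    let F : H ⧸ (Subgroup.closure S).subgroupOf H → {lam // prj v lam ≠ 0} → Finset.Ioc (-6 : ℤ) 6 :=
      fun q lam => f (lam.1 q.out)
    have hF : Function.Injective F := fun q q' h => by
      rw [← QuotientGroup.out_eq' q, ← QuotientGroup.out_eq' q', QuotientGroup.eq]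
      have h2 : ∀ lam : H →* ℂˣ, prj v lam ≠ 0 → √3 / 2 < (lam (q.out⁻¹ * q'.out) : ℂ).re :=
        fun lam hl => by
          have := hf _ _ (linear_norm lam q.out) (linear_norm lam q'.out) (congrFun h ⟨lam, hl⟩)
          simpa using this
      have h3 : (√3 : ℝ) * √3 = 3 := Real.mul_self_sqrt (by norm_num)
      have h4 : (1 : ℝ) < √3 := by nlinarith [Real.sqrt_nonneg 3]
      refine Subgroup.subset_closure ⟨?_, ?_⟩
      · obtain ⟨lam, hl, e⟩ := exists_norm_eq v hv hc (q.out⁻¹ * q'.out) (√3 / 2 : ℝ)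
        have h5 := h2 lam hl
        have h6 := linear_norm lam (q.out⁻¹ * q'.out)
        refine e.trans_lt (lt_of_pow_lt_pow_left₀ 2 (by norm_num) ?_)
        generalize (lam (q.out⁻¹ * q'.out) : ℂ) = w at *
        rw [← sq_eq_sq₀ (norm_nonneg _) zero_le_one, Complex.sq_norm, Complex.normSq_apply] at h6
        rw [Complex.sq_norm, Complex.normSq_apply]
        simp only [Complex.sub_re, Complex.ofReal_re, Complex.sub_im, Complex.ofReal_im]
        nlinarith
      · obtain ⟨lam, hl, e⟩ := exists_norm_eq v hv hc (q.out⁻¹ * q'.out) 1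
        have h5 := h2 lam hl
        have h6 := linear_norm lam (q.out⁻¹ * q'.out)
        refine e.trans_lt (lt_of_pow_lt_pow_left₀ 2 (by norm_num) ?_)
        generalize (lam (q.out⁻¹ * q'.out) : ℂ) = w at *
        rw [← sq_eq_sq₀ (norm_nonneg _) zero_le_one, Complex.sq_norm, Complex.normSq_apply] at h6
        rw [Complex.sq_norm, Complex.normSq_apply]
        simp only [Complex.sub_re, Complex.one_re, Complex.sub_im, Complex.one_im]
        nlinarith
    have h2 := Nat.card_le_card_of_injective F hF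
    rw [Nat.card_fun, Nat.card_eq_fintype_card (α := Finset.Ioc (-6 : ℤ) 6), Fintype.card_coe] at h2
    exact h2.trans (Nat.pow_le_pow_right (by norm_num) (hn H))

end cstar

theorem jordan_inner {G : Type*} [Group G] [Finite G] {W : Type*} [NormedAddCommGroup W]
    [InnerProductSpace ℂ W] [FiniteDimensional ℂ W] (ρ : G →* Module.End ℂ W)
    (hf : Function.Injective ρ) (hρ : ∀ g x y, inner ℂ (ρ g⁻¹ x) y = inner ℂ x (ρ g y)) :
    ∃ A : Subgroup G, A.Normal ∧ (∀ x ∈ A, ∀ y ∈ A, x * y = y * x) ∧ ∀ H : Subgroup G,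
      (∀ x ∈ H, ∀ y ∈ H, x * y = y * x) → (A.subgroupOf H).index ≤ 12 ^ Module.finrank ℂ W := by
  classical
  haveI : CompleteSpace W := FiniteDimensional.complete ℂ W
  let φ := Module.End.toContinuousLinearMap (𝕜 := ℂ) W
  let u : G →* (W →L[ℂ] W) := (φ : Module.End ℂ W →* _).comp ρ
  have hinj : Function.Injective u := φ.injective.comp hf
  rcases subsingleton_or_nontrivial (W →L[ℂ] W) with h | h
  · have := hinj.subsingleton
    refine ⟨⊤, inferInstance, fun x _ y _ => Subsingleton.elim _ _, fun H _ => ?_⟩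
    rw [Subgroup.top_subgroupOf, Subgroup.index_top]
    exact Nat.one_le_pow _ _ (by norm_num)
  refine jordan_cstar u (fun g => ?_) hinj fun H _ => ?_
  · symm
    rw [ContinuousLinearMap.star_eq_adjoint, ContinuousLinearMap.eq_adjoint_iff]
    exact hρ g
  · have := Fintype.ofFinite (H →* ℂˣ)
    rw [Nat.card_eq_fintype_card]
    refine card_le_finrank_of_prj (fun lam : {lam // prj (u.comp H.subtype) lam ≠ 0} =>
      φ.symm (prj (u.comp H.subtype) lam.1)) (fun i h => i.2 (φ.symm.injective (by simpa using h)))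
      fun i j => ?_
    rw [← map_mul, prj_mul_prj]
    by_cases hij : j = i
    · rw [if_pos hij, if_pos (congrArg Subtype.val hij)]
    · rw [if_neg hij, if_neg fun h => hij (Subtype.ext h), map_zero]

theorem jordan_frobenius {G : Type*} [Group G] [Finite G] {χ : G → ℂ} (hχ : IsCharacter G χ)
    (hf : ∀ g, χ g = χ 1 → g = 1) {n : ℕ} (hn : charDegree χ = n) :
    ∃ A : Subgroup G, A.Normal ∧ (∀ x ∈ A, ∀ y ∈ A, x * y = y * x) ∧ ∀ H : Subgroup G,
      (∀ x ∈ H, ∀ y ∈ H, x * y = y * x) → (A.subgroupOf H).index ≤ 12 ^ n := by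
  classical
  have := Fintype.ofFinite G
  obtain ⟨m, ρ, rfl⟩ := hχ
  obtain rfl : m = n := by
    rw [← hn]
    exact (charDegree_eq_of (by simp)).symm
  let ι : (Fin m → ℂ) →ₗ[ℂ] EuclideanSpace ℂ (G × Fin m) :=
    { toFun := fun v => WithLp.toLp 2 fun p => ρ p.1 v p.2
      map_add' := fun v w => by ext p; simp
      map_smul' := fun c v => by ext p; simp }
  have hι : Function.Injective ι := fun v w h => funext fun i => by
    simpa [ι] using congrArg (fun x => x (1, i)) h
  let e := LinearEquiv.ofInjective ι hι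
  let φ := e.conjAlgEquiv ℂ
  let u : G →* Module.End ℂ (LinearMap.range ι) := (φ : Module.End ℂ (Fin m → ℂ) →* _).comp ρ
  have hφ : ∀ g v, u g (e v) = e (ρ g v) := fun g v => by
    change e (ρ g (e.symm (e v))) = _
    rw [e.symm_apply_apply]
  have hinj : Function.Injective u := (injective_iff_map_eq_one u).2 fun g hg => hf g (by
    have h1 : ρ g = 1 := φ.injective (by rw [map_one]; exact hg)
    simp [Representation.character, h1])
  have hu : ∀ g x y, inner ℂ (u g⁻¹ x) y = inner ℂ x (u g y) := fun g x y => by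
    obtain ⟨x, rfl⟩ := e.surjective x
    obtain ⟨y, rfl⟩ := e.surjective y
    rw [hφ, hφ]
    change inner ℂ (ι _) (ι _) = inner ℂ (ι _) (ι _)
    simp only [PiLp.inner_apply]
    refine Fintype.sum_equiv ((Equiv.mulRight g⁻¹).prodCongr (Equiv.refl _)) _ _ fun p => ?_
    simp [ι, ← Module.End.mul_apply, ← map_mul]
  have h := jordan_inner (W := LinearMap.range ι) u hinj hu
  rwa [← e.finrank_eq, Module.finrank_fin_fun] at h

end Cfsg.Agent.H8
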