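import Mathlib
import Cfsg.Agent.H8.Deg2
import Cfsg.Agent.H8.Jordan1
import Cfsg.Agent.H1.Hall
import Cfsg.Agent.H3.HallCompl

/-!
Blichfeldt's theorem on Hall subgroups of linear groups and the explicit Jordan bound.
-/

set_option autoImplicit false
set_option linter.dupNamespace false

namespace Cfsg.Agent.H8

open Cfsg Cfsg.Agent.H4 Cfsg.Agent.H5 Cfsg.Agent.H3
open scoped ComplexConjugate Pointwise commutatorElement

universe u

/-- `G` is a linear group of degree at most `n`. -/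
def LinDeg (n : ℕ) (G : Type*) [Group G] : Prop :=
  ∃ χ, IsCharacter G χ ∧ charKer χ = ⊥ ∧ charDegree χ ≤ n

section
variable {G : Type*} [Group G] [Finite G] {n : ℕ} {χ : G → ℂ}

theorem index_eq_relIndex_of_sup {N L : Subgroup G} [N.Normal] (h : N ⊔ L = ⊤) :
    L.index = L.relIndex N := by
  have h1 := Subgroup.relIndex_mul_index (inf_le_left : N ⊓ L ≤ N)
  have h2 := Subgroup.relIndex_mul_index (inf_le_right : N ⊓ L ≤ L)
  rw [Subgroup.inf_relIndex_left] at h1
  rw [Subgroup.inf_relIndex_right, ← Subgroup.relIndex_sup_left, h, Subgroup.relIndex_top_right,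
    ← h1, mul_comm] at h2
  exact Nat.eq_of_mul_eq_mul_right (Nat.pos_of_ne_zero Subgroup.FiniteIndex.index_ne_zero) h2

theorem charKer_eq_bot_iff (hχ : IsCharacter G χ) : charKer χ = ⊥ ↔ ∀ g, χ g = χ 1 → g = 1 := by
  simp only [Subgroup.eq_bot_iff_forall, hχ.mem_charKer]

theorem LinDeg.of_injective (h : LinDeg n G) {H : Type*} [Group H] (f : H →* G)
    (hf : Function.Injective f) : LinDeg n H := by
  have := Finite.of_injective f hf
  obtain ⟨χ, hχ, h1, h2⟩ := h
  refine ⟨_, hχ.comp f, (charKer_eq_bot_iff (hχ.comp f)).2 fun g hg => hf ?_, ?_⟩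
  · rw [map_one] at hg ⊢
    exact (charKer_eq_bot_iff hχ).1 h1 _ hg
  · rwa [charDegree_eq_of (χ := fun x => χ (f x)) (d := charDegree χ)
      (by rw [map_one, hχ.charDegree_cast])]

theorem LinDeg.subgroup (h : LinDeg n G) (H : Subgroup G) : LinDeg n H :=
  h.of_injective H.subtype H.subtype_injective

theorem LinDeg.comm (h : LinDeg n G) (hπ : ∀ q, q.Prime → q ∣ Nat.card G → n < q) (a b : G) :
    a * b = b * a := by
  have := Fintype.ofFinite G
  obtain ⟨χ, hχ, h1, h2⟩ := h
  rw [← commutatorElement_eq_one_iff_mul_comm, ← Subgroup.mem_bot, ← h1]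
  refine hχ.mem_charKer_of_forall_constituent fun ψ hψ hne => apply_of_mem_charKer
    (hψ.commutator_le_charKer_iff.2 ?_ (Subgroup.commutator_mem_commutator trivial trivial))
  have h3 := hχ.degree_le_of_constituent hψ hne hχ.charDegree_cast.symm
    hψ.isCharacter.charDegree_cast.symm
  by_contra h4
  have h5 : charDegree ψ ≠ 1 := fun h => h4 (by rw [← hψ.isCharacter.charDegree_cast, h]; simp)
  have h6 := hπ _ (Nat.minFac_prime h5) ((Nat.minFac_dvd _).trans hψ.charDegree_dvd_card)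
  have h7 := Nat.minFac_le (pos_of_mem_cd (charDegree_mem_cd hψ))
  omega

theorem LinDeg.comm_of_le (h : LinDeg n G) {H : Subgroup G}
    (hπ : ∀ q, q.Prime → q ∣ Nat.card H → n < q) : ∀ a ∈ H, ∀ b ∈ H, a * b = b * a :=
  fun a ha b hb => congrArg Subtype.val ((h.subgroup H).comm hπ ⟨a, ha⟩ ⟨b, hb⟩)

theorem le_degree_succ (hχ : IsCharacter G χ) {x : G} {p : ℕ} (hp : p.Prime)
    (hx : orderOf x = p) (h1 : χ x ≠ χ 1) (h2 : ∀ j, ¬ p ∣ j → χ (x ^ j) = χ x) :
    p ≤ charDegree χ + 1 := by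
  classical
  let H := Subgroup.zpowers x
  have := Fintype.ofFinite H
  have hH : Nat.card H = p := by rw [Nat.card_zpowers, hx]
  have hx1 : (⟨x, Subgroup.mem_zpowers x⟩ : H) ≠ 1 := fun h => h1 (congrArg χ (congrArg Subtype.val h))
  obtain ⟨lam, hlam, h3⟩ := exists_irr_apply_ne hx1
  have h4 : lam 1 = 1 := hlam.apply_one_eq_one_of_comm fun a b => mul_comm' a b
  have h5 : ∀ φ : H → ℂ, p * classInner (fun h : H => χ h) φ =
      χ x * ∑ h, conj (φ h) + (χ 1 - χ x) * conj (φ 1) := fun φ => by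
    rw [← hH, card_mul_classInner, Finset.mul_sum, ← Finset.add_sum_erase _ _ (Finset.mem_univ 1),
      ← Finset.add_sum_erase _ _ (Finset.mem_univ 1)]
    have h6 : ∑ h ∈ Finset.univ.erase (1 : H), χ h * conj (φ h) =
        ∑ h ∈ Finset.univ.erase (1 : H), χ x * conj (φ h) := Finset.sum_congr rfl fun h hh => by
      obtain ⟨j, hj⟩ := mem_powers_iff_mem_zpowers.2 h.2
      have hj : x ^ j = h := hj
      rw [← hj, h2 j fun hd => Finset.ne_of_mem_erase hh (Subtype.ext ?_)]
      rw [← hj, ← hx, orderOf_dvd_iff_pow_eq_one] at *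
      exact hd
    rw [h6, Subgroup.coe_one]
    ring
  obtain ⟨a, ha⟩ := (hχ.restrict H).classInner_nat hlam.isCharacter
  obtain ⟨b, hb⟩ := (hχ.restrict H).classInner_nat isCharacter_one
  have h6 := h5 lam
  have h7 := h5 fun _ => 1
  rw [← map_sum, hlam.sum_eq_zero (fun h => h3 (by rw [h])), ha, h4] at h6
  rw [hb] at h7
  simp only [map_zero, mul_zero, map_one, mul_one, zero_add, Finset.sum_const, Finset.card_univ,
    nsmul_eq_mul, ← Nat.card_eq_fintype_card, hH] at h6 h7
  have hp0 : (p : ℂ) ≠ 0 := Nat.cast_ne_zero.2 hp.ne_zero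
  have h8 : (b : ℂ) + p * a = charDegree χ + a := by
    rw [hχ.charDegree_cast]
    apply mul_left_cancel₀ hp0
    linear_combination h7 + (p - 1) * h6
  have h9 : b + p * a = charDegree χ + a := by exact_mod_cast h8
  have h10 : a ≠ 0 := by
    rintro rfl
    exact h1 (by linear_combination h6)
  obtain ⟨a, rfl⟩ := Nat.exists_eq_succ_of_ne_zero h10
  nlinarith [hp.one_le]

theorem exists_pow_ne (hχ : IsCharacter G χ) (hk : charKer χ = ⊥) {p : ℕ} (hp : p.Prime)
    (hd : p ∣ Nat.card G) (hn : charDegree χ + 1 < p) : ∃ k : ℕ, k.Coprime (Nat.card G) ∧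
      (∀ g : G, ¬ p ∣ orderOf g → g ^ k = g) ∧ (fun g => χ (g ^ k)) ≠ χ := by
  have := Fact.mk hp
  by_contra h
  push Not at h
  obtain ⟨x, hx⟩ := exists_prime_orderOf_dvd_card' p hd
  refine hn.not_ge (le_degree_succ hχ hp hx (fun h1 => hp.ne_one ?_) fun j hj => ?_)
  · rw [← hx, (charKer_eq_bot_iff hχ).1 hk x h1, orderOf_one]
  obtain ⟨e, m, hm, he⟩ := Nat.exists_eq_pow_mul_and_not_dvd (Nat.card_pos (α := G)).ne' p hp.ne_one
  have hc : p.Coprime m := (Nat.Prime.coprime_iff_not_dvd hp).2 hm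
  obtain ⟨k, hk1, hk2⟩ := Nat.chineseRemainder hc j 1
  have h1 := congrFun (h k ?_ fun g hg => ?_) x
  · rw [← h1, (pow_eq_pow_iff_modEq (x := x)).2 (hx ▸ hk1.symm : j ≡ k [MOD orderOf x])]
  · rw [he]
    refine Nat.Coprime.mul_right (Nat.Coprime.pow_right _ ?_) ?_
    · rw [Nat.coprime_iff_gcd_eq_one, hk1.gcd_eq]
      exact ((Nat.Prime.coprime_iff_not_dvd hp).2 hj).symm
    · rw [Nat.coprime_iff_gcd_eq_one, hk2.gcd_eq, Nat.gcd_one_left]
  · have h2 : orderOf g ∣ m := Nat.Coprime.dvd_of_dvd_mul_left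
      (((Nat.Prime.coprime_iff_not_dvd hp).2 hg).symm.pow_right e) (he ▸ orderOf_dvd_natCard g)
    conv_rhs => rw [← pow_one g]
    exact pow_eq_pow_iff_modEq.2 (hk2.of_dvd h2)

theorem exists_dvd_orderOf (hχ : IsIrrCharacter G χ) (hk : charKer χ = ⊥) {p q : ℕ} (hp : p.Prime)
    (hq : q.Prime) (hd : p ∣ Nat.card G) (hd' : q ∣ Nat.card G) (hn : charDegree χ + 1 < p)
    (hn' : charDegree χ + 1 < q) : ∃ g : G, p ∣ orderOf g ∧ q ∣ orderOf g := by
  have := Fintype.ofFinite G
  by_contra h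
  push Not at h
  obtain ⟨k, hk1, hk2, hk3⟩ := exists_pow_ne hχ.isCharacter hk hp hd hn
  obtain ⟨l, hl1, hl2, hl3⟩ := exists_pow_ne hχ.isCharacter hk hq hd' hn'
  have h1 : χ + (fun g => χ (g ^ (k * l))) = (fun g => χ (g ^ k)) + fun g => χ (g ^ l) := by
    funext g
    simp only [Pi.add_apply]
    by_cases hg : p ∣ orderOf g
    · rw [mul_comm, pow_mul, hl2 g (h g hg), add_comm]
    · rw [pow_mul, hk2 g hg]
  have h2 := congrArg (fun φ => classInner φ χ) h1
  simp only [classInner_add_left] at h2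
  obtain ⟨a, ha⟩ := (hχ.comp_pow (hk1.mul_left hl1)).isCharacter.classInner_nat hχ.isCharacter
  rw [hχ.classInner_self, ha, (hχ.comp_pow hk1).classInner_of_ne hχ hk3,
    (hχ.comp_pow hl1).classInner_of_ne hχ hl3, add_zero] at h2
  norm_cast at h2
  omega

end

theorem blichfeldt_aux (n m : ℕ) : ∀ (G : Type u) [Group G] [Finite G], Nat.card G = m →
    LinDeg n G → ∃ H : Subgroup G, IsPiHall {q | n + 1 < q} H := by
  induction m using Nat.strong_induction_on with
  | _ m ih =>
  intro G _ _ hm hG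
  obtain ⟨π, hπ⟩ : ∃ π : Set ℕ, π = {q | n + 1 < q} := ⟨_, rfl⟩
  have hπ' : ∀ q, q ∈ π ↔ n + 1 < q := fun q => by rw [hπ]; rfl
  rw [← hπ] at ih ⊢
  by_contra hE
  have hcomm : ∀ H : Subgroup G, H1.IsPiNum π (Nat.card H) → ∀ a ∈ H, ∀ b ∈ H, a * b = b * a :=
    fun H hH => hG.comm_of_le fun q hq hd => Nat.lt_of_succ_lt ((hπ' q).1 (hH q hq hd))
  have h1 : ∀ L : Subgroup G, L ≠ ⊤ → ∃ H, IsPiHallOf π H L := fun L hL => by
    obtain ⟨H, hH⟩ := ih _ (hm ▸ H1.card_lt_of_ne_top hL) L rfl (hG.subgroup L)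
    exact ⟨_, H1.isPiHallOf_map_subtype.2 hH⟩
  have h2 : ∀ L : Subgroup G, H1.IsPiNum πᶜ L.index → L = ⊤ := fun L hL => by
    by_contra h
    obtain ⟨H, hH⟩ := h1 L h
    rw [H1.isPiHallOf_iff] at hH
    refine hE ⟨H, H1.isPiHall_iff.2 ⟨hH.2.1, ?_⟩⟩
    rw [← Subgroup.relIndex_mul_index hH.1]
    exact hH.2.2.mul hL
  have h3 : ∀ (N : Subgroup G) [N.Normal], N ≠ ⊤ → ∀ K : Subgroup (G ⧸ N), ¬ IsPiHall π K := by
    intro N _ hN K hK
    rw [H1.isPiHall_iff] at hK
    have h3 := h2 (K.comap (QuotientGroup.mk' N)) (by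
      rw [Subgroup.index_comap_of_surjective _ (QuotientGroup.mk'_surjective N)]; exact hK.2)
    rw [← Subgroup.comap_top (QuotientGroup.mk' N),
      (Subgroup.comap_injective (QuotientGroup.mk'_surjective N)).eq_iff] at h3
    rw [h3, Subgroup.card_top] at hK
    obtain ⟨H, hH⟩ := h1 N hN
    have hH' := H1.isPiHallOf_iff.1 hH
    have hnil : ∀ H : Subgroup G, H1.IsPiNum π (Nat.card H) → Group.IsNilpotent H := fun H hH => by
      letI : CommGroup H := { mul_comm := fun a b => Subtype.ext (hcomm H hH a a.2 b b.2) }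
      infer_instance
    have h4 : N ⊔ Subgroup.normalizer (H : Set G) = ⊤ := eq_top_iff.2 fun g _ => by
      obtain ⟨l, hl, e⟩ := exists_mem_conj_of_nilpotent_hall (hnil H hH'.2.1)
        (hnil (MulAut.conj g • H) (by rw [card_conj_smul]; exact hH'.2.1)) hH'.1
        (H1.conj_smul_le_of_le_normalizer hH'.1 (by rw [Subgroup.normalizer_eq_top]; trivial))
        (hH'.2.1.coprime hH'.2.2) (card_conj_smul H g).symm
      have h4 : l⁻¹ * g ∈ Subgroup.normalizer (H : Set G) := by
        rw [mem_normalizer_iff_conj_smul, ← conj_smul_conj_smul, ← e, conj_inv_smul_conj_smul]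
      rw [← mul_inv_cancel_left l g]
      exact Subgroup.mul_mem_sup hl h4
    have h5 := h2 (Subgroup.normalizer (H : Set G)) (hH'.2.2.of_dvd (by
      rw [index_eq_relIndex_of_sup h4]
      exact Subgroup.relIndex_dvd_of_le_left _ Subgroup.le_normalizer))
    haveI : H.Normal := Subgroup.normalizer_eq_top_iff.1 h5
    have e1 : Nat.card (N.map (QuotientGroup.mk' H)) = H.relIndex N := by
      rw [← Subgroup.relIndex_ker, QuotientGroup.ker_mk']
    have e2 : (N.map (QuotientGroup.mk' H)).index = N.index :=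
      Subgroup.index_map_eq _ (QuotientGroup.mk'_surjective H) (by rw [QuotientGroup.ker_mk']; exact hH'.1)
    obtain ⟨L, -, h6, h7, h8⟩ := H1.exists_complement_le (N := N.map (QuotientGroup.mk' H))
      (L := ⊤) le_top (by rw [Subgroup.normalizer_eq_top]) (by
        rw [Subgroup.relIndex_top_right, e1, e2]
        exact (hK.1.coprime hH'.2.2).symm)
    rw [Subgroup.relIndex_top_right] at h8
    have h9 : L.index = H.relIndex N := by
      have e3 := L.card_mul_index
      rw [h8, ← (N.map (QuotientGroup.mk' H)).index_mul_card, e1] at e3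
      exact Nat.eq_of_mul_eq_mul_left (Nat.pos_of_ne_zero Subgroup.FiniteIndex.index_ne_zero) e3
    refine hE ⟨L.comap (QuotientGroup.mk' H), H1.isPiHall_iff.2 ⟨?_, ?_⟩⟩
    · rw [card_eq_card_mul_relIndex (H := H) (fun x hx => by
        rw [Subgroup.mem_comap, QuotientGroup.mk'_apply, (QuotientGroup.eq_one_iff x).2 hx]
        exact L.one_mem)]
      refine hH'.2.1.mul ?_
      have e3 : Nat.card ((L.comap (QuotientGroup.mk' H)).map (QuotientGroup.mk' H)) =
          H.relIndex (L.comap (QuotientGroup.mk' H)) := by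
        rw [← Subgroup.relIndex_ker, QuotientGroup.ker_mk']
      rw [← e3, Subgroup.map_comap_eq_self_of_surjective (QuotientGroup.mk'_surjective H), h8, e2]
      exact hK.1
    · rw [Subgroup.index_comap_of_surjective _ (QuotientGroup.mk'_surjective H), h9]
      exact hH'.2.2
  have h4 : commutator G = ⊤ := by
    by_contra h4
    obtain ⟨K, hK⟩ := H1.exists_isPiHall (G := G ⧸ commutator G) π
      (inferInstanceAs (Group.IsSolvable (Abelianization G)))
    exact h3 _ h4 K hK
  have := Fintype.ofFinite G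
  obtain ⟨χ, hχ, hk, hd⟩ : ∃ χ, IsIrrCharacter G χ ∧ charKer χ = ⊥ ∧ charDegree χ ≤ n := by
    obtain ⟨χ, hχ, hk, hd⟩ := hG
    by_contra h5
    push Not at h5
    refine hE ⟨⊥, H1.isPiHall_iff.2 ⟨by rw [Subgroup.card_bot]; exact .one _, ?_⟩⟩
    have h6 : (⊥ : Subgroup G) = ⊤ := by
      rw [← hk, eq_top_iff]
      intro g _
      refine hχ.mem_charKer_of_forall_constituent fun ψ hψ hne => apply_of_mem_charKer ?_
      have h6 := (hχ.degree_le_of_constituent hψ hne hχ.charDegree_cast.symm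
        hψ.isCharacter.charDegree_cast.symm).trans hd
      haveI := hψ.isCharacter.charKer_normal
      by_contra h7
      obtain ⟨K, hK⟩ := ih _ (hm ▸ H1.card_quotient_lt fun h => (h5 ψ hψ h).not_ge h6)
        (G ⧸ charKer ψ) rfl ⟨_, hψ.isCharacter.deflate le_rfl,
          charKer_deflate_charKer hψ.isClassFunction, by
            rwa [charDegree_eq_of (d := charDegree ψ)
              ((deflate_mk le_rfl 1).trans hψ.isCharacter.charDegree_cast.symm)]⟩
      exact h3 (charKer ψ) (fun h => h7 (by rw [h]; trivial)) K hK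
    rw [h6, Subgroup.index_top]
    exact .one _
  have h5 : ∀ r, r.Prime → r ∈ π → ∀ P : Subgroup G, SylowIn r P ⊤ →
      (∀ a ∈ P, ∀ b ∈ P, a * b = b * a) ∧ ∀ x ∈ P, x ∈ Subgroup.center G → x = 1 := by
    intro r hr hrπ P hP
    have := Fact.mk hr
    have h5 := hcomm P (H1.isPiNum_card_of_isPGroup hrπ hP.isPGroup)
    refine ⟨h5, fun x hx hz => ?_⟩
    have h6 := inf_commutator_inf_center_eq_bot P ⟨⟨fun a b => Subtype.ext (h5 a a.2 b b.2)⟩⟩
      (by rw [← Subgroup.relIndex_top_right]; exact hP.card_coprime_relIndex)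
    rw [← Subgroup.mem_bot, ← h6, h4]
    exact ⟨⟨hx, trivial⟩, hz⟩
  have h6 : ∀ r, r.Prime → r ∈ π → ∀ x : G, orderOf x = r → ∃ H : Subgroup G,
      IsPiHallOf π H (Subgroup.centralizer {x}) ∧ ¬ r ∣ (Subgroup.centralizer {x}).index := by
    intro r hr hrπ x hx
    have := Fact.mk hr
    obtain ⟨P, hP, hxP⟩ := exists_sylowIn_le (p := r) (R := Subgroup.zpowers x) (H := ⊤)
      (IsPGroup.of_card (n := 1) (by rw [Nat.card_zpowers, hx, pow_one])) le_top
    have hxP := hxP (Subgroup.mem_zpowers x)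
    obtain ⟨h6, h7⟩ := h5 r hr hrπ P hP
    obtain ⟨H, hH⟩ := h1 (Subgroup.centralizer {x}) fun h => hr.ne_one (by
      rw [← hx, h7 x hxP (Subgroup.mem_center_iff.2 fun g => ?_), orderOf_one]
      exact ((h ▸ trivial : g ∈ Subgroup.centralizer {x}) x rfl).symm)
    refine ⟨H, hH, fun h => hP.not_dvd ?_⟩
    rw [Subgroup.relIndex_top_right]
    exact h.trans (Subgroup.index_dvd_of_le fun a ha z hz => hz ▸ h6 x hxP a ha)
  by_cases h7 : H1.IsPiNum πᶜ (Nat.card G)
  · exact hE ⟨⊥, H1.isPiHall_iff.2 ⟨by rw [Subgroup.card_bot]; exact .one _, by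
      rwa [Subgroup.index_bot]⟩⟩
  rw [H1.isPiNum_compl_iff] at h7
  push Not at h7
  obtain ⟨p, hp, hpπ, hpd⟩ := h7
  have := Fact.mk hp
  obtain ⟨P, hP⟩ := exists_sylowIn p (⊤ : Subgroup G)
  obtain ⟨h7, h8⟩ := h5 p hp hpπ P hP
  have h9 := h2 (Subgroup.centralizer (P : Set G)) (H1.isPiNum_compl_iff.2 fun q hq hqπ hqd => by
    have := Fact.mk hq
    obtain ⟨g, hg1, hg2⟩ := exists_dvd_orderOf hχ hk hp hq hpd
      (hqd.trans (Subgroup.index_dvd_card _)) (by have := (hπ' p).1 hpπ; omega)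
      (by have := (hπ' q).1 hqπ; omega)
    obtain ⟨H, hH, e1⟩ := h6 q hq hqπ _ (orderOf_pow_orderOf_div (orderOf_pos g).ne' hg2)
    have hH' := H1.isPiHallOf_iff.1 hH
    have e2 : p ∣ Nat.card H := by
      have e2 := hg1.trans (Subgroup.orderOf_dvd_natCard
        (Subgroup.centralizer {g ^ (orderOf g / q)}) (x := g) fun z hz => hz ▸
          ((Commute.refl g).pow_left _).eq)
      rw [card_eq_card_mul_relIndex hH'.1] at e2
      exact (hp.dvd_mul.1 e2).resolve_right (hH.2.2 p hp hpπ)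
    obtain ⟨x, hx⟩ := exists_prime_orderOf_dvd_card' p e2
    obtain ⟨K, hK, e3⟩ := h6 p hp hpπ x (by rw [Subgroup.orderOf_coe, hx])
    have hK' := H1.isPiHallOf_iff.1 hK
    have e4 : ¬ q ∣ K.index := by
      rw [← Subgroup.relIndex_mul_index hK'.1, hq.dvd_mul, not_or]
      refine ⟨hK.2.2 q hq hqπ, fun h => ?_⟩
      have e4 := h.trans (Subgroup.index_dvd_of_le (H := H)
        fun a ha z hz => hz ▸ hcomm H hH'.2.1 x x.2 a ha)
      rw [← Subgroup.relIndex_mul_index hH'.1, hq.dvd_mul] at e4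
      exact e4.elim (hH.2.2 q hq hqπ) e1
    obtain ⟨Q, hQ⟩ := exists_sylowIn p K
    have hQ' : SylowIn p Q ⊤ := ⟨le_top, hQ.isPGroup, by
      rw [Subgroup.relIndex_top_right, ← Subgroup.relIndex_mul_index hQ.le,
        ← Subgroup.relIndex_mul_index hK'.1, hp.dvd_mul, hp.dvd_mul]
      rintro (h | h | h)
      exacts [hQ.not_dvd h, hK.2.2 p hp hpπ h, e3 h]⟩
    obtain ⟨y, -, rfl⟩ := hQ'.exists_conj hP
    rw [centralizer_conj_smul, index_conj_smul] at hqd
    exact e4 (hqd.trans (Subgroup.index_dvd_of_le fun a ha z hz =>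
      hcomm K hK'.2.1 z (hQ.le hz) a ha)))
  refine hP.eq_bot_iff.1 ((Subgroup.eq_bot_iff_forall _).2 fun x hx => h8 x hx ?_) ?_
  · exact Subgroup.mem_center_iff.2 fun g =>
      ((h9 ▸ trivial : g ∈ Subgroup.centralizer (P : Set G)) x hx).symm
  · rwa [Subgroup.card_top]

theorem LinDeg.blichfeldt {G : Type*} [Group G] [Finite G] {n : ℕ} (h : LinDeg n G) :
    ∃ H : Subgroup G, (∀ a ∈ H, ∀ b ∈ H, a * b = b * a) ∧ IsPiHall {q | n + 1 < q} H := by
  obtain ⟨H, hH⟩ := blichfeldt_aux n _ G rfl h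
  exact ⟨H, h.comm_of_le fun q hq hd => Nat.lt_of_succ_lt (hH.1 q hq hd), hH⟩

theorem exists_normal_index_dvd_factorial {G : Type*} [Group G] [Finite G] [Group.IsNilpotent G]
    {χ : G → ℂ} (hχ : IsCharacter G χ) : ∃ B : Subgroup G, B.Normal ∧ ⁅B, B⁆ ≤ charKer χ ∧
      B.index ∣ (charDegree χ).factorial := by
  have := Fintype.ofFinite G
  refine hχ.induction (P := fun χ => ∃ B : Subgroup G, B.Normal ∧ ⁅B, B⁆ ≤ charKer χ ∧
    B.index ∣ (charDegree χ).factorial) ?_ fun ψ φ hψ hφ ih => ?_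
  · refine ⟨⊤, inferInstance, fun g _ => isCharacter_zero.mem_charKer.2 rfl, ?_⟩
    rw [Subgroup.index_top]
    exact one_dvd _
  · obtain ⟨B, hB, h1, h2⟩ := ih
    obtain ⟨H, lam, rfl⟩ := exists_indFun_linear_of_nilpotent hψ
    refine ⟨H.normalCore ⊓ B, inferInstance, ?_, ?_⟩
    · rw [hψ.isCharacter.charKer_add hφ]
      refine le_inf (le_charKer_indFun (isCharacter_linear lam) ?_)
        ((Subgroup.commutator_mono inf_le_right inf_le_right).trans h1)
      rw [Subgroup.commutator_le, charKer_linear]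
      intro a ha b hb
      refine ⟨⁅(⟨a, H.normalCore_le ha.1⟩ : H), ⟨b, H.normalCore_le hb.1⟩⁆, ?_, rfl⟩
      rw [SetLike.mem_coe, MonoidHom.mem_ker, map_commutatorElement,
        commutatorElement_eq_one_iff_mul_comm, mul_comm]
    · rw [charDegree_eq_of (d := H.index + charDegree φ) (by
        rw [Pi.add_apply, indFun_one, ← hφ.charDegree_cast]; simp),
        ← Subgroup.relIndex_mul_index (inf_le_right : H.normalCore ⊓ B ≤ B),
        Subgroup.inf_relIndex_right]
      refine (mul_dvd_mul ((Subgroup.relIndex_dvd_index_of_normal _ _).trans ?_) h2).trans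
        (Nat.factorial_mul_factorial_dvd_factorial_add _ _)
      rw [Subgroup.normalCore_eq_ker, Subgroup.index_ker, Subgroup.index_eq_card,
        ← Nat.card_perm]
      exact Subgroup.card_subgroup_dvd_card _

theorem jordan_bound {G : Type*} [Group G] [Finite G] {χ : G → ℂ} (hχ : IsCharacter G χ)
    (hf : ∀ g, χ g = χ 1 → g = 1) {n : ℕ} (hn : charDegree χ = n) :
    ∃ A : Subgroup G, A.Normal ∧ (∀ x ∈ A, ∀ y ∈ A, x * y = y * x) ∧
      A.index ≤ n.factorial * 12 ^ (n * (Nat.primeCounting (n + 1) + 1)) := by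
  classical
  obtain ⟨A, hA, h1, h2⟩ := jordan_frobenius hχ hf hn
  refine ⟨A, hA, h1, ?_⟩
  obtain ⟨H, h3, h4⟩ := LinDeg.blichfeldt ⟨χ, hχ, (charKer_eq_bot_iff hχ).2 hf, hn.le⟩
  have h0 : A.index ≠ 0 := Subgroup.FiniteIndex.index_ne_zero
  have h5 : ∀ p, p.Prime → p ^ A.index.factorization p ≤ p ^ n.factorial.factorization p * 12 ^ n := by
    intro p hp
    have := Fact.mk hp
    obtain ⟨P, hP⟩ := exists_sylowIn p (⊤ : Subgroup G)
    have := hP.isPGroup.isNilpotent
    obtain ⟨B, hB, h5, h6⟩ := exists_normal_index_dvd_factorial (hχ.restrict P)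
    have h7 : p ^ A.index.factorization p ∣ A.relIndex P := by
      have e := Subgroup.relIndex_mul_index (le_sup_left : A ≤ A ⊔ P)
      rw [Subgroup.relIndex_sup_left] at e
      refine Nat.Coprime.dvd_of_dvd_mul_right (Nat.Coprime.pow_left _
        ((Nat.Prime.coprime_iff_not_dvd hp).2 fun h => hP.not_dvd ?_))
        ((Nat.ordProj_dvd A.index p).trans e.symm.dvd)
      rw [Subgroup.relIndex_top_right]
      exact h.trans (Subgroup.index_dvd_of_le le_sup_right)
    have h8 := h2 (B.map P.subtype) (by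
      rintro _ ⟨a, ha, rfl⟩ _ ⟨b, hb, rfl⟩
      have h8 := hf (⁅a, b⁆ : P) (apply_of_mem_charKer (h5 (Subgroup.commutator_mem_commutator ha hb)) :)
      exact commutatorElement_eq_one_iff_mul_comm.1 h8)
    have h9 : B.index ≤ p ^ n.factorial.factorization p := by
      obtain ⟨k, hk⟩ := hP.isPGroup.index B
      rw [charDegree_eq_of (d := n) (by rw [← hn, hχ.charDegree_cast]; rfl), hk] at h6
      rw [hk]
      exact Nat.pow_le_pow_right hp.pos ((hp.pow_dvd_iff_le_factorization n.factorial_ne_zero).1 h6)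
    refine (Nat.le_of_dvd (Nat.pos_of_ne_zero Subgroup.FiniteIndex.index_ne_zero) h7).trans ?_
    have h10 : A.relIndex P ≤ (A ⊓ B.map P.subtype).relIndex P :=
      Subgroup.relIndex_le_of_le_left inf_le_left Subgroup.FiniteIndex.index_ne_zero
    rw [← Subgroup.relIndex_mul_relIndex _ _ _ inf_le_right (Subgroup.map_subtype_le B),
      Subgroup.inf_relIndex_right, mul_comm] at h10
    refine h10.trans (Nat.mul_le_mul (le_of_eq_of_le ?_ h9) h8)
    rw [Subgroup.relIndex, Subgroup.subgroupOf, Subgroup.comap_map_eq_self_of_injective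
      P.subtype_injective]
  have e := Subgroup.relIndex_mul_index (le_sup_left : A ≤ A ⊔ H)
  rw [Subgroup.relIndex_sup_left] at e
  have h6 : (A ⊔ H).index ≤ n.factorial * (12 ^ n) ^ Nat.primeCounting (n + 1) := by
    have e0 : (A ⊔ H).index ≠ 0 := Subgroup.FiniteIndex.index_ne_zero
    let s := (Finset.range (n + 2)).filter Nat.Prime
    have e1 : (A ⊔ H).index.primeFactors ⊆ s := fun q hq => by
      have hq' := Nat.prime_of_mem_primeFactors hq
      rw [Finset.mem_filter, Finset.mem_range]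
      refine ⟨?_, hq'⟩
      by_contra h
      exact h4.2 q hq' (by change n + 1 < q; omega)
        ((Nat.dvd_of_mem_primeFactors hq).trans (Subgroup.index_dvd_of_le le_sup_right))
    have e2 : s.card = Nat.primeCounting (n + 1) := by
      rw [Nat.primeCounting, Nat.primeCounting', Nat.count_eq_card_filter_range]
    calc _ = ∏ q ∈ (A ⊔ H).index.primeFactors, q ^ (A ⊔ H).index.factorization q :=
          (Nat.factorization_prod_pow_eq_self e0).symm
      _ ≤ ∏ q ∈ (A ⊔ H).index.primeFactors, q ^ n.factorial.factorization q * 12 ^ n :=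
          Finset.prod_le_prod' fun q hq => le_trans (Nat.pow_le_pow_right
            (Nat.prime_of_mem_primeFactors hq).pos ((Nat.factorization_le_iff_dvd e0 h0).2
              (Subgroup.index_dvd_of_le le_sup_left) q)) (h5 q (Nat.prime_of_mem_primeFactors hq))
      _ ≤ _ := by
          rw [Finset.prod_mul_distrib, Finset.prod_const, ← e2]
          refine Nat.mul_le_mul (Nat.le_of_dvd n.factorial_pos ?_)
            (Nat.pow_le_pow_right (by positivity) (Finset.card_le_card e1))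
          refine Finset.prod_dvd_of_isRelPrime (fun a ha b hb hab => ?_) fun q _ => Nat.ordProj_dvd _ _
          exact Nat.coprime_iff_isRelPrime.1 (Nat.coprime_pow_primes _ _
            (Nat.prime_of_mem_primeFactors ha) (Nat.prime_of_mem_primeFactors hb) hab)
  rw [← e, mul_add, mul_one, pow_add, pow_mul, ← mul_assoc, mul_comm]
  exact Nat.mul_le_mul h6 (h2 H h3)

end Cfsg.Agent.H8
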