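import Mathlib
import Cfsg.Agent.H8.Dom

/-!
Bounds for the number of characters in a block from the cyclic defect case.
-/

set_option autoImplicit false
set_option linter.dupNamespace false

namespace Cfsg.Agent.H8

open Cfsg Cfsg.Agent.H4 Cfsg.Agent.H5 Cfsg.Agent.H3
open scoped ComplexConjugate

universe u

/-- Blocks with cyclic defect groups have a large minimum. -/
def CycHyp (p : ℕ) (M : Ideal AlgInt) : Prop :=
  ∀ (K : Type u) [Group K] [Fintype K] (B : Set (IrrCharacter K)) (D : Subgroup K),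
    IsPBlock M B → IsDefectGroup p M B D → IsCyclic D → MinOK p B

section
variable {G : Type u} [Group G] [Fintype G] {p : ℕ} [hp : Fact p.Prime] {M : Ideal AlgInt}
  {B : Set (IrrCharacter G)} {D : Subgroup G}

theorem exists_major_dom (hM : IsPModular p M) (hB : IsPBlock M B) (hD : IsDefectGroup p M B D)
    {u : G} (hu : u ∈ D) (hc : u ∈ Subgroup.centralizer (D : Set G)) :
    ∃ (Q : Type u) (_ : Group Q) (_ : Fintype Q) (c : Set (IrrCharacter Q)) (π : D →* Q),
      IsPBlock M c ∧ IsDefectGroup p M c π.range ∧ π ⟨u, hu⟩ = 1 ∧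
      p ^ blockDefect p B = orderOf u * p ^ blockDefect p c ∧
      (MinOK p c → Nat.card B ≤ p ^ blockDefect p B) ∧
      Nat.card B ≤ p ^ blockDefect p B * Nat.card c ∧
      ((∀ χ ∈ B, blockHeight p B χ.1 = 0) →
        Nat.card B ^ 2 ≤ p ^ (2 * blockDefect p B) * Nat.card c) := by
  classical
  haveI := hM.2.1
  haveI := H6.charP_res hM
  have hD' := (H7.isDefectGroup_iff hM hB).1 hD
  obtain ⟨e, S⟩ := H7.exists_maxP le_rfl Subgroup.le_normalizer (H7.blk_eB hB) hD'
  obtain ⟨b, hb, hf⟩ := S.exists_sec hM hB hu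
  have hDC : D ≤ Subgroup.centralizer {u} := fun x hx =>
    Subgroup.mem_centralizer_singleton_iff.2 (hc x hx)
  have hbD := (H7.isDefectGroup_subgroupOf_iff' hM hb.1 hDC).2 (S.isDef_sec hM hc hf)
  obtain ⟨hs, hd⟩ := major_data hM hB hD hu hc hb.1 hbD
  have := Fintype.ofFinite (Subgroup.centralizer ({u} : Set G))
  haveI := hs.zpowers_normal
  have := Fintype.ofFinite (_ ⧸ Subgroup.zpowers hs.elt)
  obtain ⟨c, hcb, -, e1, e2, e3, e4⟩ := exists_dom hs.isPGroup_elt hs.zpowers_le_center hM hb.1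
  have hS : ∀ χ ∈ bfin B, χ ∈ B ∧ sub p u b χ.1 ≠ 0 := fun χ hχ =>
    ⟨mem_bfin.1 hχ, hs.sub_ne_zero_of_major hM hb hd (mem_bfin.1 hχ)⟩
  have hr : blockRank p b ≤ Nat.card c := e3 ▸ blockRank_le_card c
  refine ⟨_, _, this, c, (QuotientGroup.mk' _).comp (Subgroup.inclusion hDC), hcb, ?_, ?_, ?_,
    fun h => ?_, ?_, fun h => ?_⟩
  · rw [MonoidHom.range_comp, Subgroup.inclusion_range]
    exact e1 _ hbD
  · exact (QuotientGroup.eq_one_iff _).2 (Subgroup.mem_zpowers _)
  · rw [← hd, e2, Nat.card_zpowers, ← Subgroup.orderOf_coe, hs.coe_elt]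
  · rw [← card_bfin, ← hd]
    exact hs.card_le_of_min hM hb (e4 h) _ hS
  · rw [← card_bfin, ← hd]
    exact (hs.card_le_mul_rank hM hb _ hS).trans (Nat.mul_le_mul_left _ hr)
  · obtain ⟨n, hn⟩ := hs.exists_pow_succ
    haveI : NeZero (p ^ (n + 1)) := ⟨pow_ne_zero _ hp.out.ne_zero⟩
    have h1 := Finset.sum_le_sum fun χ (hχ : χ ∈ bfin B) =>
      hs.card_height_zero_le hM hb hn (mem_bfin.1 hχ) (h χ (mem_bfin.1 hχ))
    rw [Finset.filter_true_of_mem fun χ hχ => h χ (mem_bfin.1 hχ), Finset.sum_const,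
      ← Finset.mul_sum, hs.sum_tsum' hM hb hn, card_bfin, nsmul_eq_mul, hd] at h1
    have h2 : (0 : ℝ) < Fintype.card (ZMod (p ^ (n + 1)))ˣ := by exact_mod_cast Fintype.card_pos
    have h3 : (Nat.card B : ℝ) ^ 2 ≤ p ^ (2 * blockDefect p B) * blockRank p b := by
      refine le_of_mul_le_mul_right ?_ h2
      rw [two_mul, pow_add (p : ℝ)]
      linarith
    exact le_trans (by exact_mod_cast h3) (Nat.mul_le_mul_left _ hr)

end

theorem range_eq_closure {D Q : Type*} [Group D] [Group Q] (π : D →* Q) {u : D} {s : Set D}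
    (h : Subgroup.closure (insert u s) = ⊤) (hu : π u = 1) :
    π.range = Subgroup.closure (π '' s) := by
  rw [MonoidHom.range_eq_map, ← h, MonoidHom.map_closure, Set.image_insert_eq, hu,
    Subgroup.closure_insert_one]

variable {p : ℕ} [hp : Fact p.Prime] {M : Ideal AlgInt}

theorem brauer_feit_small (hM : IsPModular p M) (H : CycHyp.{u} p M) (d : ℕ) :
    ∀ (G : Type u) [Group G] [Fintype G] (B : Set (IrrCharacter G)), IsPBlock M B →
      blockDefect p B = d → (d ≤ 2 → Nat.card B ≤ p ^ d) ∧ (2 ≤ d → Nat.card B ≤ p ^ (2 * d - 2)) := by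
  induction d with
  | zero =>
    intro G _ _ B hB hd
    exact ⟨fun _ => (card_eq_one_of_defect_zero hM hB hd).le, by omega⟩
  | succ d ih =>
    intro G _ _ B hB hd
    haveI := hM.2.1
    obtain ⟨D, hD⟩ := H6.exists_isDefectGroup p hB
    have hc := card_defectGroup hM hB hD
    have hp1 := hp.out.one_lt
    haveI : Nontrivial D := Finite.one_lt_card_iff_nontrivial.1 (by
      rw [hc, hd]; exact Nat.one_lt_pow (by omega) hp1)
    haveI := (isPGroup_defectGroup hD).center_nontrivial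
    obtain ⟨z, hz, hzp⟩ := H7.exists_orderOf_eq_prime
      ((isPGroup_defectGroup hD).to_subgroup (Subgroup.center D))
      ((Subgroup.nontrivial_iff_ne_bot _).1 inferInstance)
    obtain ⟨Q, _, _, c, π, h1, h2, -, h3, h4, -, h5⟩ := exists_major_dom hM hB hD z.2
      fun x hx => congrArg Subtype.val (Subgroup.mem_center_iff.1 hz ⟨x, hx⟩)
    rw [hd, Subgroup.orderOf_coe, hzp, ← pow_succ', Nat.pow_right_inj hp1, Nat.add_left_inj] at h3
    have h6 : d + 1 ≤ 2 → Nat.card B ≤ p ^ (d + 1) := fun h => by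
      refine hd ▸ h4 (H Q c _ h1 h2 (isCyclic_of_card_dvd_prime (p := p) ?_))
      rw [card_defectGroup hM h1 h2, ← h3]
      exact (pow_dvd_pow p (by omega : d ≤ 1)).trans (pow_one p).dvd
    refine ⟨h6, fun h => ?_⟩
    rcases eq_or_lt_of_le h with h7 | h7
    · rw [show 2 * (d + 1) - 2 = d + 1 by omega]
      exact h6 h7.ge
    by_cases h8 : ∀ χ ∈ B, blockHeight p B χ.1 = 0
    · have h9 := (h5 h8).trans (Nat.mul_le_mul_left _ ((ih Q c h1 h3.symm).2 (by omega)))
      rw [← pow_add, hd, show 2 * (d + 1) + (2 * d - 2) = (2 * (d + 1) - 2) * 2 by omega,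
        pow_mul] at h9
      exact (Nat.pow_le_pow_iff_left two_ne_zero).1 h9
    · push Not at h8
      obtain ⟨χ, hχ, h8⟩ := h8
      have := two_mul_card_le_of_height_pos hM hB hχ h8
      rw [hd] at this
      omega

section
variable {G : Type u} [Group G] [Fintype G] {B : Set (IrrCharacter G)} {D : Subgroup G}

theorem card_le_of_two_gen (hM : IsPModular p M) (H : CycHyp.{u} p M) (hB : IsPBlock M B)
    (hD : IsDefectGroup p M B D) (hc : ∀ a b : D, a * b = b * a) {u v : D}
    (h : Subgroup.closure {u, v} = ⊤) : Nat.card B ≤ p ^ blockDefect p B := by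
  obtain ⟨Q, _, _, c, π, h1, h2, h3, -, h4, -⟩ := exists_major_dom hM hB hD u.2
    fun x hx => congrArg Subtype.val (hc ⟨x, hx⟩ u)
  refine h4 (H Q c _ h1 h2 ?_)
  rw [range_eq_closure π h h3, Set.image_singleton, ← Subgroup.zpowers_eq_closure]
  infer_instance

theorem card_le_of_three_gen (hM : IsPModular p M) (H : CycHyp.{u} p M) (hB : IsPBlock M B)
    (hD : IsDefectGroup p M B D) (hc : ∀ a b : D, a * b = b * a) {u v w : D}
    (h : Subgroup.closure {u, v, w} = ⊤) (huv : orderOf v ≤ orderOf u)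
    (huw : orderOf w ≤ orderOf u) : Nat.card B ^ 3 ≤ p ^ (5 * blockDefect p B) := by
  obtain ⟨Q, _, _, c, π, h1, h2, h3, h4, -, h5, -⟩ := exists_major_dom hM hB hD u.2
    fun x hx => congrArg Subtype.val (hc ⟨x, hx⟩ u)
  have h6 := card_le_of_two_gen hM H h1 h2 (u := π.rangeRestrict v) (v := π.rangeRestrict w)
    (fun a b => by
      obtain ⟨a, rfl⟩ := π.rangeRestrict_surjective a
      obtain ⟨b, rfl⟩ := π.rangeRestrict_surjective b
      rw [← map_mul, hc, map_mul]) (by
      rw [← Set.image_pair, ← range_eq_closure π.rangeRestrict h (Subtype.ext h3),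
        MonoidHom.range_eq_top.2 π.rangeRestrict_surjective])
  have h7 : Nat.card D ≤ orderOf u ^ 3 := by
    letI : CommGroup D := { mul_comm := hc }
    have e : ∀ A B : Subgroup D, Nat.card (A ⊔ B : Subgroup D) ≤ Nat.card A * Nat.card B :=
      fun A B => by
        rw [← card_sup_mul_card_inf (by rw [Subgroup.normalizer_eq_top]; exact le_top)]
        exact Nat.le_mul_of_pos_right _ Nat.card_pos
    rw [← Subgroup.card_top, ← h, Set.insert_eq, Set.insert_eq, Subgroup.closure_union,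
      Subgroup.closure_union]
    simp only [← Subgroup.zpowers_eq_closure]
    refine (e _ _).trans ((Nat.mul_le_mul_left _ (e _ _)).trans ?_)
    simp only [Nat.card_zpowers]
    calc _ ≤ orderOf u * (orderOf u * orderOf u) := by gcongr
      _ = _ := by ring
  rw [card_defectGroup hM hB hD] at h7
  rw [Subgroup.orderOf_coe] at h4
  have h8 := h5.trans (Nat.mul_le_mul_left _ h6)
  rw [mul_comm 5, pow_mul]
  generalize p ^ blockDefect p B = a at *
  generalize p ^ blockDefect p c = b at *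
  have h9 : 0 < orderOf u := orderOf_pos u
  generalize orderOf u = o at *
  subst h4
  have h10 : b ≤ o ^ 2 := Nat.le_of_mul_le_mul_left (h7.trans_eq (by ring)) h9
  calc _ ≤ (o * b * b) ^ 3 := by gcongr
    _ = o ^ 3 * b ^ 5 * b := by ring
    _ ≤ o ^ 3 * b ^ 5 * o ^ 2 := by gcongr
    _ = _ := by ring

theorem card_le_of_rank (hM : IsPModular p M) (H : CycHyp.{u} p M) (hB : IsPBlock M B)
    (hD : IsDefectGroup p M B D) (hc : ∀ a b : D, a * b = b * a) :
    (Group.rank D = 2 → Nat.card B ≤ p ^ blockDefect p B) ∧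
      (Group.rank D = 3 → Nat.card B ^ 3 ≤ p ^ (5 * blockDefect p B)) := by
  classical
  obtain ⟨S, h1, h2⟩ := Group.rank_spec D
  refine ⟨fun h => ?_, fun h => ?_⟩
  · obtain ⟨u, v, -, rfl⟩ := Finset.card_eq_two.1 (h1.trans h)
    exact card_le_of_two_gen hM H hB hD hc (by simpa using h2)
  · obtain ⟨u, v, w, -, -, -, rfl⟩ := Finset.card_eq_three.1 (h1.trans h)
    have h3 : Subgroup.closure {u, v, w} = ⊤ := by simpa using h2
    rcases le_total (orderOf u) (orderOf v) with h4 | h4 <;>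
      rcases le_total (orderOf u) (orderOf w) with h5 | h5 <;>
      rcases le_total (orderOf v) (orderOf w) with h6 | h6
    all_goals first
      | exact card_le_of_three_gen hM H hB hD hc h3 (by omega) (by omega)
      | exact card_le_of_three_gen hM H hB hD hc (u := v) (v := u) (w := w)
          (by rwa [Set.insert_comm]) (by omega) (by omega)
      | exact card_le_of_three_gen hM H hB hD hc (u := w) (v := u) (w := v)
          (by rwa [Set.insert_comm, Set.pair_comm w]) (by omega) (by omega)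

omit hp in
theorem exists_blockStab {G : Type*} [Group G] [Finite G] (D : Subgroup G)
    (b : Set (IrrCharacter (Subgroup.centralizer (D : Set G)))) : ∃ T : Subgroup G, ∀ g : G, g ∈ T ↔
      (g ∈ Subgroup.normalizer (D : Set G) ∧ ∀ θ ∈ b,
        ∀ θ' : IrrCharacter (Subgroup.centralizer (D : Set G)),
          (∀ h h' : Subgroup.centralizer (D : Set G), (h' : G) = g * h * g⁻¹ →
            θ'.1 h' = θ.1 h) → θ' ∈ b) := by
  let S : Submonoid G :=
    { carrier := {g | g ∈ Subgroup.normalizer (D : Set G) ∧ ∀ θ ∈ b,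
        ∀ θ' : IrrCharacter (Subgroup.centralizer (D : Set G)),
          (∀ h h' : Subgroup.centralizer (D : Set G), (h' : G) = g * h * g⁻¹ →
            θ'.1 h' = θ.1 h) → θ' ∈ b}
      one_mem' := ⟨Subgroup.one_mem _, fun θ hθ θ' h => by
        rwa [show θ' = θ from Subtype.ext (funext fun x => h x x (by simp))]⟩
      mul_mem' := fun {x y} hx hy => ⟨Subgroup.mul_mem _ hx.1 hy.1, fun θ hθ θ' h => by
        let e := (Subgroup.centralizer (D : Set G)).normalizerMonoidHom
          ⟨x, H7.normalizer_le_normalizer_centralizer D hx.1⟩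
        refine hx.2 ⟨_, θ'.2.comp_of_surjective e.toMonoidHom e.surjective⟩
          (hy.2 θ hθ _ fun a a' ha => h _ _ ?_) θ' fun a a' ha => congrArg θ'.1 (Subtype.ext ha)
        change x * a' * x⁻¹ = _
        rw [ha]
        group⟩ }
  refine ⟨⟨S, fun {x} hx => ?_⟩, fun _ => Iff.rfl⟩
  have h1 : x⁻¹ = x ^ (orderOf x - 1) := by
    rw [inv_eq_iff_mul_eq_one, ← pow_succ', Nat.sub_add_cancel (orderOf_pos x), pow_orderOf_eq_one]
  rw [h1]
  exact S.pow_mem hx _

theorem minOK_of_rank (hM : IsPModular p M) (hB : IsPBlock M B) {X Y : Set (IrrCharacter G)}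
    (hXY : B = X ∪ Y) (hd : Disjoint X Y) (hd0 : blockDefect p B ≠ 0)
    (hX : Nat.card X ∣ p - 1) (hY : Nat.card Y = (p ^ blockDefect p B - 1) / Nat.card X)
    (δ : IrrCharacter G → ℤ) (δ₀ : ℤ)
    (hδ : ∀ χ ∈ X, δ χ = 1 ∨ δ χ = -1) (hδ₀ : δ₀ = 1 ∨ δ₀ = -1)
    (hrel : ∀ ψ ∈ Y, ∀ g, ¬ p ∣ orderOf g →
      (δ₀ : ℂ) * ψ.1 g + ∑ᶠ χ ∈ X, (δ χ : ℂ) * χ.1 g = 0)
    (hr : blockRank p B = Nat.card X) : MinOK p B := by
  have h1 : Nat.card Y * Nat.card X = p ^ blockDefect p B - 1 := by
    rw [hY, Nat.div_mul_cancel (hX.trans (Nat.sub_one_dvd_pow_sub_one p _))]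
  have h2 := Nat.one_lt_pow hd0 hp.out.one_lt
  have h3 : Y.Nonempty := by
    rw [← Set.nonempty_coe_sort]
    refine (Nat.card_ne_zero.1 fun h => ?_).1
    rw [h] at h1
    omega
  have h4 : ∀ ψ ∈ Y, ∀ g, ¬ p ∣ orderOf g →
      ((-δ₀ : ℤ) : ℂ) * ψ.1 g = ∑ χ ∈ bfin X, (δ χ : ℂ) * χ.1 g := fun ψ hψ g hg => by
    have := hrel ψ hψ g hg
    rw [finsum_mem_bfin] at this
    push_cast
    linear_combination -this
  refine minOK_of_exc hM hB hXY hd h3 (by omega) δ (-δ₀) hδ (by omega) h4 fun c hc χ hχ => ?_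
  have := Fintype.ofFinite X
  have h5 : (bspan B).map (pRegL p G) =
      Submodule.span ℂ (Set.range fun χ : X => pRegularPart p χ.1.1) := by
    rw [map_bspan]
    refine le_antisymm (Submodule.span_le.2 ?_) (Submodule.span_mono ?_)
    · rintro _ ⟨ψ, hψ, rfl⟩
      rcases hXY ▸ hψ with h | h
      · exact Submodule.subset_span ⟨⟨ψ, h⟩, rfl⟩
      · have e : pRegularPart p ψ.1 =
            ∑ χ ∈ bfin X, (((-δ₀ : ℤ) : ℂ) * δ χ) • pRegularPart p χ.1 := funext fun g => by
          rw [Finset.sum_apply]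
          simp only [Pi.smul_apply, pReg_eq_ite, smul_eq_mul]
          split_ifs with hg
          · simp
          · simp only [mul_assoc]
            rw [← Finset.mul_sum, ← h4 ψ h g hg, ← mul_assoc]
            rcases hδ₀ with rfl | rfl <;> simp
        change pRegularPart p ψ.1 ∈ _
        rw [e]
        exact Submodule.sum_mem _ fun χ hχ => Submodule.smul_mem _ _
          (Submodule.subset_span ⟨⟨χ, mem_bfin.1 hχ⟩, rfl⟩)
    · rintro _ ⟨ψ, rfl⟩
      exact ⟨ψ, hXY ▸ Or.inl ψ.2, rfl⟩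
  rw [blockRank_eq, h5, Nat.card_eq_fintype_card] at hr
  have h6 := linearIndependent_iff_card_eq_finrank_span.2 hr.symm
  refine Fintype.linearIndependent_iff.1 h6 (fun χ => c χ) ?_ ⟨χ, hχ⟩
  rw [← hc]
  exact (Finset.sum_subtype _ (fun _ => mem_bfin) fun χ => c χ • pRegularPart p χ.1).symm

end

end Cfsg.Agent.H8
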