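import Mathlib
import Cfsg.Agent.H8.Dom2
import Cfsg.Agent.S4695
import Cfsg.Agent.S4696

/-!
Blocks with cyclic defect groups have a large minimum.
-/

set_option autoImplicit false
set_option linter.dupNamespace false

namespace Cfsg.Agent.H8

open Cfsg Cfsg.Agent.H4

universe u

theorem cycHyp {p : ℕ} [hp : Fact p.Prime] {M : Ideal AlgInt} (hM : IsPModular p M) :
    CycHyp.{u} p M := fun K _ _ B D hB hD hc => by
  haveI := hM.2.1
  by_cases hd : blockDefect p B = 0
  · exact minOK_of_card_le hM hB (by rw [card_eq_one_of_defect_zero hM hB hd]; omega)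
  obtain ⟨b, hb⟩ := H7.exists_isInducedBlock_of_le_defect (P := D)
    (H := Subgroup.centralizer (D : Set K)) hM
    (Subgroup.le_normalizer.trans (H7.normalizer_le_normalizer_centralizer D)) le_rfl
    (Subgroup.centralizer_le_normalizer _) hB hD le_rfl
  obtain ⟨T, hT⟩ := exists_blockStab D b
  obtain ⟨h1, -, X, Y, h2, h3, h4, h5, -, δ, δ₀, h6, h7, h8, -⟩ := S4696.result p M hM D hc _
    (Nat.pos_of_ne_zero hd) (card_defectGroup hM hB hD) B hB hD b hb T hT _ rfl
  exact minOK_of_rank hM hB h2 h3 hd (h4 ▸ h1) (h4 ▸ h5) δ δ₀ h6 h7 h8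
    ((S4695.result p M hM D hc _ (Nat.pos_of_ne_zero hd) (card_defectGroup hM hB hD) B hB hD
      b hb T hT _ rfl).trans h4.symm)

end Cfsg.Agent.H8
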