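import Mathlib
import Cfsg.Agent.H8.Isa1

/-!
# Isaacs' correspondence for groups of odd order, II: the invariant case
-/

namespace Cfsg.Agent.H8

open Cfsg Cfsg.Agent.H4 Cfsg.Agent.H5 Subgroup
open scoped ComplexConjugate commutatorElement

section cover
variable {N G Γ Z B : Type*} [Group N] [Group G] [Group Γ] [Group Z] [Group B] [Finite Γ]
  {E : NEmb N G} {θ : N → ℂ} (C : Cover E θ Γ Z) (r : Γ →* B) (hr : Function.Surjective r)
  (hk : ∀ γ, r γ = 1 ↔ γ ∈ C.ι.range) (hθ : IsIrrCharacter N θ)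
include hr hk hθ

theorem cov_down [Fintype N] {χ : G → ℂ} (hχ : IsIrrCharacter G χ)
    (h : classInner (fun n => χ (E.f n)) θ ≠ 0) :
    ∃ β : B → ℂ, IsIrrCharacter B β ∧ ∀ γ, χ (C.π γ) = β (r γ) * C.hat γ := by
  obtain ⟨β, hβ, h1, h2⟩ := C.exists_factor hθ hχ h
  obtain ⟨ξ, hξ, rfl⟩ := exists_irr_inflate r hr hβ (fun k hk' => by
    obtain ⟨n, rfl⟩ := (hk k).1 hk'
    have := h1 (n, 1) 1
    simpa [Cover.embNZ_f, Cover.nu_apply] using this)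
  exact ⟨ξ, hξ, h2⟩

theorem cov_up {β : B → ℂ} (hβ : IsIrrCharacter B β)
    (h : ∀ z, β (r (C.ζ z)) = ((C.lam z)⁻¹ : ℂˣ) * β 1) :
    ∃ χ, IsIrrCharacter G χ ∧ ∀ γ, χ (C.π γ) = β (r γ) * C.hat γ :=
  C.exists_of_factor hθ (hβ.comp_of_surjective r hr) (fun x => by
    rw [Cover.embNZ_f, map_mul, (hk _).2 ⟨_, rfl⟩, one_mul, h, map_one]; rfl)

theorem cov_inner [Fintype G] [Fintype B] {F ψ : G → ℂ} {F' β : B → ℂ}
    (hF' : IsClassFunction B F') (hβ : IsIrrCharacter B β)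
    (h1 : ∀ γ, F (C.π γ) = F' (r γ) * C.hat γ) (h2 : ∀ γ, ψ (C.π γ) = β (r γ) * C.hat γ) :
    classInner F ψ = classInner F' β := by
  have := Fintype.ofFinite Γ
  have := C.finite_N
  have := Fintype.ofFinite N
  have key : ∀ η : B → ℂ, IsIrrCharacter B η →
      classInner (fun n => η (r (C.embN.f n))) (fun _ => 1) ≠ 0 := fun η hη =>
    (C.embN.inner_res_one_ne_zero_iff (hη.comp_of_surjective r hr)).2 fun n => by
      rw [show r (C.embN.f n) = 1 from (hk _).2 ⟨n, rfl⟩, map_one]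
  rw [← inner_comp_of_surjective C.π C.π_surj F ψ]
  have e1 : (fun γ => F (C.π γ)) = ∑ η : IrrCharacter B,
      classInner F' η • ((fun γ => (η : B → ℂ) (r γ)) * C.hat) := by
    ext γ
    rw [h1, hF'.apply_eq_sum, Finset.sum_mul, Finset.sum_apply]
    simp [mul_assoc]
  have e2 : (fun γ => ψ (C.π γ)) = (fun γ => β (r γ)) * C.hat := funext h2
  rw [e1, e2, classInner_sum_left]
  conv_rhs => rw [hF'.eq_sum, classInner_sum_left]
  refine Finset.sum_congr rfl fun η _ => ?_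
  rw [classInner_smul_left, classInner_smul_left, C.embN.gallagher_inner isIrrCharacter_one
    (fun _ _ => rfl) (NEmb.one_mul_irr hθ) C.isChar C.hat_ι (η.2.comp_of_surjective r hr)
    (hβ.comp_of_surjective r hr) (key _ η.2) (key _ hβ), inner_comp_of_surjective r hr]

end cover

/-- a character triple isomorphism in ambient form -/
structure TI {Γ : Type*} [Group Γ] {L X : Subgroup Γ} (hLX : L ≤ X)
    (hXL : X ≤ normalizer (L : Set Γ)) (φ : L → ℂ) (Γh Z Q : Type*) [Group Γh] [Group Z]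
    [Group Q] extends Cover (embN hLX hXL) φ Γh Z where
  ρ : Γh →* Q
  hρ : ∀ γ, ρ γ = 1 ↔ γ ∈ ι.range

namespace TI
variable {Γ : Type*} [Group Γ] {L X : Subgroup Γ} {hLX : L ≤ X}
  {hXL : X ≤ normalizer (L : Set Γ)} {φ : L → ℂ} {Γh Z Q : Type*} [Group Γh] [Group Z]
  [Group Q] (D : TI hLX hXL φ Γh Z Q) {T T' S : Subgroup Γ}

/-- projection to the ambient group -/
def p : Γh →* Γ := X.subtype.comp D.π

theorem p_ι (n : L) : D.p (D.ι n) = n := congrArg Subtype.val (D.π_ι n)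

theorem p_ζ (z : Z) : D.p (D.ζ z) = 1 := congrArg Subtype.val (D.π_ζ z)

theorem p_surj {x : Γ} (hx : x ∈ X) : ∃ γ, D.p γ = x := by
  obtain ⟨γ, h⟩ := D.π_surj ⟨x, hx⟩
  exact ⟨γ, congrArg Subtype.val h⟩

theorem p_mem (γ : Γh) : D.p γ ∈ X := (D.π γ).2

theorem p_ker {γ : Γh} (h : D.p γ = 1) : ∃ z, D.ζ z = γ := D.ker γ (Subtype.ext h)

theorem ρ_ι (n : L) : D.ρ (D.ι n) = 1 := (D.hρ _).2 ⟨n, rfl⟩

theorem dec {γ : Γh} (h : D.p γ ∈ L) : ∃ z, D.ρ γ = D.ρ (D.ζ z) := by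
  obtain ⟨z, hz⟩ := D.p_ker (γ := (D.ι ⟨_, h⟩)⁻¹ * γ) (by
    rw [map_mul, map_inv, p_ι, inv_mul_cancel])
  exact ⟨z, by rw [hz, map_mul, map_inv, ρ_ι, inv_one, one_mul]⟩

/-- the subgroup of `Q` corresponding to `T` -/
def bar (T : Subgroup Γ) : Subgroup Q := (T.comap D.p).map D.ρ

theorem mem_bar_of {γ : Γh} (h : D.p γ ∈ T) : D.ρ γ ∈ D.bar T := ⟨γ, h, rfl⟩

theorem mem_bar (hT : L ≤ T) {γ : Γh} : D.ρ γ ∈ D.bar T ↔ D.p γ ∈ T := by
  refine ⟨?_, D.mem_bar_of⟩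
  rintro ⟨δ, h1, h2⟩
  obtain ⟨n, hn⟩ := (D.hρ (δ⁻¹ * γ)).1 (by rw [map_mul, map_inv, h2, inv_mul_cancel])
  have h3 : D.p γ = D.p δ * n := by rw [← D.p_ι, hn, ← map_mul, mul_inv_cancel_left]
  rw [h3]
  exact T.mul_mem h1 (hT n.2)

theorem bar_mono (h : T' ≤ T) : D.bar T' ≤ D.bar T := map_mono (comap_mono h)

theorem bar_central {z : Q} (hz : z ∈ D.bar L) (γ : Γh) : D.ρ γ * z = z * D.ρ γ := by
  obtain ⟨δ, h, rfl⟩ := hz
  obtain ⟨z, hz⟩ := D.dec h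
  rw [hz, ← map_mul, ← map_mul, D.central]

theorem ρ_norm {γ : Γh} (h : D.p γ ∈ normalizer (T : Set Γ)) :
    D.ρ γ ∈ normalizer (D.bar T : Set Q) :=
  le_normalizer_map _ (mem_map_of_mem _ (le_normalizer_comap _ h))

/-- the cover of an intermediate subgroup -/
def cov (hLT : L ≤ T) (hTX : T ≤ X) :
    Cover (embN hLT (hTX.trans hXL)) φ (T.comap D.p) Z where
  π := D.p.subgroupComap T
  ι := D.ι.codRestrict _ fun n => by rw [mem_comap, p_ι]; exact hLT n.2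
  ζ := D.ζ.codRestrict _ fun z => by rw [mem_comap, p_ζ]; exact T.one_mem
  lam := D.lam
  hat γ := D.hat γ
  π_surj t := by
    obtain ⟨γ, h⟩ := D.p_surj (hTX t.2)
    exact ⟨⟨γ, show D.p γ ∈ T from h ▸ t.2⟩, Subtype.ext h⟩
  π_ι n := Subtype.ext (D.p_ι n)
  ι_act γ n := Subtype.ext (D.ι_act γ n)
  ζ_inj := fun _ _ h => D.ζ_inj (congrArg Subtype.val h)
  π_ζ z := Subtype.ext (D.p_ζ z)
  ker γ hγ := by
    obtain ⟨z, hz⟩ := D.p_ker (congrArg Subtype.val hγ)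
    exact ⟨z, Subtype.ext hz⟩
  central z γ := Subtype.ext (D.central z γ)
  isChar := D.isChar.restrict _
  hat_ι := D.hat_ι
  hat_ζ z γ := D.hat_ζ z γ

theorem cov_ker (hLT : L ≤ T) (hTX : T ≤ X) (γ : T.comap D.p) :
    D.ρ.subgroupMap _ γ = 1 ↔ γ ∈ (D.cov hLT hTX).ι.range := by
  rw [Subtype.ext_iff]
  refine (D.hρ γ).trans ⟨?_, ?_⟩
  · rintro ⟨n, hn⟩; exact ⟨n, Subtype.ext hn⟩
  · rintro ⟨n, hn⟩; exact ⟨n, congrArg Subtype.val hn⟩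

/-- the character correspondence -/
def U (T : Subgroup Γ) (χ : T → ℂ) (β : D.bar T → ℂ) : Prop :=
  ∀ γ (h : D.p γ ∈ T), χ ⟨D.p γ, h⟩ = β ⟨D.ρ γ, D.mem_bar_of h⟩ * D.hat γ

theorem U.cjI {D : TI hLX hXL φ Γh Z Q} {χ : IrrCharacter T} {β : IrrCharacter (D.bar T)}
    (h : D.U T χ.1 β.1) {σ : Γh} (hσ : D.p σ ∈ normalizer (T : Set Γ)) :
    D.U T (cjI hσ χ).1 (cjI (D.ρ_norm hσ) β).1 := fun γ hγ => by
  have h1 : D.p (σ * γ * σ⁻¹) ∈ T := by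
    rw [map_mul, map_mul, map_inv]; exact H1.conj_mem_of_le_normalizer le_rfl hσ hγ
  have h2 := h _ h1
  rw [D.isChar.isClassFunction] at h2
  rw [cjI_apply, cjI_apply]
  convert h2 using 2
  · exact Subtype.ext (by simp)
  · exact congrArg β.1 (Subtype.ext (by simp))

variable [Finite Γ] [Finite Γh] [Finite Q] (hφ : IsIrrCharacter L φ)
include hφ

theorem gmul_eq (hLT : L ≤ T') (h : T' ≤ T) (hTX : T ≤ X) {χ : IrrCharacter T}
    {β : IrrCharacter (D.bar T)} {ψ : IrrCharacter T'} {ξ : IrrCharacter (D.bar T')}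
    (h1 : D.U T χ.1 β.1) (h2 : D.U T' ψ.1 ξ.1) :
    gmul h χ.1 ψ.1 = gmul (D.bar_mono h) β.1 ξ.1 := by
  have := Fintype.ofFinite T'
  have := Fintype.ofFinite (D.bar T')
  rw [← Nat.cast_inj (R := ℂ), gmul_cast _ χ.2.isCharacter ψ.2.isCharacter,
    gmul_cast _ β.2.isCharacter ξ.2.isCharacter]
  exact cov_inner (D.cov hLT (h.trans hTX)) (B := D.bar T') (D.ρ.subgroupMap _)
    (D.ρ.subgroupMap_surjective _) (D.cov_ker hLT _) hφ
    (β.2.isCharacter.restrict_le (D.bar_mono h)).isClassFunction ξ.2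
    (fun γ => h1 γ (h γ.2)) (fun γ => h2 γ γ.2)

theorem eq_iff (hLT : L ≤ T) (hTX : T ≤ X) {χ χ' : IrrCharacter T}
    {β β' : IrrCharacter (D.bar T)} (h1 : D.U T χ.1 β.1) (h2 : D.U T χ'.1 β'.1) :
    χ = χ' ↔ β = β' := by
  classical
  have h := D.gmul_eq hφ hLT le_rfl hTX h1 h2
  rw [gmul_refl, gmul_refl] at h
  by_cases a : χ = χ' <;> by_cases b : β = β' <;> simp_all

theorem exists_U (hLT : L ≤ T) (hTX : T ≤ X) {χ : IrrCharacter T} (h : gmul hLT χ.1 φ ≠ 0) :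
    ∃ β : IrrCharacter (D.bar T), D.U T χ.1 β.1 := by
  have := Fintype.ofFinite L
  obtain ⟨β, h1, h2⟩ := cov_down (D.cov hLT hTX) (B := D.bar T) (D.ρ.subgroupMap _)
    (D.ρ.subgroupMap_surjective _) (D.cov_ker hLT _) hφ χ.2
    ((gmul_ne_zero_iff hLT χ.2.isCharacter hφ.isCharacter).1 h)
  exact ⟨⟨β, h1⟩, fun γ hγ => h2 ⟨γ, hγ⟩⟩

theorem bij {ν : IrrCharacter (D.bar L)} (hν : D.U L φ ν.1) (hLT : L ≤ T) (hTX : T ≤ X)
    (hST : S ≤ normalizer (T : Set Γ)) {S₀ : Subgroup Γh} (h1 : S₀ ≤ S.comap D.p)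
    (h2 : ∀ s ∈ S, ∃ σ ∈ S₀, D.p σ = s) :
    Bij (fun χ : IrrCharacter T => gmul hLT χ.1 φ ≠ 0 ∧ SInv S χ.1)
      (fun β : IrrCharacter (D.bar T) => gmul (D.bar_mono hLT) β.1 ν.1 ≠ 0 ∧
        SInv (S₀.map D.ρ) β.1) fun χ β => D.U T χ.1 β.1 := by
  have key : ∀ {χ : IrrCharacter T} {β : IrrCharacter (D.bar T)}, D.U T χ.1 β.1 →
      gmul hLT χ.1 φ = gmul (D.bar_mono hLT) β.1 ν.1 := fun h =>
    D.gmul_eq hφ le_rfl hLT hTX (ψ := ⟨φ, hφ⟩) h hν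
  refine Bij.restrict ⟨fun χ hχ => ?_, fun β hβ => ?_⟩ fun χ β _ _ h => ?_
  · obtain ⟨β, h⟩ := D.exists_U hφ hLT hTX hχ
    exact ⟨β, key h ▸ hχ, h, fun β' _ h' => (D.eq_iff hφ hLT hTX h' h).1 rfl⟩
  · have hc : D.bar L ≤ centralizer (D.bar T : Set Q) := by
      rintro z hz _ ⟨γ, -, rfl⟩; exact D.bar_central hz γ
    have h3 := res_eq_gmul (D.bar_mono hLT)
      ((le_centralizer_iff.1 hc).trans (centralizer_le_normalizer _))
      (sInv_of_le_centralizer hc _) hβ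
    have h4 : ∀ z, ν.1 ⟨D.ρ (D.ζ z), D.mem_bar_of (by rw [p_ζ]; exact L.one_mem)⟩ =
        ((D.lam z)⁻¹ : ℂˣ) := fun z => by
      have h5 := hν (D.ζ z) (by rw [p_ζ]; exact L.one_mem)
      have h6 := D.hat_ζ z 1
      rw [mul_one, D.toCover.hat_one] at h6
      rw [h6, show (⟨D.p (D.ζ z), _⟩ : L) = 1 from Subtype.ext (D.p_ζ z), ← mul_assoc,
        eq_comm, mul_eq_right₀ hφ.apply_one_ne_zero] at h5
      rw [Units.val_inv_eq_inv_val]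
      exact eq_inv_of_mul_eq_one_left h5
    obtain ⟨χ, h5, h6⟩ := cov_up (D.cov hLT hTX) (B := D.bar T) (D.ρ.subgroupMap _)
      (D.ρ.subgroupMap_surjective _) (D.cov_ker hLT _) hφ β.2 (fun z => by
        have h7 := h3 ⟨D.ρ (D.ζ z), D.mem_bar_of (by rw [p_ζ]; exact L.one_mem)⟩
        have h8 := h3 1
        have h9 := h4 1
        rw [h4] at h7
        rw [show (⟨D.ρ (D.ζ 1), _⟩ : D.bar L) = 1 from Subtype.ext (by simp)] at h9
        rw [h9, map_one, inv_one, Units.val_one, mul_one] at h8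
        refine h7.trans ?_
        rw [mul_comm]
        exact congrArg _ h8.symm)
    have h : D.U T χ β.1 := fun γ hγ => h6 ⟨γ, hγ⟩
    exact ⟨⟨χ, h5⟩, (key (χ := ⟨χ, h5⟩) h).symm ▸ hβ, h,
      fun χ' _ h' => (D.eq_iff hφ hLT hTX (χ' := ⟨χ, h5⟩) h' h).2 rfl⟩
  · have h3 : ∀ σ (hσ : σ ∈ S₀), EInv (D.p σ) χ.1 ↔ EInv (D.ρ σ) β.1 := fun σ hσ =>
      (cjI_eq_iff _ _).symm.trans ((D.eq_iff hφ hLT hTX (h.cjI (hST (h1 hσ))) h).trans
        (cjI_eq_iff _ _))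
    constructor
    · rintro h4 _ ⟨σ, hσ, rfl⟩
      exact (h3 σ hσ).1 (h4 _ (h1 hσ))
    · intro h4 s hs
      obtain ⟨σ, hσ, rfl⟩ := h2 s hs
      exact (h3 σ hσ).2 (h4 _ ⟨σ, hσ, rfl⟩)

end TI

/-- hypotheses of the general case -/
structure IH {Γ : Type*} [Group Γ] (G K L S H : Subgroup Γ) : Prop where
  LK : L ≤ K
  KG : K ≤ G
  SG : S ≤ normalizer (G : Set Γ)
  SK : S ≤ normalizer (K : Set Γ)
  SL : S ≤ normalizer (L : Set Γ)
  GK : G ≤ normalizer (K : Set Γ)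
  GN : G ≤ normalizer (L : Set Γ)
  ab : ∀ a ∈ K, ∀ b ∈ K, a * b * a⁻¹ * b⁻¹ ∈ L
  GS : ∀ s ∈ S, ∀ g ∈ G, s * g * s⁻¹ * g⁻¹ ∈ K
  hH : ∀ g, g ∈ H ↔ g ∈ G ∧ ∀ s ∈ S, s * g * s⁻¹ * g⁻¹ ∈ L
  fix : H ⊓ K ≤ L
  cop : (Nat.card S).Coprime (Nat.card G)
  odd : ¬ 2 ∣ Nat.card G
  sol : Group.IsSolvable G

namespace IH
variable {Γ : Type*} [Group Γ] {G K L S H : Subgroup Γ} (h : IH G K L S H)
include h

theorem LG : L ≤ G := h.LK.trans h.KG

theorem HG : H ≤ G := fun g hg => ((h.hH g).1 hg).1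

theorem LH : L ≤ H := fun g hg => (h.hH g).2 ⟨h.LG hg, fun _ hs =>
  L.mul_mem (H1.conj_mem_of_le_normalizer h.SL hs hg) (L.inv_mem hg)⟩

theorem SH : S ≤ normalizer (H : Set Γ) := le_normalizer_of_relCent h.SG h.SL h.hH

end IH

namespace TI
variable {Γ : Type*} [Group Γ] {G K L S H : Subgroup Γ} {hLX : L ≤ G ⊔ S}
  {hXL : G ⊔ S ≤ normalizer (L : Set Γ)} {φ : L → ℂ} {Γh Z Q : Type*} [Group Γh] [Group Z]
  [Group Q] (D : TI hLX hXL φ Γh Z Q) [Finite Γ] [Finite Γh] [Finite Q]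

theorem ch (h : IH G K L S H) (hlam : Function.Injective D.lam) {n : ℕ} (hn : ∀ z : Z, z ^ n = 1)
    (hn1 : (Nat.card S).Coprime n) (hn2 : ¬ 2 ∣ n) {S₀ : Subgroup Γh} (h1 : S₀ ≤ S.comap D.p)
    (h2 : ∀ s ∈ S, ∃ σ ∈ S₀, D.p σ = s) (h3 : Nat.card S₀ ∣ Nat.card S) :
    CH (D.bar G) (D.bar K) (D.bar L) (S₀.map D.ρ) (D.bar H) := by
  have hpow : ∀ x : D.bar G, x ^ (Nat.card G * n) = 1 := by
    rintro ⟨_, γ, hγ, rfl⟩
    obtain ⟨z, hz⟩ := D.p_ker (γ := γ ^ Nat.card G) (by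
      rw [map_pow]; exact congrArg Subtype.val (pow_card_eq_one' (x := (⟨D.p γ, hγ⟩ : G))))
    refine Subtype.ext ?_
    change D.ρ γ ^ _ = 1
    rw [← map_pow, pow_mul, ← hz, ← map_pow, hn, map_one, map_one]
  have hcop : (Nat.card (S₀.map D.ρ)).Coprime (Nat.card (D.bar G)) :=
    (coprime_card_of_pow_eq_one hpow (h.cop.mul_right hn1)).coprime_dvd_left
      ((card_map_dvd _ _).trans h3)
  have hcS : ∀ z ∈ D.bar L, ∀ x ∈ S₀.map D.ρ, x * z = z * x := by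
    rintro z hz _ ⟨γ, -, rfl⟩; exact D.bar_central hz γ
  have hC : ∀ γ, D.p γ ∈ G → D.ρ γ ∈ centralizer (S₀.map D.ρ : Set Q) → D.p γ ∈ H :=
    fun γ hγ hc => (h.hH _).2 ⟨hγ, fun s hs => by
      obtain ⟨σ, hσ, rfl⟩ := h2 s hs
      rw [← map_inv, ← map_inv, ← map_mul, ← map_mul, ← map_mul, ← D.mem_bar le_rfl]
      simp only [map_mul, map_inv]
      rw [hc _ ⟨σ, hσ, rfl⟩]
      simp⟩
  refine
    { ZK := D.bar_mono h.LK
      KA := D.bar_mono h.KG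
      SA := by rintro _ ⟨σ, hσ, rfl⟩; exact D.ρ_norm (h.SG (h1 hσ))
      SK := by rintro _ ⟨σ, hσ, rfl⟩; exact D.ρ_norm (h.SK (h1 hσ))
      AK := by rintro _ ⟨σ, hσ, rfl⟩; exact D.ρ_norm (h.GK hσ)
      cA := by rintro z hz _ ⟨γ, -, rfl⟩; exact D.bar_central hz γ
      cS := hcS
      ab := ?_
      AS := ?_
      fix := ?_
      cop := hcop
      odd := (Nat.Prime.coprime_iff_not_dvd Nat.prime_two).1 (coprime_card_of_pow_eq_one hpow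
        (((Nat.Prime.coprime_iff_not_dvd Nat.prime_two).2 h.odd).mul_right
          ((Nat.Prime.coprime_iff_not_dvd Nat.prime_two).2 hn2)))
      sol := ?_
      hB := le_antisymm (le_inf (D.bar_mono h.HG) ?_) ?_ }
  · rintro _ ⟨a, ha, rfl⟩ _ ⟨b, hb, rfl⟩
    have := D.mem_bar_of (T := L) (γ := a * b * a⁻¹ * b⁻¹) (by simpa using h.ab _ ha _ hb)
    simpa using this
  · rintro _ ⟨a, ha, rfl⟩ _ ⟨b, hb, rfl⟩
    have := D.mem_bar_of (T := K) (γ := a * b * a⁻¹ * b⁻¹) (by simpa using h.GS _ (h1 ha) _ hb)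
    simpa using this
  · rintro _ ⟨⟨γ, hγ, rfl⟩, hc⟩
    exact D.mem_bar_of (h.fix ⟨hC γ (h.KG hγ) hc, hγ⟩)
  · have := h.sol
    have : Group.IsSolvable Z := Group.isSolvable_of_comm fun a b => hlam (by
      rw [map_mul, map_mul, mul_comm])
    refine H1.isSolvable_map _ (Group.isSolvable_of_ker_le_range
      (D.cov h.LG le_sup_left).ζ (D.cov h.LG le_sup_left).π fun γ hγ => ?_)
    exact (D.cov h.LG le_sup_left).ker γ hγ
  · refine le_centralizer_iff.1 (H1.le_centralizer_of_commutator_le (N := D.bar L)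
      (hcop.coprime_dvd_right (card_dvd_of_le (D.bar_mono h.LG))) ?_
      fun x hx z hz => (hcS z hz x hx).symm)
    rw [commutator_comm, commutator_le]
    rintro _ ⟨a, ha, rfl⟩ _ ⟨b, hb, rfl⟩
    have := D.mem_bar_of (T := L) (γ := a * b * a⁻¹ * b⁻¹) (by
      simpa using ((h.hH _).1 hb).2 _ (h1 ha))
    simpa [commutatorElement_def] using this
  · rintro _ ⟨⟨γ, hγ, rfl⟩, hc⟩
    exact D.mem_bar_of (hC γ hγ hc)

end TI

theorem IH.bij_inv {Γ : Type*} [Group Γ] [Finite Γ] {G K L S H : Subgroup Γ} (h : IH G K L S H)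
    {φ : IrrCharacter L} (hG : SInv G φ.1) (hS : SInv S φ.1) :
    Bij (fun χ : IrrCharacter G => gmul h.LG χ.1 φ.1 ≠ 0 ∧ SInv S χ.1)
      (fun ψ : IrrCharacter H => gmul h.LH ψ.1 φ.1 ≠ 0 ∧ SInv S ψ.1)
      fun χ ψ => ¬ 2 ∣ gmul h.HG χ.1 ψ.1 := by
  have hLX : L ≤ G ⊔ S := h.LG.trans le_sup_left
  obtain ⟨hXL, hX⟩ := le_stabA.1 (sup_le (le_stabA.2 ⟨h.GN, hG⟩) (le_stabA.2 ⟨h.SL, hS⟩))
  obtain ⟨d, -, hd⟩ := φ.2.exists_degree
  obtain ⟨Γh, _, _, Z, _, C, hlam, hn, -⟩ := exists_cover (embN hLX hXL) φ.2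
    ((sInv_embN _ _).1 hX) hd Nat.card_pos.ne' (linear_pow_card _)
  have hdG : d ∣ Nat.card G := (φ.2.degree_dvd_card hd).trans (card_dvd_of_le h.LG)
  have hn1 : (Nat.card S).Coprime (d * Nat.card L) := (h.cop.coprime_dvd_right hdG).mul_right
    (h.cop.coprime_dvd_right (card_dvd_of_le h.LG))
  have hn2 : ¬ 2 ∣ d * Nat.card L := fun h2 => h.odd (((Nat.Prime.dvd_mul Nat.prime_two).1 h2).elim
    (·.trans hdG) (·.trans (card_dvd_of_le h.LG)))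
  have hN : C.ι.range.Normal := C.embN.instNormalRange
  let D₀ : TI hLX hXL φ.1 Γh Z (Γh ⧸ C.ι.range) :=
    { C with ρ := QuotientGroup.mk' _, hρ := fun γ => QuotientGroup.eq_one_iff γ }
  let j := MulAction.toPermHom (Γh ⧸ C.ι.range) (Γh ⧸ C.ι.range)
  let D : TI hLX hXL φ.1 Γh Z (Equiv.Perm (Γh ⧸ C.ι.range)) :=
    { C with
      ρ := j.comp D₀.ρ
      hρ := fun γ => (map_eq_one_iff j MulAction.toPerm_injective).trans (D₀.hρ γ) }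
  have hi : D.p.ker.relIndex (S.comap D.p) ∣ Nat.card S := by
    rw [relIndex_ker]; exact card_dvd_of_le (map_comap_le _ _)
  obtain ⟨S₀, h1, h2, -, h3⟩ := H1.exists_complement_le (N := D.p.ker) (L := S.comap D.p)
    (ker_le_comap _ _) le_normalizer_of_normal
    ((coprime_card_of_pow_eq_one (n := d * Nat.card L) (fun x => by
      obtain ⟨z, hz⟩ := D.p_ker x.2
      refine Subtype.ext ?_
      rw [SubgroupClass.coe_pow, ← hz, ← map_pow, hn, map_one]; rfl) hn1).symm.coprime_dvd_right hi)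
  have h4 : ∀ s ∈ S, ∃ σ ∈ S₀, D.p σ = s := fun s hs => by
    obtain ⟨γ, rfl⟩ := D.p_surj ((le_sup_right : S ≤ G ⊔ S) hs)
    obtain ⟨k, hk, σ, hσ, rfl⟩ := (H1.mem_sup_of_le_normalizer_left le_normalizer_of_normal).1
      (h2.ge hs)
    exact ⟨σ, hσ, by rw [map_mul, hk, one_mul]⟩
  have c₀ := D₀.ch h hlam hn hn1 hn2 h1 h4 (h3 ▸ hi)
  have c := D.ch h hlam hn hn1 hn2 h1 h4 (h3 ▸ hi)
  obtain ⟨τ, t1, t2, t3, t4⟩ := c₀.exists_tau (by
    rw [eq_top_iff]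
    intro x _
    obtain ⟨γ, rfl⟩ := QuotientGroup.mk'_surjective _ x
    obtain ⟨g, hg, s, hs, e⟩ := (H1.mem_sup_of_le_normalizer_left h.SG).1 (D.p_mem γ)
    obtain ⟨σ, hσ, rfl⟩ := h4 s hs
    rw [← inv_mul_cancel_right γ σ, map_mul]
    refine mul_mem_sup (D₀.mem_bar_of ?_) ⟨σ, hσ, rfl⟩
    change D.p _ ∈ G
    rw [map_mul, map_inv, ← e, mul_inv_cancel_right]; exact hg)
  have ht : ∀ x, τ.toEquiv * j x * τ.toEquiv⁻¹ = j (τ x) := fun x => by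
    rw [mul_inv_eq_iff_eq_mul]
    exact Equiv.ext fun y => τ.map_mul x y
  have B := c.bij (t := τ.toEquiv) (Equiv.ext t1)
    (by rintro _ ⟨γ, hγ, rfl⟩; exact (ht _).trans (congrArg j (t2 _ ⟨γ, hγ, rfl⟩)))
    (by rintro _ ⟨γ, hγ, rfl⟩; exact (ht _).trans (congrArg j (t3 _ ⟨γ, hγ, rfl⟩)))
    (by
      rintro _ ⟨γ, hγ, rfl⟩
      obtain ⟨δ, hδ, e⟩ := t4 _ ⟨γ, hγ, rfl⟩
      refine ⟨δ, hδ, ?_⟩
      change j (D₀.ρ δ) = τ.toEquiv * j (D₀.ρ γ) * τ.toEquiv⁻¹ * j (D₀.ρ γ)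
      rw [ht, ← map_mul, e])
  obtain ⟨ν, hν⟩ := D.exists_U φ.2 le_rfl hLX (χ := φ) (by classical simp [gmul_refl])
  refine Bij.transport (D.bij φ.2 hν h.LG le_sup_left h.SG h1 h4)
    (D.bij φ.2 hν h.LH (h.HG.trans le_sup_left) h.SH h1 h4)
    (fun χ β ψ ξ _ _ _ _ u v => by rw [D.gmul_eq φ.2 h.LH h.HG le_sup_left u v])
    ((B.restrict (W := fun β => gmul (D.bar_mono h.LG) β.1 ν.1 ≠ 0)
      (W' := fun ξ => gmul (D.bar_mono h.LH) ξ.1 ν.1 ≠ 0) fun β ξ _ _ h5 => ?_).congr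
      (fun _ => and_comm) fun ξ => ⟨fun h => ⟨h.2, sInv_of_le_centralizer c.BS _⟩,
        fun h => ⟨trivial, h.1⟩⟩)
  have h6 : gmul c.BA β.1 ξ.1 ≠ 0 := fun h0 => h5 (h0 ▸ dvd_zero 2)
  refine ⟨fun h7 => ?_, gmul_trans_ne_zero c.BA c.ZB h6⟩
  obtain ⟨ν', h8⟩ := exists_under c.ZB ξ
  have hc : D.bar L ≤ centralizer (D.bar G : Set _) := fun z hz x hx => c.cA z hz x hx
  have hn := (le_centralizer_iff.1 hc).trans (centralizer_le_normalizer _)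
  obtain ⟨k, hk, rfl⟩ := exists_cjI_eq (D.bar_mono h.LG) hn h7
    (gmul_trans_ne_zero c.BA c.ZB h6 h8)
  rwa [(sInv_iff hn ν).1 (sInv_of_le_centralizer hc _) k hk] at h8

end Cfsg.Agent.H8
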