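import Mathlib
import Cfsg.Agent.H8.Isa2

/-!
# Isaacs' correspondence for groups of odd order, III: Clifford reduction
-/

namespace Cfsg.Agent.H8

open Cfsg Cfsg.Agent.H4 Cfsg.Agent.H5 Subgroup
open scoped ComplexConjugate commutatorElement

variable {Γ : Type*} [Group Γ] [Finite Γ] {G K L S H T : Subgroup Γ}

section cliff
variable (hLT : L ≤ T) (hTG : T ≤ G) (hGL : G ≤ normalizer (L : Set Γ)) {φ : IrrCharacter L}
  (hT : ∀ g ∈ G, EInv g φ.1 → g ∈ T)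
include hGL hT

theorem cliff_up {η : IrrCharacter T} (h : gmul hLT η.1 φ.1 ≠ 0) :
    ∃ χ : IrrCharacter G, gmul hTG χ.1 η.1 = 1 ∧ (∀ χ' : IrrCharacter G, χ' ≠ χ →
      gmul hTG χ'.1 η.1 = 0) ∧ gmul (hLT.trans hTG) χ.1 φ.1 = gmul hLT η.1 φ.1 := by
  have := Fintype.ofFinite Γ
  have := Fintype.ofFinite G
  have := Fintype.ofFinite L
  have := Fintype.ofFinite T
  obtain ⟨h1, h2⟩ := (embN (hLT.trans hTG) hGL).isIrr_indFun_of_inertia_le φ.2 (T.subgroupOf G)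
    (fun n => hLT n.2) (fun g hg => hT g g.2 fun a b e => by
      rw [← (NEmb.mem_inertia _).1 hg a]; exact congrArg φ.1 (Subtype.ext e))
    (η.2.comp_equiv (subgroupOfEquivOfLe hTG))
    ((gmul_ne_zero_iff hLT η.2.isCharacter φ.2.isCharacter).1 h)
  have e := indHom_inclusion hTG η.1
  have h3 : IsIrrCharacter G (indHom (inclusion hTG) η.1) := e ▸ h1
  have h4 : ∀ χ' : IrrCharacter G, (gmul hTG χ'.1 η.1 : ℂ) =
      classInner χ'.1 (indHom (inclusion hTG) η.1) := fun χ' => by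
    rw [gmul_cast _ χ'.2.isCharacter η.2.isCharacter, inner_indHom_right _ _ χ'.2.isClassFunction]
    rfl
  refine ⟨⟨_, h3⟩, ?_, fun χ' hne => ?_, ?_⟩
  · rw [← Nat.cast_inj (R := ℂ), h4 ⟨_, h3⟩, h3.classInner_self, Nat.cast_one]
  · rw [← Nat.cast_inj (R := ℂ), h4, χ'.2.classInner_of_ne h3 fun e => hne (Subtype.ext e),
      Nat.cast_zero]
  · rw [← Nat.cast_inj (R := ℂ), gmul_cast _ h3.isCharacter φ.2.isCharacter,
      gmul_cast _ η.2.isCharacter φ.2.isCharacter, e]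
    exact h2

theorem cliff_one {χ : IrrCharacter G} {η : IrrCharacter T} (h : gmul hLT η.1 φ.1 ≠ 0)
    (h1 : gmul hTG χ.1 η.1 ≠ 0) : gmul hTG χ.1 η.1 = 1 ∧ (∀ χ' : IrrCharacter G, χ' ≠ χ →
      gmul hTG χ'.1 η.1 = 0) ∧ ∀ η' : IrrCharacter T, η' ≠ η → gmul hLT η'.1 φ.1 ≠ 0 →
      gmul hTG χ.1 η'.1 = 0 := by
  classical
  obtain ⟨χ', h2, h3, h4⟩ := cliff_up hLT hTG hGL hT h
  obtain rfl : χ = χ' := by_contra fun e => h1 (h3 χ e)
  refine ⟨h2, h3, fun η' hne h5 => ?_⟩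
  rw [gmul_trans hTG hLT χ.2.isCharacter φ.2.isCharacter, ← Finset.add_sum_erase _ _
    (Finset.mem_univ η), h2, one_mul, Nat.add_eq_left, Finset.sum_eq_zero_iff] at h4
  exact (mul_eq_zero.1 (h4 η' (by simp [hne]))).resolve_right h5

theorem cliff_bij (hSG : S ≤ normalizer (G : Set Γ)) (hST : S ≤ normalizer (T : Set Γ))
    (hSL : S ≤ normalizer (L : Set Γ)) (hS : SInv S φ.1) :
    Bij (fun χ : IrrCharacter G => gmul (hLT.trans hTG) χ.1 φ.1 ≠ 0 ∧ SInv S χ.1)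
      (fun η : IrrCharacter T => gmul hLT η.1 φ.1 ≠ 0 ∧ SInv S η.1)
      fun χ η => gmul hTG χ.1 η.1 ≠ 0 := by
  have B : Bij (fun χ : IrrCharacter G => gmul (hLT.trans hTG) χ.1 φ.1 ≠ 0)
      (fun η : IrrCharacter T => gmul hLT η.1 φ.1 ≠ 0) fun χ η => gmul hTG χ.1 η.1 ≠ 0 := by
    constructor
    · intro χ hχ
      obtain ⟨η, h1, h2⟩ := exists_between hTG hLT hχ
      exact ⟨η, h2, h1, fun η' h3 h4 => by_contra fun e =>
        h4 ((cliff_one hLT hTG hGL hT h2 h1).2.2 η' e h3)⟩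
    · intro η hη
      obtain ⟨χ, h1, h2, h3⟩ := cliff_up hLT hTG hGL hT hη
      exact ⟨χ, h3 ▸ hη, h1.trans_ne one_ne_zero, fun χ' _ h4 => by_contra fun e => h4 (h2 χ' e)⟩
  refine B.restrict fun χ η h1 h2 h3 => ?_
  rw [sInv_iff hSG, sInv_iff hST]
  refine forall₂_congr fun s hs => ?_
  have e := (sInv_iff hSL φ).1 hS s hs
  have h4 : gmul hTG (cjI (hSG hs) χ).1 (cjI (hST hs) η).1 ≠ 0 := by rwa [gmul_cjI]
  constructor
  · intro h5
    exact B.eq_right h1 (by rwa [← e, gmul_cjI]) h2 (h5 ▸ h4) h3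
  · intro h5
    exact B.eq_left (by rwa [← e, gmul_cjI]) h1 h2 (h5 ▸ h4) h3

end cliff

theorem IH.bij_over (h : IH G K L S H) {φ : IrrCharacter L} (hS : SInv S φ.1) :
    Bij (fun χ : IrrCharacter G => gmul h.LG χ.1 φ.1 ≠ 0 ∧ SInv S χ.1)
      (fun ψ : IrrCharacter H => gmul h.LH ψ.1 φ.1 ≠ 0 ∧ SInv S ψ.1)
      fun χ ψ => ¬ 2 ∣ gmul h.HG χ.1 ψ.1 := by
  set T := G ⊓ stabA φ.1
  have hLT : L ≤ T := le_inf h.LG (self_le_stabA φ.2.isClassFunction)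
  have hSs : S ≤ stabA φ.1 := le_stabA.2 ⟨h.SL, hS⟩
  have hST : S ≤ normalizer (T : Set Γ) := H1.le_normalizer_inf h.SG (hSs.trans le_normalizer)
  have h' : IH T (T ⊓ K) L S (T ⊓ H) :=
    { LK := le_inf hLT h.LK
      KG := inf_le_left
      SG := hST
      SK := H1.le_normalizer_inf hST h.SK
      SL := h.SL
      GK := H1.le_normalizer_inf le_normalizer (inf_le_left.trans h.GK)
      GN := inf_le_left.trans h.GN
      ab := fun a ha b hb => h.ab a ha.2 b hb.2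
      GS := fun s hs g hg => ⟨T.mul_mem (H1.conj_mem_of_le_normalizer hST hs hg) (T.inv_mem hg),
        h.GS s hs g hg.1⟩
      hH := fun g => ⟨fun hg => ⟨hg.1, ((h.hH g).1 hg.2).2⟩,
        fun hg => ⟨hg.1, (h.hH g).2 ⟨hg.1.1, hg.2⟩⟩⟩
      fix := fun g hg => h.fix ⟨hg.1.2, hg.2.2⟩
      cop := h.cop.coprime_dvd_right (card_dvd_of_le inf_le_left)
      odd := fun h2 => h.odd (h2.trans (card_dvd_of_le inf_le_left))
      sol := H1.isSolvable_of_le inf_le_left h.sol }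
  have hT : ∀ g ∈ G, EInv g φ.1 → g ∈ T := fun g hg h1 => ⟨hg, h.GN hg, h1⟩
  have hT' : ∀ g ∈ H, EInv g φ.1 → g ∈ T ⊓ H := fun g hg h1 => ⟨hT g (h.HG hg) h1, hg⟩
  refine Bij.transport (cliff_bij hLT inf_le_left h.GN hT h.SG hST h.SL hS)
    (cliff_bij h'.LH inf_le_right (h.HG.trans h.GN) hT' h.SH h'.SH h.SL hS)
    (fun χ η ψ ξ _ h1 _ h2 u v => ?_) (h'.bij_inv (fun g hg => hg.2.2) hS)
  obtain ⟨a1, -, a2⟩ := cliff_one hLT inf_le_left h.GN hT h1.1 u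
  obtain ⟨b1, b2, -⟩ := cliff_one h'.LH inf_le_right (h.HG.trans h.GN) hT' h2.1 v
  have e1 := gmul_trans h.HG (inf_le_right : T ⊓ H ≤ H) χ.2.isCharacter ξ.2.isCharacter
  have e2 := gmul_trans (inf_le_left : T ≤ G) (inf_le_left : T ⊓ H ≤ T) χ.2.isCharacter
    ξ.2.isCharacter
  rw [Finset.sum_eq_single ψ (fun ψ' _ hne => by rw [b2 ψ' hne, mul_zero]) (by simp), b1,
    mul_one] at e1
  rw [Finset.sum_eq_single η (fun η' _ hne => mul_eq_zero.2 (or_iff_not_imp_right.2 fun h3 =>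
    a2 η' hne (gmul_trans_ne_zero _ h'.LH h3 h2.1))) (by simp), a1, one_mul] at e2
  rw [← e1, e2]

/-- invariant conjugate characters are conjugate under the centralizer -/
theorem exists_cjI_eq_centralizer (hSG : S ≤ normalizer (G : Set Γ))
    (hSL : S ≤ normalizer (L : Set Γ)) (hGL : G ≤ normalizer (L : Set Γ))
    (hcop : (Nat.card S).Coprime (Nat.card G)) (hsol : Group.IsSolvable G)
    {φ : IrrCharacter L} (hφ : SInv S φ.1) {g : Γ} (hg : g ∈ G) (hφ' : SInv S (cjI (hGL hg) φ).1) :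
    ∃ c, ∃ hc : c ∈ G ⊓ centralizer (S : Set Γ), cjI (hGL hc.1) φ = cjI (hGL hg) φ := by
  have hSs : S ≤ stabA φ.1 := le_stabA.2 ⟨hSL, hφ⟩
  obtain ⟨n, hn, hc⟩ := H1.exists_fixed_in_right_coset (A := S) (N := G ⊓ stabA φ.1)
    (H1.le_normalizer_inf hSG (hSs.trans le_normalizer))
    (hcop.coprime_dvd_right (card_dvd_of_le inf_le_left))
    (Or.inr (H1.isSolvable_of_le inf_le_left hsol)) (x := g) (fun a ha =>
      ⟨G.mul_mem (H1.conj_mem_of_le_normalizer hSG ha hg) (G.inv_mem hg), by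
        have h1 : g * a⁻¹ * g⁻¹ ∈ stabA φ.1 := ⟨mul_mem (mul_mem (hGL hg) (hSL (S.inv_mem ha)))
          (inv_mem (hGL hg)), fun x x' e => by
            obtain ⟨x, rfl⟩ := (cjE (hGL hg)).surjective x
            obtain ⟨x', rfl⟩ := (cjE (hGL hg)).surjective x'
            refine hφ' _ (S.inv_mem ha) x x' ?_
            simp only [coe_cjE, mul_inv_rev, inv_inv, mul_assoc, inv_mul_cancel_left,
              mul_right_inj] at e
            rw [inv_inv, ← mul_left_inj g⁻¹, e]; simp [mul_assoc]⟩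
        simpa [mul_assoc] using (stabA φ.1).mul_mem (hSs ha) h1⟩)
  refine ⟨n * g, ⟨G.mul_mem hn.1 hg, hc⟩, Subtype.ext (funext fun k => ?_)⟩
  exact hn.2.2 _ _ (by simp [mul_assoc])

/-- **Isaacs' correspondence step** -/
theorem IH.bij (h : IH G K L S H) :
    Bij (fun χ : IrrCharacter G => SInv S χ.1) (fun ψ : IrrCharacter H => SInv S ψ.1)
      fun χ ψ => ¬ 2 ∣ gmul h.HG χ.1 ψ.1 := by
  have hHL := h.HG.trans h.GN
  have key : ∀ ψ : IrrCharacter H, SInv S ψ.1 →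
      ∃ φ : IrrCharacter L, gmul h.LH ψ.1 φ.1 ≠ 0 ∧ SInv S φ.1 := fun ψ hψ =>
    exists_sInv_under h.SH h.SL hHL
      (coprime_relIndex (h.cop.coprime_dvd_right (card_dvd_of_le h.HG)))
      (Or.inr (solvable_permIrr _ (H1.isSolvable_of_le h.HG h.sol))) h.LH hψ
  constructor
  · intro χ hχ
    obtain ⟨φ, h1, h2⟩ := exists_sInv_under h.SG h.SL h.GN (coprime_relIndex h.cop)
      (Or.inr (solvable_permIrr _ h.sol)) h.LG hχ
    obtain ⟨ψ, h3, h4, h5⟩ := (h.bij_over h2).down χ ⟨h1, hχ⟩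
    refine ⟨ψ, h3.2, h4, fun ψ' h6 h7 => h5 ψ' ⟨?_, h6⟩ h7⟩
    obtain ⟨φ', h8, h9⟩ := key ψ' h6
    obtain ⟨g, hg, rfl⟩ := exists_cjI_eq h.LG h.GN h1
      (gmul_trans_ne_zero h.HG h.LH (fun h0 => h7 (h0 ▸ dvd_zero 2)) h8)
    obtain ⟨c, hc, e⟩ := exists_cjI_eq_centralizer h.SG h.SL h.GN h.cop h.sol h2 hg h9
    have hc' : c ∈ H := (h.hH c).2 ⟨hc.1, fun s hs => by rw [hc.2 s hs]; simp⟩
    rwa [← e, gmul_cjI_right h.LH hHL _ _ hc'] at h8
  · intro ψ hψ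
    obtain ⟨φ, h1, h2⟩ := key ψ hψ
    obtain ⟨χ, h3, h4, h5⟩ := (h.bij_over h2).up ψ ⟨h1, hψ⟩
    exact ⟨χ, h3.2, h4, fun χ' h6 h7 => h5 χ' ⟨gmul_trans_ne_zero h.HG h.LH
      (fun h0 => h7 (h0 ▸ dvd_zero 2)) h1, h6⟩ h7⟩

/-- the hypotheses of the general case hold in the classical situation -/
theorem IH.of_sup (hSG : S ≤ normalizer (G : Set Γ)) (hcop : (Nat.card S).Coprime (Nat.card G))
    (hsol : Group.IsSolvable G) (hodd : ¬ 2 ∣ Nat.card G) (hLK : L ≤ K) (hKG : K ≤ G)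
    (hGK : G ≤ normalizer (K : Set Γ)) (hGL : G ≤ normalizer (L : Set Γ))
    (hSK : S ≤ normalizer (K : Set Γ)) (hSL : S ≤ normalizer (L : Set Γ))
    (hab : ∀ a ∈ K, ∀ b ∈ K, a * b * a⁻¹ * b⁻¹ ∈ L)
    (hG : K ⊔ (G ⊓ centralizer (S : Set Γ)) = G) (hH : H = L ⊔ (G ⊓ centralizer (S : Set Γ))) :
    IH G K (H ⊓ K) S H := by
  set C := G ⊓ centralizer (S : Set Γ)
  have hLH : L ≤ H := hH ▸ le_sup_left
  have hCH : C ≤ H := hH ▸ le_sup_right
  have hHG : H ≤ G := hH ▸ sup_le (hLK.trans hKG) inf_le_left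
  have hSC : S ≤ normalizer (C : Set Γ) :=
    H1.le_normalizer_inf hSG (H1.le_normalizer_centralizer le_normalizer)
  have hSH : S ≤ normalizer (H : Set Γ) := hH ▸ H1.le_normalizer_sup hSL hSC
  have hGS : ∀ s ∈ S, ∀ g ∈ G, s * g * s⁻¹ * g⁻¹ ∈ K := fun s hs g hg => by
    obtain ⟨k, hk, c, hc, rfl⟩ := (H1.mem_sup_of_le_normalizer_left (inf_le_left.trans hGK)).1
      (hG.ge hg)
    have := K.mul_mem (H1.conj_mem_of_le_normalizer hSK hs hk) (K.inv_mem hk)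
    convert this using 1
    calc _ = s * k * (c * s⁻¹) * c⁻¹ * k⁻¹ := by group
      _ = _ := by rw [← hc.2 _ (S.inv_mem hs)]; group
  have hGN : G ≤ normalizer ((H ⊓ K : Subgroup Γ) : Set Γ) := by
    refine hG.ge.trans (sup_le (le_normalizer_iff.2 fun k hk x hx =>
      ⟨?_, H1.conj_mem_of_le_normalizer le_normalizer hk hx.2⟩)
      (H1.le_normalizer_inf (hCH.trans le_normalizer) (inf_le_left.trans hGK)))
    simpa using H.mul_mem (hLH (hab k hk x hx.2)) hx.1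
  have hSN := H1.le_normalizer_inf hSH hSK
  refine
    { LK := inf_le_right
      KG := hKG
      SG := hSG
      SK := hSK
      SL := hSN
      GK := hGK
      GN := hGN
      ab := fun a ha b hb => ⟨hLH (hab a ha b hb), hLK (hab a ha b hb)⟩
      GS := hGS
      hH := fun g => ⟨fun hg => ⟨hHG hg, fun s hs => ⟨H.mul_mem
        (H1.conj_mem_of_le_normalizer hSH hs hg) (H.inv_mem hg), hGS s hs g (hHG hg)⟩⟩,
        fun hg => ?_⟩
      fix := le_rfl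
      cop := hcop
      odd := hodd
      sol := hsol }
  obtain ⟨n, hn, hc⟩ := H1.exists_fixed_in_right_coset hSN
    (hcop.coprime_dvd_right (card_dvd_of_le (inf_le_right.trans hKG)))
    (Or.inr (H1.isSolvable_of_le (inf_le_right.trans hKG) hsol)) hg.2
  exact (H.mul_mem_cancel_left hn.1).1 (hCH ⟨G.mul_mem (hHG hn.1) hg.1, hc⟩)

end Cfsg.Agent.H8
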