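import Mathlib
import Cfsg.Agent.H8.Blich
import Cfsg.Agent.H8.Deg5
import Cfsg.Agent.H8.Val
import Cfsg.Agent.H8.Subsec3

/-!
Theorems of Frobenius and Blichfeldt on elements whose eigenvalues are close together.
-/

set_option autoImplicit false
set_option linter.dupNamespace false

namespace Cfsg.Agent.H8

open Cfsg Cfsg.Agent.H4 Cfsg.Agent.H5 Cfsg.Agent.H3
open scoped ComplexConjugate Pointwise commutatorElement

universe u

theorem exists_unitary {G : Type u} [Group G] [Finite G] {χ : G → ℂ} (hχ : IsCharacter G χ) :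
    ∃ (W : Type u) (_ : NormedAddCommGroup W) (_ : InnerProductSpace ℂ W)
      (_ : FiniteDimensional ℂ W) (_ : CompleteSpace W) (u : G →* (W →L[ℂ] W)),
        (∀ g, star (u g) = u g⁻¹) ∧ ∀ g, LinearMap.trace ℂ W (u g : W →ₗ[ℂ] W) = χ g := by
  classical
  have := Fintype.ofFinite G
  obtain ⟨m, ρ, rfl⟩ := hχ
  let ι : (Fin m → ℂ) →ₗ[ℂ] EuclideanSpace ℂ (G × Fin m) :=
    { toFun := fun v => WithLp.toLp 2 fun p => ρ p.1 v p.2
      map_add' := fun v w => by ext p; simp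
      map_smul' := fun c v => by ext p; simp }
  have hι : Function.Injective ι := fun v w h => funext fun i => by
    simpa [ι] using congrArg (fun x => x (1, i)) h
  let e := LinearEquiv.ofInjective ι hι
  let φ := e.conjAlgEquiv ℂ
  let u : G →* Module.End ℂ (LinearMap.range ι) := (φ : Module.End ℂ (Fin m → ℂ) →* _).comp ρ
  have hφ : ∀ g v, u g (e v) = e (ρ g v) := fun g v => by
    change e (ρ g (e.symm (e v))) = _
    rw [e.symm_apply_apply]
  have hu : ∀ g x y, inner ℂ (u g⁻¹ x) y = inner ℂ x (u g y) := fun g x y => by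
    obtain ⟨x, rfl⟩ := e.surjective x
    obtain ⟨y, rfl⟩ := e.surjective y
    rw [hφ, hφ]
    change inner ℂ (ι _) (ι _) = inner ℂ (ι _) (ι _)
    simp only [PiLp.inner_apply]
    refine Fintype.sum_equiv ((Equiv.mulRight g⁻¹).prodCongr (Equiv.refl _)) _ _ fun p => ?_
    simp [ι, ← Module.End.mul_apply, ← map_mul]
  haveI : CompleteSpace (LinearMap.range ι) := FiniteDimensional.complete ℂ _
  let ψ := Module.End.toContinuousLinearMap (𝕜 := ℂ) (LinearMap.range ι)
  refine ⟨LinearMap.range ι, inferInstance, inferInstance, inferInstance, inferInstance,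
    (ψ : Module.End ℂ _ →* _).comp u, fun g => ?_, fun g => LinearMap.trace_conj' (ρ g) e⟩
  symm
  rw [ContinuousLinearMap.star_eq_adjoint, ContinuousLinearMap.eq_adjoint_iff]
  exact hu g

section hilbert
variable {G W : Type*} [Group G] [NormedAddCommGroup W] [InnerProductSpace ℂ W]
  [FiniteDimensional ℂ W] [CompleteSpace W] (u : G →* (W →L[ℂ] W))

omit [CompleteSpace W] in
theorem prj_ne_zero_iff [Fintype G] (lam : G →* ℂˣ) : prj u lam ≠ 0 ↔
    classInner (fun g => LinearMap.trace ℂ W (u g : W →ₗ[ℂ] W)) (fun g => (lam g : ℂ)) ≠ 0 := by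
  classical
  have h1 : IsIdempotentElem ((prj u lam : W →L[ℂ] W) : W →ₗ[ℂ] W) := by
    have h1 := prj_mul_prj u lam lam
    rw [if_pos rfl] at h1
    exact congrArg (fun x : W →L[ℂ] W => (x : W →ₗ[ℂ] W)) h1
  have h2 : LinearMap.trace ℂ W ((prj u lam : W →L[ℂ] W) : W →ₗ[ℂ] W) =
      classInner (fun g => LinearMap.trace ℂ W (u g : W →ₗ[ℂ] W)) (fun g => (lam g : ℂ)) := by
    rw [classInner_def, prj]
    simp only [ContinuousLinearMap.coe_smul, ContinuousLinearMap.coe_sum, map_smul, map_sum,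
      smul_eq_mul, conj_linear, mul_comm]
  rw [← h2, Ne, Ne, LinearMap.IsIdempotentElem.trace_eq_zero_iff h1, ← ContinuousLinearMap.coe_zero,
    ContinuousLinearMap.coe_inj]

theorem blichfeldt_hilbert [Finite G] [IsSimpleGroup G] (hu : ∀ g, star (u g) = u g⁻¹) {a : G}
    {c : ℂ} (hc : ‖c‖ = 1) (h : ‖u a - algebraMap ℂ _ c‖ < 1) {v₀ : W} (h0 : v₀ ≠ 0)
    (hv₀ : u a v₀ = c • v₀) (ha : a ∉ Subgroup.center G) : ∃ v ≠ 0, ∀ g, u g v = v := by
  classical
  haveI := Fintype.ofFinite G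
  haveI : Nontrivial W := nontrivial_of_ne _ _ h0
  have hc0 : c ≠ 0 := by rintro rfl; simp at hc
  have hcc : conj c * c = 1 := by rw [Complex.conj_mul', hc]; simp
  have h1 : ∀ g x y, inner ℂ (u g⁻¹ x) y = inner ℂ x (u g y) := fun g x y => by
    rw [← hu, ContinuousLinearMap.star_eq_adjoint, ContinuousLinearMap.adjoint_inner_left]
  have h2 : ∀ g k x, u g (u k x) = u (g * k) x := fun g k x => by rw [map_mul]; rfl
  have h3 : ∀ x, u 1 x = x := fun x => by rw [map_one]; rfl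
  have h4 : ∀ g x, ‖u g x‖ = ‖x‖ := fun g x => by
    rw [← sq_eq_sq₀ (norm_nonneg _) (norm_nonneg _), ← inner_self_eq_norm_sq (𝕜 := ℂ),
      ← inner_self_eq_norm_sq (𝕜 := ℂ), ← h1, h2, inv_mul_cancel, h3]
  obtain ⟨δ, hδ, h5⟩ : ∃ δ : ℝ, 1 / 2 < δ ∧ ∀ b, IsConj a b → ∀ x,
      δ * ‖x‖ ^ 2 ≤ (inner ℂ x (u b (c⁻¹ • x))).re := by
    set r := ‖u a - algebraMap ℂ _ c‖
    refine ⟨1 - r ^ 2 / 2, by nlinarith [norm_nonneg (u a - algebraMap ℂ _ c)], fun b hb x => ?_⟩
    obtain ⟨g, rfl⟩ := isConj_iff.1 hb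
    have h5 := ((u (g * a * g⁻¹) - algebraMap ℂ _ c).le_opNorm (c⁻¹ • x)).trans
      (mul_le_mul_of_nonneg_right (norm_conj_sub_le u hu g a c) (norm_nonneg _))
    have h6 : ‖c⁻¹ • x‖ = ‖x‖ := by rw [norm_smul, norm_inv, hc, inv_one, one_mul]
    rw [ContinuousLinearMap.sub_apply, h6, show algebraMap ℂ (W →L[ℂ] W) c (c⁻¹ • x) = x from
      smul_inv_smul₀ hc0 x, norm_sub_rev] at h5
    have h7 := pow_le_pow_left₀ (norm_nonneg _) h5 2
    rw [@norm_sub_sq ℂ, h4, h6] at h7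
    rw [← RCLike.re_to_complex]
    nlinarith
  let F : Set G → Submodule ℂ W := fun S => ⨅ s ∈ S, LinearMap.ker ((u s : W →ₗ[ℂ] W) - c • 1)
  have hF : ∀ S x, x ∈ F S ↔ ∀ s ∈ S, u s x = c • x := fun S x => by
    simp [F, Submodule.mem_iInf, sub_eq_zero]
  obtain ⟨_, ⟨⟨S, haS, hS, rfl⟩, hS0⟩, hmin⟩ := exists_minimal_of_wellFoundedLT
    (fun U : Submodule ℂ W => (∃ S, a ∈ S ∧ (∀ s ∈ S, IsConj a s) ∧ F S = U) ∧ U ≠ ⊥)
    ⟨F {a}, ⟨{a}, rfl, fun s hs => hs ▸ IsConj.refl _, rfl⟩, (Submodule.ne_bot_iff _).2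
      ⟨v₀, (hF _ _).2 fun s hs => hs ▸ hv₀, h0⟩⟩
  let T : Subgroup G :=
    { carrier := {g | ∀ w ∈ F S, u g w ∈ F S}
      one_mem' := fun w hw => by rwa [h3]
      mul_mem' := fun {g k} hg hk w hw => h2 g k w ▸ hg _ (hk w hw)
      inv_mem' := fun {g} hg => by
        have h6 : ∀ n : ℕ, ∀ w ∈ F S, u (g ^ n) w ∈ F S := fun n => by
          induction n with
          | zero => intro w hw; rwa [pow_zero, h3]
          | succ n ih => intro w hw; rw [pow_succ, ← h2]; exact ih _ (hg w hw)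
        obtain ⟨n, hn⟩ := mem_powers_iff_mem_zpowers.2 (inv_mem (Subgroup.mem_zpowers g))
        exact hn ▸ h6 n }
  have h6 : ∀ g, ∀ w ∈ F S, w ≠ 0 → u g w ∈ F S → g ∈ T := fun g w hw hw0 hgw => by
    have h6 := hmin (y := F (S ∪ (fun s => g * s * g⁻¹) '' S)) ⟨⟨_, Or.inl haS, ?_, rfl⟩,
      (Submodule.ne_bot_iff _).2 ⟨u g w, (hF _ _).2 ?_, fun h6 => hw0 ?_⟩⟩
      fun x hx => (hF _ _).2 fun s hs => (hF _ _).1 hx s (Or.inl hs)
    · refine inv_mem_iff.1 fun x hx => (hF _ _).2 fun s hs => ?_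
      rw [← map_smul, ← (hF _ _).1 (h6 hx) _ (Or.inr ⟨s, hs, rfl⟩), h2, h2]
      congr 2; group
    · rintro _ (hs | ⟨s, hs, rfl⟩)
      · exact hS _ hs
      · exact (hS s hs).trans (isConj_iff.2 ⟨g, rfl⟩)
    · rintro _ (hs | ⟨s, hs, rfl⟩)
      · exact (hF _ _).1 hgw _ hs
      · rw [h2, inv_mul_cancel_right, ← h2, (hF _ _).1 hw s hs, map_smul]
    · rw [← norm_eq_zero, ← h4 g, h6, norm_zero]
  obtain ⟨w₁, hw₁, hw₁0⟩ := (Submodule.ne_bot_iff _).1 hS0
  have h7 : ∀ b, IsConj a b → b ∈ T := by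
    by_contra h7
    push Not at h7
    obtain ⟨b, hb, hbT⟩ := h7
    let Z : Set W := Metric.sphere 0 1 ∩ F S
    have hZ : IsCompact Z := (isCompact_sphere _ _).inter_right (F S).closed_of_finiteDimensional
    have hZ1 : ∀ w ∈ F S, w ≠ 0 → (‖w‖⁻¹ : ℂ) • w ∈ Z := fun w hw hw0 =>
      ⟨by simpa using norm_smul_inv_norm (𝕜 := ℂ) hw0, (F S).smul_mem _ hw⟩
    have h8 := fun g : G => (hZ.prod hZ).exists_isMaxOn ⟨(_, _), hZ1 _ hw₁ hw₁0, hZ1 _ hw₁ hw₁0⟩
      (f := fun z => (inner ℂ z.1 (u g z.2)).re) (by fun_prop)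
    choose z hz hz' using h8
    obtain ⟨g, hg, hg'⟩ := (Finset.univ.filter (· ∉ T)).exists_max_image
      (fun g => (inner ℂ (z g).1 (u g (z g).2)).re) ⟨b, by simpa using hbT⟩
    obtain ⟨⟨hv1, hv⟩, hw1, hw⟩ := hz g
    set v := (z g).1
    set w := (z g).2
    set t := (inner ℂ v (u g w)).re
    replace hv1 : ‖v‖ = 1 := by simpa using hv1
    replace hw1 : ‖w‖ = 1 := by simpa using hw1
    have h9 : ∀ k, k ∉ T → ∀ x ∈ Z, ∀ y ∈ Z, (inner ℂ x (u k y)).re ≤ t := fun k hk x hx y hy =>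
      (hz' k (Set.mk_mem_prod hx hy)).trans (hg' k (by simpa using hk))
    have h10 : ∀ x ∈ Z, c⁻¹ • x ∈ Z := fun x hx =>
      ⟨by simpa [norm_smul, hc] using hx.1, (F S).smul_mem _ hx.2⟩
    have hwZ : w ∈ Z := ⟨by simpa using hw1, hw⟩
    have hvZ : v ∈ Z := ⟨by simpa using hv1, hv⟩
    have ht : 0 < t := by
      have := (h5 b hb w).trans (h9 b hbT w hwZ _ (h10 w hwZ))
      rw [hw1] at this
      linarith
    have hw0 : w ≠ 0 := by rintro h; simp [h] at hw1
    refine (Finset.mem_filter.1 hg).2 (h6 g w hw hw0 ((hF _ _).2 fun s hs => ?_))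
    have h11 : ∀ y, inner ℂ v (u s (c⁻¹ • y)) = inner ℂ v y := fun y => by
      have h11 : u s⁻¹ v = c⁻¹ • v := by
        rw [eq_inv_smul_iff₀ hc0, ← map_smul, ← (hF _ _).1 hv s hs, h2, inv_mul_cancel, h3]
      rw [← h1, h11, inner_smul_left, inner_smul_right, ← mul_assoc, map_inv₀, ← mul_inv, hcc,
        inv_one, one_mul]
    set x := u g w with hx
    have hx1 : ‖x‖ = 1 := (h4 g w).trans hw1
    by_cases h12 : g⁻¹ * s * g ∈ T
    · have h13 : u s (c⁻¹ • x) = u g (u (g⁻¹ * s * g) (c⁻¹ • w)) := by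
        rw [hx, ← map_smul, h2, h2]; congr 2; group
      have h14 : ‖u s (c⁻¹ • x)‖ = 1 := by rw [h4, norm_smul, norm_inv, hc, hx1]; simp
      set x' := u s (c⁻¹ • x) with hx'
      set y := w + u (g⁻¹ * s * g) (c⁻¹ • w)
      have hy : u g y = x + x' := by rw [map_add, h13]
      have h15 : (inner ℂ v (x + x')).re = 2 * t := by
        rw [inner_add_right, hx', h11, Complex.add_re, two_mul]
      have hy0 : y ≠ 0 := fun h => by
        rw [← hy, h, map_zero, inner_zero_right, Complex.zero_re] at h15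
        linarith
      have h16 := h9 g (Finset.mem_filter.1 hg).2 v hvZ _
        (hZ1 y (add_mem hw (h12 _ ((F S).smul_mem _ hw))) hy0)
      rw [map_smul, inner_smul_right, ← Complex.ofReal_inv, Complex.re_ofReal_mul, hy, h15,
        ← h4 g, hy, inv_mul_le_iff₀ (by rw [← hy, h4]; exact norm_pos_iff.2 hy0)] at h16
      have h17 := parallelogram_law_with_norm ℂ x x'
      rw [hx1, h14] at h17
      have h18 : 2 ≤ ‖x + x'‖ := le_of_mul_le_mul_right h16 ht
      have h19 : ‖x - x'‖ = 0 := by nlinarith [norm_nonneg (x - x')]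
      rw [norm_eq_zero, sub_eq_zero, hx', map_smul, eq_inv_smul_iff₀ hc0] at h19
      exact h19.symm
    · have h13 := h9 _ h12 w hwZ _ (h10 w hwZ)
      rw [mul_assoc, ← h2, ← h1, inv_inv, ← h2, map_smul (u g), ← hx] at h13
      set τ := inner ℂ v x
      set r := x - τ • v with hr
      have hvv : inner ℂ v v = 1 := by rw [inner_self_eq_norm_sq_to_K, hv1]; simp
      have h14 : inner ℂ v r = 0 := by rw [hr, inner_sub_right, inner_smul_right, hvv]; simp [τ]
      have h15 : x = τ • v + r := by rw [hr]; abel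
      have h16 : u s (c⁻¹ • v) = v := by rw [map_smul, (hF _ _).1 hv s hs, inv_smul_smul₀ hc0]
      have h17 : inner ℂ x (u s (c⁻¹ • x)) = conj τ * τ + inner ℂ r (u s (c⁻¹ • r)) := by
        conv_lhs => rw [h15]
        rw [inner_add_left, inner_smul_left, h11, inner_add_right, h14, inner_smul_right, hvv,
          smul_add, map_add, smul_comm, map_smul, h16, inner_add_right, inner_smul_right,
          inner_eq_zero_symm.1 h14]
        ring
      have h18 : ‖τ‖ ^ 2 + ‖r‖ ^ 2 = 1 := by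
        have h18 := norm_add_sq_eq_norm_sq_add_norm_sq_of_inner_eq_zero (𝕜 := ℂ) (τ • v) r
          (by rw [inner_smul_left, h14, mul_zero])
        rw [← h15, hx1, norm_smul, hv1] at h18
        linarith
      have h19 := h5 s (hS s hs) r
      rw [h17, Complex.conj_mul', Complex.add_re, ← Complex.ofReal_pow, Complex.ofReal_re] at h13
      have h20 : t ≤ ‖τ‖ := Complex.re_le_norm _
      have h21 : ‖r‖ = 0 := by
        by_contra h21
        have h22 : 0 < ‖r‖ ^ 2 := by positivity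
        have h23 : ‖τ‖ < 1 := by nlinarith [norm_nonneg τ]
        nlinarith [norm_nonneg τ]
      rw [h15, norm_eq_zero.1 h21, add_zero, map_smul, (hF _ _).1 hv s hs, smul_comm]
  have h8 : T = ⊤ := by
    refine top_le_iff.1 (((Subgroup.normalClosure_normal (s := {a})).eq_bot_or_eq_top.resolve_left
      fun h8 => ha ?_).ge.trans ((Subgroup.closure_le _).2 fun b hb => h7 b ?_))
    · rw [Subgroup.mem_bot.1 (h8.le (Subgroup.subset_normalClosure rfl))]; exact one_mem _
    · obtain ⟨a', ha', hb'⟩ := Group.mem_conjugatesOfSet_iff.1 hb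
      exact ha' ▸ hb'
  have h9 : ∀ g, ∀ w ∈ F S, u g w ∈ F S := fun g => (h8.ge (Subgroup.mem_top g) :)
  let K : Subgroup G :=
    { carrier := {g | ∀ w ∈ F S, u g w = w}
      one_mem' := fun w _ => h3 w
      mul_mem' := fun {g k} hg hk w hw => by rw [← h2, hk w hw, hg w hw]
      inv_mem' := fun {g} hg w hw => by conv_lhs => rw [← hg w hw, h2, inv_mul_cancel, h3] }
  have hK : K.Normal := ⟨fun k hk g w hw => by
    rw [← h2, ← h2, hk _ (h9 _ w hw), h2, mul_inv_cancel, h3]⟩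
  refine ⟨w₁, hw₁0, fun g => (hK.eq_bot_or_eq_top.resolve_left fun h10 =>
    ha (Subgroup.mem_center_iff.2 fun k => ?_)).ge (Subgroup.mem_top g) w₁ hw₁⟩
  refine mul_inv_eq_one.1 (Subgroup.mem_bot.1 (h10.le fun w hw => ?_))
  rw [← h2, ← h2, (hF _ _).1 (h9 _ w hw) a haS, map_smul, ← (hF _ _).1 (h9 _ _ (h9 _ w hw)) a haS,
    h2, h2, mul_inv_cancel, h3]

end hilbert

section char
variable {G : Type u} [Group G] [Finite G] {χ : G → ℂ}

theorem norm_sub_lt_one {z c : ℂ} (hz : ‖z‖ = 1) (hc : ‖c‖ = 1) (h : 1 / 2 < (c⁻¹ * z).re) :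
    ‖z - c‖ < 1 := by
  have hc0 : c ≠ 0 := by rintro rfl; simp at hc
  have h1 : ‖c⁻¹ * z‖ = 1 := by rw [norm_mul, norm_inv, hz, hc]; simp
  rw [show z - c = c * (c⁻¹ * z - 1) by field_simp, norm_mul, hc, one_mul]
  generalize c⁻¹ * z = w at *
  refine lt_of_pow_lt_pow_left₀ 2 zero_le_one ?_
  rw [← sq_eq_sq₀ (norm_nonneg _) zero_le_one, Complex.sq_norm, Complex.normSq_apply] at h1
  rw [Complex.sq_norm, Complex.normSq_apply]
  simp only [Complex.sub_re, Complex.one_re, Complex.sub_im, Complex.one_im]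
  nlinarith

theorem exists_unitary' (hχ : IsCharacter G χ) :
    ∃ (W : Type u) (_ : NormedAddCommGroup W) (_ : InnerProductSpace ℂ W)
      (_ : FiniteDimensional ℂ W) (_ : CompleteSpace W) (u : G →* (W →L[ℂ] W)),
        (∀ g, star (u g) = u g⁻¹) ∧ (∀ g, u g = 1 → χ g = χ 1) ∧
          ∀ (H : Type u) [Group H] [Fintype H] (f : H →* G) (lam : H →* ℂˣ),
            prj (u.comp f) lam ≠ 0 ↔ classInner (fun h => χ (f h)) (fun h => (lam h : ℂ)) ≠ 0 := by
  obtain ⟨W, _, _, _, _, u, hu, h1⟩ := exists_unitary hχ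
  refine ⟨W, _, _, ‹_›, ‹_›, u, hu, fun g hg => by rw [← h1, ← h1, hg, map_one],
    fun H _ _ f lam => ?_⟩
  rw [prj_ne_zero_iff]
  simp only [MonoidHom.comp_apply, h1]

theorem blichfeldt_simple [Fintype G] [IsSimpleGroup G] (hχ : IsCharacter G χ) {H : Subgroup G}
    [Fintype H] (hH : ∀ a b : H, a * b = b * a) {a : H} {μ : H →* ℂˣ}
    (h0 : classInner (fun h : H => χ h) (fun h => (μ h : ℂ)) ≠ 0)
    (h : ∀ lam : H →* ℂˣ, classInner (fun h : H => χ h) (fun h => (lam h : ℂ)) ≠ 0 →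
      1 / 2 < ((μ a : ℂ)⁻¹ * lam a).re) (ha : (a : G) ∉ Subgroup.center G) :
    classInner χ (fun _ => 1) ≠ 0 := by
  obtain ⟨W, _, _, _, _, u, hu, -, h1⟩ := exists_unitary' hχ
  obtain ⟨v, hv⟩ := DFunLike.ne_iff.1 ((h1 H H.subtype μ).2 h0)
  haveI : Nontrivial W := nontrivial_of_ne _ _ hv
  obtain ⟨lam, h2, h3⟩ := exists_norm_eq (u.comp H.subtype) (fun g => hu g) hH a (μ a)
  have h4 := norm_sub_lt_one (linear_norm lam a) (linear_norm μ a) (h lam ((h1 H _ _).1 h2))
  have h5 := DFunLike.congr_fun (mul_prj (u.comp H.subtype) μ a) v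
  obtain ⟨w, hw, h6⟩ := blichfeldt_hilbert u hu (a := a) (linear_norm μ a) (h3.trans_lt h4) hv h5 ha
  refine (h1 G (MonoidHom.id G) 1).1 fun h7 => hw ?_
  simpa [prj, h6, ← Nat.cast_smul_eq_nsmul ℂ, smul_smul] using DFunLike.congr_fun h7 w

theorem frobenius_conj_comm (hχ : IsCharacter G χ) (hf : ∀ g, χ g = χ 1 → g = 1) {H : Subgroup G}
    [Fintype H] (hH : ∀ a b : H, a * b = b * a) {a : H} {α : ℂ}
    (h : ∀ lam : H →* ℂˣ, classInner (fun h : H => χ h) (fun h => (lam h : ℂ)) ≠ 0 →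
      ‖(lam a : ℂ) - α‖ < 1 / 2 ∧ ‖(lam a : ℂ) - 1‖ < 1) (g : G) :
    Commute (a : G) (g * a * g⁻¹) := by
  obtain ⟨W, _, _, _, _, u, hu, h0, h1⟩ := exists_unitary' hχ
  have hinj : Function.Injective u := (injective_iff_map_eq_one u).2 fun g hg => hf g (h0 g hg)
  rcases subsingleton_or_nontrivial (W →L[ℂ] W) with _ | _
  · exact hinj (Subsingleton.elim _ _)
  obtain ⟨lam, h2, h3⟩ := exists_norm_eq (u.comp H.subtype) (fun g => hu g) hH a α
  obtain ⟨μ, h4, h5⟩ := exists_norm_eq (u.comp H.subtype) (fun g => hu g) hH a 1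
  have h6 := h3.trans_lt (h lam ((h1 H _ _).1 h2)).1
  have h7 := h5.trans_lt (h μ ((h1 H _ _).1 h4)).2
  have h8 := frobenius_commute u hu (a := a) h6 _ ((norm_conj_sub_le u hu g a 1).trans_lt h7)
  refine hinj ?_
  rw [map_mul, map_mul _ _ (a : G)]
  exact h8

theorem exists_arc_six : ∃ f : ℂ → Finset.Ioc (-3 : ℤ) 3, ∀ z w : ℂ, ‖z‖ = 1 → ‖w‖ = 1 →
    f z = f w → 1 / 2 < (z⁻¹ * w).re := by
  have hp := Real.pi_pos
  refine ⟨fun z => ⟨⌈3 * z.arg / Real.pi⌉, ?_⟩, fun z w hz hw h => ?_⟩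
  · rw [Finset.mem_Ioc, Int.lt_ceil, Int.ceil_le, lt_div_iff₀ hp, div_le_iff₀ hp]
    have h1 := Complex.neg_pi_lt_arg z
    have h2 := Complex.arg_le_pi z
    push_cast
    constructor <;> linarith
  · have h1 : ⌈3 * z.arg / Real.pi⌉ = ⌈3 * w.arg / Real.pi⌉ := congrArg Subtype.val h
    have h2 : |3 * z.arg / Real.pi - 3 * w.arg / Real.pi| < 1 := by
      have e1 := Int.le_ceil (3 * z.arg / Real.pi)
      have e2 := Int.ceil_lt_add_one (3 * z.arg / Real.pi)
      have e3 := Int.le_ceil (3 * w.arg / Real.pi)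
      have e4 := Int.ceil_lt_add_one (3 * w.arg / Real.pi)
      rw [h1] at e1 e2
      rw [abs_sub_lt_iff]
      constructor <;> linarith
    rw [← sub_div, abs_div, abs_of_pos hp, div_lt_one hp, ← mul_sub, abs_mul] at h2
    have h3 : z⁻¹ * w = Complex.exp (((w.arg - z.arg : ℝ) : ℂ) * Complex.I) := by
      conv_lhs => rw [← Complex.norm_mul_exp_arg_mul_I z, ← Complex.norm_mul_exp_arg_mul_I w, hz, hw]
      simp only [Complex.ofReal_one, one_mul, ← Complex.exp_neg, ← Complex.exp_add]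
      congr 1
      push_cast
      ring
    rw [h3, Complex.exp_ofReal_mul_I_re, ← Real.cos_pi_div_three, ← Real.cos_abs (_ - _),
      abs_sub_comm]
    refine Real.cos_lt_cos_of_nonneg_of_le_pi (abs_nonneg _) (by linarith) ?_
    norm_num at h2
    linarith

theorem card_le_six_pow [IsSimpleGroup G] (hZ : Subgroup.center G = ⊥) (hχ : IsIrrCharacter G χ)
    (h1 : χ ≠ fun _ => 1) {H : Subgroup G} (hH : ∀ a b : H, a * b = b * a) {e d : ℕ} (he : 0 < e)
    (hd : charDegree χ = e * d)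
    (h : ∀ lam : H →* ℂˣ, e ∣ nin (fun h : H => χ h) fun h => (lam h : ℂ)) :
    Nat.card H ≤ 6 ^ (d - 1) := by
  classical
  haveI := Fintype.ofFinite G
  haveI := Fintype.ofFinite H
  haveI := Fintype.ofFinite (H →* ℂˣ)
  have h2 := hχ.isCharacter.restrict H
  let Λ := Finset.univ.filter fun lam : H →* ℂˣ =>
    classInner (fun h : H => χ h) (fun h => (lam h : ℂ)) ≠ 0
  have h3 : Λ.card ≤ d := by
    have h3 := charDegree_eq_sum_nin h2
    rw [H6.sum_lf hH fun η => nin (fun h : H => χ h) η * charDegree η] at h3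
    refine Nat.le_of_mul_le_mul_left ?_ he
    rw [← hd, show charDegree χ = _ from h3, mul_comm, ← smul_eq_mul, ← Finset.sum_const]
    refine (Finset.sum_le_sum fun lam hl => ?_).trans
      (Finset.sum_le_sum_of_subset (Finset.subset_univ _))
    rw [charDegree_eq_of (d := 1) (by simp), mul_one]
    exact Nat.le_of_dvd (Nat.pos_of_ne_zero ((nin_ne_zero_iff h2 (isCharacter_linear lam)).2
      (Finset.mem_filter.1 hl).2)) (h lam)
  obtain ⟨θ, hθ, h4⟩ := exists_irr_under H hχ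
  obtain ⟨μ, rfl⟩ := hθ.exists_linear_of_comm hH
  obtain ⟨f, hf⟩ := exists_arc_six
  have h5 := Nat.card_le_card_of_injective (fun (x : H) (lam : Λ.erase μ) =>
    f ((μ x : ℂ)⁻¹ * lam.1 x)) fun x y hxy => ?_
  · rw [Nat.card_fun, Nat.card_eq_fintype_card (α := Finset.Ioc (-3 : ℤ) 3), Fintype.card_coe,
      Nat.card_eq_fintype_card (α := Λ.erase μ), Fintype.card_coe,
      Finset.card_erase_of_mem (by simpa [Λ] using h4)] at h5
    exact h5.trans (Nat.pow_le_pow_right (by norm_num) (Nat.sub_le_sub_right h3 1))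
  by_contra h6
  refine h1 (hχ.eq_of_classInner_ne_zero isIrrCharacter_one (blichfeldt_simple hχ.isCharacter hH
    (a := x⁻¹ * y) h4 (fun lam hl => ?_) fun h7 => h6 ?_))
  · by_cases h7 : lam = μ
    · rw [h7, inv_mul_cancel₀ (Units.ne_zero _)]; norm_num
    have h8 : ∀ x, ‖(μ x : ℂ)⁻¹ * lam x‖ = 1 := fun x => by simp [linear_norm]
    convert hf _ _ (h8 x) (h8 y) (congrFun hxy ⟨lam, by simpa [Λ, h7] using hl⟩) using 2
    simp only [map_mul, map_inv, Units.val_mul, Units.val_inv_eq_inv_val]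
    field_simp
  · rw [hZ, Subgroup.mem_bot, Subgroup.coe_mul, Subgroup.coe_inv, inv_mul_eq_one] at h7
    exact Subtype.ext h7

theorem burnside_brauer_tuan [IsSimpleGroup G] {p q a b m : ℕ} (hp : p.Prime) (hq : q.Prime)
    (hpq : p ≠ q) (ha : 0 < a) (hg : Nat.card G = p ^ a * q ^ b * m) (hpm : ¬ p ∣ m)
    (hne : Nat.card G ≠ p) : p < 6 ^ (m - 1) := by
  classical
  haveI := Fact.mk hp
  haveI := Fintype.ofFinite G
  have hpG : p ∣ Nat.card G := hg ▸ ((dvd_pow_self p ha.ne').mul_right _).mul_right _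
  have hZ : Subgroup.center G = ⊥ := (Subgroup.Normal.eq_bot_or_eq_top inferInstance).resolve_right
    fun h => hne ((Nat.prime_dvd_prime_iff_eq hp (prime_card_of_simple_of_class_prime_pow (k := 0) hp
      (exists_ne 1).choose_spec (by
        rw [Subgroup.centralizer_eq_top_iff_subset.2 (by simp [h]), Subgroup.index_top,
          pow_zero]))).1 hpG).symm
  let P : Sylow p G := default
  haveI := (Subgroup.nontrivial_iff_ne_bot _).2 (P.ne_bot_of_dvd_card hpG)
  obtain ⟨k, hk0, hk⟩ := (P.2.to_subgroup (Subgroup.center P)).nontrivial_iff_card.1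
    P.2.center_nontrivial
  obtain ⟨⟨⟨x, hxP⟩, hxZ⟩, hx⟩ := exists_prime_orderOf_dvd_card' p (hk ▸ dvd_pow_self p hk0.ne')
  rw [Subgroup.orderOf_mk, Subgroup.orderOf_mk] at hx
  obtain ⟨M, hM⟩ := H6.exists_isPModular hp
  haveI := hM.2.1
  have h1 := block_orth' hM (isPBlock_principal (G := G)) (H6.isPPart_self hp ⟨1, by rw [hx, pow_one]⟩)
    (H6.isPPart_self hp (x := 1) ⟨0, by simp⟩) fun h => hp.one_lt.ne' (by
      rw [← hx, isConj_one_left.1 h, orderOf_one])
  obtain ⟨χ, hB, h2, h3⟩ : ∃ χ ∈ principalBlock M G, χ ≠ irrOne G ∧ ¬ q ∣ charDegree χ.1 := by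
    by_contra h2
    push Not at h2
    rw [← Finset.add_sum_erase _ _ (mem_bfin.2 irrOne_mem_principal)] at h1
    refine hq.one_lt.ne' (Nat.dvd_one.1 (nat_dvd_of_isIntegral_div hq.ne_zero ?_))
    rw [show ((1 : ℕ) : ℂ) = _ from (by simpa using eq_neg_of_add_eq_zero_left h1), neg_div,
      Finset.sum_div]
    refine (IsIntegral.sum _ fun χ hχ => ?_).neg
    obtain ⟨c, hc⟩ := h2 χ (mem_bfin.1 (Finset.mem_erase.1 hχ).2) (Finset.mem_erase.1 hχ).1
    rw [← irr_coe_charDegree, map_natCast, hc, Nat.cast_mul, mul_left_comm,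
      mul_div_cancel_left₀ _ (Nat.cast_ne_zero.2 hq.ne_zero)]
    exact (χ.2.isCharacter.isIntegral x).mul (isIntegral_natCast _)
  obtain ⟨e, he⟩ := Nat.gcd_dvd_left (charDegree χ.1) m
  set d := (charDegree χ.1).gcd m with hd
  have hn := χ.2.charDegree_pos
  have he0 : 0 < e := Nat.pos_of_ne_zero fun h => by simp [h] at he; omega
  have he1 : (e : ℂ) ≠ 0 := Nat.cast_ne_zero.2 he0.ne'
  have hd1 : (d : ℂ) ≠ 0 := Nat.cast_ne_zero.2 (Nat.gcd_pos_of_pos_left _ hn).ne'
  have h4 : ∀ h : Subgroup.zpowers x, IsIntegral ℤ (χ.1 h / e) ∧ H6.redC M (χ.1 h / e) = d := by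
    intro h
    have h4 : (P : Subgroup G) ≤ Subgroup.centralizer {(h : G)} := fun g hg y hy => by
      obtain ⟨j, hj⟩ := Subgroup.mem_zpowers_iff.1 h.2
      rw [hy, ← hj]
      exact ((show Commute g x from congrArg Subtype.val
        (Subgroup.mem_center_iff.1 hxZ ⟨g, hg⟩)).zpow_right j).symm
    set K := (Subgroup.centralizer {(h : G)}).index with hK
    have h5 : ¬ p ∣ K := fun h5 => P.not_dvd_index (h5.trans (Subgroup.index_dvd_of_le h4))
    have h6 : (charDegree χ.1).gcd K ∣ d := Nat.dvd_gcd (Nat.gcd_dvd_left _ _)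
      (Nat.Coprime.dvd_of_dvd_mul_left (m := p ^ a * q ^ b) (Nat.Coprime.mul_right
        (Nat.Coprime.coprime_dvd_left (Nat.gcd_dvd_right _ _)
          (((Nat.Prime.coprime_iff_not_dvd hp).2 h5).symm.pow_right a))
        (Nat.Coprime.coprime_dvd_left (Nat.gcd_dvd_left _ _)
          (((Nat.Prime.coprime_iff_not_dvd hq).2 h3).symm.pow_right b)))
        (hg ▸ (Nat.gcd_dvd_right _ _).trans (Subgroup.index_dvd_card _)))
    have h7 : centralChar χ.1 h * d = K * (χ.1 h / e) := by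
      rw [centralChar, ← irr_coe_charDegree, he, ← hK]; push_cast; field_simp
    have h8 : IsIntegral ℤ (χ.1 h / e) := by
      obtain ⟨c, hc⟩ := h6
      have h8 := congrArg (Int.cast : ℤ → ℂ) (Nat.gcd_eq_gcd_ab (charDegree χ.1) K)
      replace hc := congrArg (Nat.cast : ℕ → ℂ) hc
      replace he := congrArg (Nat.cast : ℕ → ℂ) he
      push_cast at h8 hc he
      rw [show χ.1 h / e = c * (Nat.gcdA (charDegree χ.1) K * χ.1 h +
          Nat.gcdB (charDegree χ.1) K * centralChar χ.1 h) by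
        refine mul_left_cancel₀ hd1 ?_
        have h9 : χ.1 h = e * (χ.1 h / e) := by field_simp
        generalize χ.1 h / e = y at *
        rw [h9]
        linear_combination y * hc + c * y * h8 + c * y * Nat.gcdA (charDegree χ.1) K * he -
          c * Nat.gcdB (charDegree χ.1) K * h7]
      exact (isIntegral_natCast _).mul (((isIntegral_intCast _).mul (χ.2.isCharacter.isIntegral _)).add
        ((isIntegral_intCast _).mul (χ.2.isIntegral_centralChar _)))
    refine ⟨h8, mul_left_cancel₀ (mt (H6.natCast_res_eq_zero_iff hM K).1 h5) ?_⟩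
    have h9 := congrArg (H6.redC M) h7
    rw [H6.redC_mul (centralChar_mem χ.2 _) (natCast_mem _ _), H6.redC_mul (natCast_mem _ _)
      (H6.mem_locRing_of_isIntegral h8), ← redC_centralChar_eq isIrrCharacter_one χ.2 hB] at h9
    rw [H6.redC_natCast, H6.redC_natCast] at h9
    rw [← h9]; simp [centralChar, hK]
  have hH : Nat.card (Subgroup.zpowers x) = p := by rw [Nat.card_zpowers, hx]
  have h5 := card_le_six_pow hZ χ.2 (fun h => h2 (Subtype.ext h)) (H := Subgroup.zpowers x)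
    (fun a b => mul_comm' a b) he0 (he.trans (mul_comm _ _)) fun lam => by
      haveI := Fintype.ofFinite (Subgroup.zpowers x)
      have h5 := card_mul_classInner (fun h : Subgroup.zpowers x => χ.1 h) fun h => (lam h : ℂ)
      rw [← nin_cast (χ.2.isCharacter.restrict _) (isCharacter_linear lam), hH] at h5
      set r := nin (fun h : Subgroup.zpowers x => χ.1 h) fun h => (lam h : ℂ)
      have h6 : ((p * r : ℕ) : ℂ) / e = ∑ h : Subgroup.zpowers x, χ.1 h / e * conj (lam h : ℂ) := by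
        rw [Nat.cast_mul, h5, Finset.sum_div]
        exact Finset.sum_congr rfl fun h _ => mul_div_right_comm _ _ _
      have h7 := fun h => (isCharacter_linear lam).conj.isIntegral h
      obtain ⟨c, hc⟩ := nat_dvd_of_isIntegral_div he0.ne'
        (h6 ▸ IsIntegral.sum _ fun h _ => (h4 h).1.mul (h7 h))
      have h8 := congrArg (H6.redC M) h6
      rw [hc, Nat.cast_mul, mul_div_cancel_left₀ _ he1, H6.redC_natCast, H6.redC_sum _ fun h _ =>
        H6.mem_locRing_of_isIntegral ((h4 h).1.mul (h7 h)), Finset.sum_congr rfl fun h _ => by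
          rw [H6.redC_mul (H6.mem_locRing_of_isIntegral (h4 h).1) (H6.mem_locRing_of_isIntegral (h7 h)),
            (h4 h).2, H6.redC_eq_one_of_pow_eq_one hM (k := 1) (by
              rw [pow_one, ← map_pow, ← Units.val_pow_eq_pow_val, ← map_pow, ← hH, pow_card_eq_one',
                map_one, Units.val_one, map_one])],
        Finset.sum_const, Finset.card_univ, ← Nat.card_eq_fintype_card, hH, nsmul_eq_mul,
        (H6.natCast_res_eq_zero_iff hM p).2 dvd_rfl, zero_mul, H6.natCast_res_eq_zero_iff hM] at h8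
      obtain ⟨c, rfl⟩ := h8
      exact ⟨c, Nat.eq_of_mul_eq_mul_left hp.pos (by rw [hc]; ring)⟩
  rw [hH] at h5
  have hm : 0 < m := Nat.pos_of_ne_zero fun h => hpm (h ▸ dvd_zero p)
  refine lt_of_le_of_ne (h5.trans (Nat.pow_le_pow_right (by norm_num)
    (Nat.sub_le_sub_right (Nat.gcd_le_right _ hm) 1))) fun h6 => ?_
  have := (hp.pow_eq_iff.1 h6.symm).1
  rw [← this] at hp; norm_num at hp

theorem commutator_le_charKer_of_degree_lt {p : ℕ} [Fact p.Prime] (hG : IsPGroup p G)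
    (hχ : IsCharacter G χ) (h : charDegree χ < p) : commutator G ≤ charKer χ := fun g hg => by
  haveI := Fintype.ofFinite G
  refine hχ.mem_charKer_of_forall_constituent fun ψ hψ h1 => apply_of_mem_charKer
    (hψ.commutator_le_charKer_iff.2 (charDegree_eq_one_of_isPGroup hG ⟨ψ, hψ⟩ fun h2 => ?_) hg)
  exact h.not_ge ((Nat.le_of_dvd hψ.charDegree_pos h2).trans (hχ.degree_le_of_constituent hψ h1
    hχ.charDegree_cast.symm hψ.isCharacter.charDegree_cast.symm))

end char

end Cfsg.Agent.H8
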