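import Mathlib
import Cfsg.Agent.H8.Jordan2

/-!
Linear groups of degree less than `2p` with non-abelian Sylow `p`-subgroups.
-/

set_option autoImplicit false
set_option linter.dupNamespace false

namespace Cfsg.Agent.H8

open Cfsg Cfsg.Agent.H4 Cfsg.Agent.H5 Cfsg.Agent.H3
open scoped ComplexConjugate Pointwise commutatorElement

universe u

variable {G : Type u} [Group G] [Finite G] {χ : G → ℂ} {p : ℕ}

theorem exists_two_eigen (hp : p.Prime) (hχ : IsCharacter G χ) (hf : ∀ g, χ g = χ 1 → g = 1)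
    (hn2 : charDegree χ < 2 * p) (hG : IsPGroup p G) (hc : commutator G ≠ ⊥) {ζ : ℂ}
    (hζ : ζ ^ p = 1) : p ≤ charDegree χ ∧ ∃ (a : G) (μ : Subgroup.zpowers a →* ℂˣ),
      μ ⟨a, Subgroup.mem_zpowers a⟩ = ζ ∧
      ∀ h : Subgroup.zpowers a, χ h = p * μ h + (charDegree χ - p : ℕ) := by
  haveI := Fact.mk hp
  haveI := Fintype.ofFinite G
  have hk : charKer χ = ⊥ := (charKer_eq_bot_iff hχ).2 hf
  obtain ⟨η, hη, h1, h2⟩ : ∃ η, IsIrrCharacter G η ∧ classInner χ η ≠ 0 ∧ p ∣ charDegree η := by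
    by_contra h
    push Not at h
    refine hc (eq_bot_iff.2 (hk ▸ fun g hg => hχ.mem_charKer_of_forall_constituent
      fun ψ hψ h1 => apply_of_mem_charKer (hψ.commutator_le_charKer_iff.2
        (charDegree_eq_one_of_isPGroup hG ⟨ψ, hψ⟩ (h ψ hψ h1)) hg)))
  have h3 := hχ.degree_le_of_constituent hη h1 hχ.charDegree_cast.symm
    hη.isCharacter.charDegree_cast.symm
  have h4 : charDegree η = p := by
    obtain ⟨c, hc⟩ := h2
    have := hη.charDegree_pos
    have h5 : c < 2 := Nat.lt_of_mul_lt_mul_left (a := p) (by omega)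
    interval_cases c <;> omega
  have hφ := hχ.sub_irr hη h1
  have h5 : (χ - η) 1 = (charDegree χ - p : ℕ) := by
    rw [Pi.sub_apply, ← hχ.charDegree_cast, ← hη.isCharacter.charDegree_cast, h4,
      Nat.cast_sub (h4 ▸ h3)]
  have h6 := commutator_le_charKer_of_degree_lt hG hφ (by rw [charDegree_eq_of h5]; omega)
  obtain ⟨lam, h7, h8⟩ := exists_linear_charCenter hη.apply_one_ne_zero
  have h9 := H3.inf_center_ne_bot hG.isNilpotent (commutator G) hc
  obtain ⟨k, hk0, hk1⟩ := (hG.to_subgroup (commutator G ⊓ Subgroup.center G)).nontrivial_iff_card.1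
    ((Subgroup.nontrivial_iff_ne_bot _).2 h9)
  obtain ⟨⟨z, hz0⟩, hz⟩ := exists_prime_orderOf_dvd_card' p (hk1 ▸ dvd_pow_self p hk0.ne')
  rw [Subgroup.orderOf_mk] at hz
  obtain ⟨hz1, hz2⟩ := Subgroup.mem_inf.1 hz0
  haveI : NeZero p := ⟨hp.ne_zero⟩
  have h10 : IsPrimitiveRoot (lam ⟨z, hη.center_le_charCenter hz2⟩ : ℂ) p := by
    rw [IsPrimitiveRoot.coe_units_iff]
    refine IsPrimitiveRoot.iff_orderOf.2 (orderOf_eq_prime ?_ fun h => ?_)
    · rw [← map_pow, ← map_one lam]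
      exact congrArg lam (Subtype.ext (hz ▸ pow_orderOf_eq_one z))
    · refine hp.one_lt.ne' (hz.symm.trans (orderOf_eq_one_iff.2 ?_))
      rw [← Subgroup.mem_bot, ← hk, show χ = η + (χ - η) by abel, hη.isCharacter.charKer_add hφ]
      exact ⟨(h8 _).1 h, h6 hz1⟩
  obtain ⟨i, -, hi⟩ := h10.eq_pow_of_pow_eq_one hζ
  have h11 : Subgroup.zpowers (z ^ i) ≤ commutator G ⊓ Subgroup.center G :=
    Subgroup.zpowers_le.2 (pow_mem hz0 i)
  refine ⟨h4 ▸ h3, z ^ i, lam.comp (Subgroup.inclusion (h11.trans (inf_le_right.trans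
    hη.center_le_charCenter))), ?_, fun h => ?_⟩
  · rw [← hi, ← Units.val_pow_eq_pow_val, ← map_pow]; rfl
  · have h12 := h7 ⟨h, hη.center_le_charCenter (h11 h.2).2⟩ 1
    rw [mul_one, ← hη.isCharacter.charDegree_cast, h4, mul_comm] at h12
    rw [← h5, ← apply_of_mem_charKer (h6 (h11 h.2).1), Pi.sub_apply]
    exact (add_sub_cancel (η h) _).symm.trans (congrArg (· + (χ h - η h)) h12)

theorem exists_normal_comm_index (hp : p.Prime) (h7 : 7 ≤ p) (hχ : IsIrrCharacter G χ)
    (hf : ∀ g, χ g = χ 1 → g = 1) (hn2 : charDegree χ < 2 * p) (hnp : charDegree χ ≠ p)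
    {P : Subgroup G} (hP : IsPGroup p P) (hc : commutator P ≠ ⊥) :
    ∃ D : Subgroup G, D.Normal ∧ ⁅D, D⁆ = ⊥ ∧ D.index ∣ (charDegree χ).factorial := by
  classical
  haveI := Fintype.ofFinite G
  have hζ := Complex.isPrimitiveRoot_exp p hp.ne_zero
  set ζ := Complex.exp (2 * Real.pi * Complex.I / p) with hζ0
  have hζ1 : ‖ζ - 1‖ < 1 := by
    have h7' : (7 : ℝ) ≤ p := by exact_mod_cast h7
    refine norm_sub_lt_one (hζ.norm'_eq_one hp.ne_zero) norm_one ?_
    rw [inv_one, one_mul, hζ0, show 2 * Real.pi * Complex.I / p = (2 * Real.pi / p : ℝ) * Complex.I by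
      push_cast; ring, Complex.exp_ofReal_mul_I_re, ← Real.cos_pi_div_three]
    refine Real.cos_lt_cos_of_nonneg_of_le_pi (by positivity) (by linarith [Real.pi_pos]) ?_
    rw [div_lt_div_iff₀ (by linarith) (by norm_num)]
    nlinarith [Real.pi_pos]
  obtain ⟨h1, a, μ₀, h2, h3⟩ := exists_two_eigen hp (hχ.isCharacter.restrict P)
    (fun g hg => Subtype.ext (hf g hg)) hn2 hP hc hζ.pow_eq_one
  change p ≤ charDegree χ at h1
  obtain ⟨μ, h4, h5⟩ : ∃ μ : Subgroup.zpowers (a : G) →* ℂˣ, μ ⟨a, Subgroup.mem_zpowers _⟩ = ζ ∧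
      (fun h : Subgroup.zpowers (a : G) => χ h) = (p : ℂ) • (fun h => (μ h : ℂ)) +
        ((charDegree χ - p : ℕ) : ℂ) • fun h => ((1 : Subgroup.zpowers (a : G) →* ℂˣ) h : ℂ) := by
    have h4 : Subgroup.zpowers (a : G) ≤ P := Subgroup.zpowers_le.2 a.2
    refine ⟨μ₀.comp ((Subgroup.inclusion h4).codRestrict _ fun h => ?_), h2, funext fun h => ?_⟩
    · obtain ⟨j, hj⟩ := Subgroup.mem_zpowers_iff.1 h.2
      exact ⟨j, Subtype.ext hj⟩
    · refine (h3 ⟨⟨h, h4 h.2⟩, ?_⟩).trans ?_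
      · obtain ⟨j, hj⟩ := Subgroup.mem_zpowers_iff.1 h.2
        exact ⟨j, Subtype.ext hj⟩
      · simp; rfl
  clear h2 h3
  generalize (a : G) = a at *
  have hμ : μ ≠ 1 := fun h => hζ.ne_one hp.one_lt (by rw [← h4, h]; simp)
  have h6 : ∀ l m : Subgroup.zpowers a →* ℂˣ, l ≠ m →
      classInner (fun h => (l h : ℂ)) (fun h => (m h : ℂ)) = 0 := fun l m h => by
    by_contra h'
    exact h (MonoidHom.ext fun x => Units.ext (congrFun ((isIrrCharacter_linear l).eq_of_classInner_ne_zero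
      (isIrrCharacter_linear m) h') x))
  have h8 := frobenius_conj_comm hχ.isCharacter hf (H := Subgroup.zpowers a)
    (fun a b => mul_comm' a b) (a := ⟨a, Subgroup.mem_zpowers a⟩) (α := (1 + ζ) / 2) fun l hl => by
      by_cases h : μ = l
      · rw [← h, h4, show ζ - (1 + ζ) / 2 = (ζ - 1) / 2 by ring, norm_div]
        exact ⟨by simp; linarith, hζ1⟩
      by_cases h' : 1 = l
      · rw [← h', MonoidHom.one_apply, Units.val_one, show 1 - (1 + ζ) / 2 = -((ζ - 1) / 2) by ring,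
          norm_neg, norm_div]
        exact ⟨by simp; linarith, by simp⟩
      · rw [h5, classInner_add_left, classInner_smul_left, classInner_smul_left, h6 _ _ h,
          h6 _ _ h'] at hl
        simp at hl
  let A := Subgroup.normalClosure {a}
  have hA : ∀ x y : A, x * y = y * x := by
    have h9 : ∀ x ∈ Group.conjugatesOfSet {a}, ∀ y ∈ Group.conjugatesOfSet {a}, x * y = y * x := by
      intro x hx y hy
      simp only [Group.mem_conjugatesOfSet_iff, Set.mem_singleton_iff, exists_eq_left,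
        isConj_iff] at hx hy
      obtain ⟨g, rfl⟩ := hx
      obtain ⟨h, rfl⟩ := hy
      have := congrArg (MulAut.conj g) (h8 (g⁻¹ * h)).eq
      simpa [mul_assoc] using this
    exact fun x y => (Subgroup.closureCommGroupOfComm h9).mul_comm x y
  have haA : Subgroup.zpowers a ≤ A := Subgroup.zpowers_le.2 (Subgroup.subset_normalClosure rfl)
  let E := NEmb.ofNormal A
  obtain ⟨θ, hθ, h9⟩ := (hχ.isCharacter.restrict A).exists_constituent
    fun h => hχ.apply_one_ne_zero (congrFun h 1)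
  have hθ1 := degree_eq_one_of_comm hA hθ
  obtain ⟨e, he⟩ := (hχ.isCharacter.restrict A).classInner_nat hθ.isCharacter
  have h10 := E.clifford hχ hθ h9
  have h11 := E.clifford_degree hχ hθ h9
  erw [he] at h10 h11
  rw [hθ1, mul_one, ← hχ.isCharacter.charDegree_cast, ← Nat.cast_mul, Nat.cast_inj] at h11
  have he1 : e = 1 := by
    have h12 : IsCharacter A (∑ φ ∈ E.orbit θ, φ) := isCharacter_sum _ _ fun φ hφ => by
      obtain ⟨g, rfl⟩ := E.mem_orbit.1 hφ
      exact E.isCharacter_cj hθ.isCharacter g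
    obtain ⟨k, hk⟩ := (h12.comp (Subgroup.inclusion haA)).classInner_nat (isCharacter_linear μ)
    have h13 : (fun h : Subgroup.zpowers a => χ h) =
        (e : ℂ) • fun h => (∑ φ ∈ E.orbit θ, φ) (Subgroup.inclusion haA h) :=
      funext fun h => congrFun h10 (Subgroup.inclusion haA h)
    have h14 := congrArg (classInner · fun h => (μ h : ℂ)) (h13.symm.trans h5)
    simp only [classInner_add_left, classInner_smul_left] at h14
    erw [hk] at h14
    rw [h6 _ _ hμ.symm, (isIrrCharacter_linear μ).classInner_self, mul_one, mul_zero, add_zero,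
      ← Nat.cast_mul, Nat.cast_inj] at h14
    refine ((Nat.dvd_prime hp).1 ⟨k, h14.symm⟩).resolve_right fun h => ?_
    rw [h11, h] at hn2 hnp h1
    have h15 : (E.inertia θ).index < 2 := Nat.lt_of_mul_lt_mul_left (a := p) (by omega)
    have h16 := hp.pos
    generalize (E.inertia θ).index = t at *
    interval_cases t <;> omega
  obtain ⟨ψ, hψ, h12, -⟩ := E.exists_indFun_eq_of_inertia_le hθ (E.inertia θ)
    (E.f_mem_inertia hθ.isCharacter.isClassFunction) le_rfl hχ h9
  rw [he1, one_mul] at h11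
  have h13 : ψ 1 = 1 := by
    have h13 := congrFun h12 1
    rw [indFun_one, ← hχ.isCharacter.charDegree_cast, h11] at h13
    exact mul_left_cancel₀ (Nat.cast_ne_zero.2 Subgroup.index_ne_zero_of_finite)
      (h13.trans (mul_one _).symm)
  generalize E.inertia θ = T at *
  refine ⟨T.normalCore, inferInstance, eq_bot_iff.2 ?_, ?_⟩
  · rw [← (charKer_eq_bot_iff hχ.isCharacter).2 hf, ← h12]
    refine le_charKer_indFun hψ.isCharacter ?_
    rw [Subgroup.commutator_le]
    intro a ha b hb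
    exact ⟨⁅(⟨a, T.normalCore_le ha⟩ : T), ⟨b, T.normalCore_le hb⟩⁆,
      hψ.commutator_le_charKer_iff.2 h13 (Subgroup.commutator_mem_commutator trivial trivial), rfl⟩
  · rw [h11, Subgroup.normalCore_eq_ker, Subgroup.index_ker, Subgroup.index_eq_card,
      ← Nat.card_perm]
    exact Subgroup.card_subgroup_dvd_card _

theorem not_sq_dvd_index_pCore (hp : p.Prime) {D : Subgroup G} [D.Normal] (hD : ⁅D, D⁆ = ⊥) {n : ℕ}
    (hn : n < 2 * p) (h : D.index ∣ n.factorial) : ¬ p ^ 2 ∣ (pCore p G).index := fun h1 => by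
  haveI := Fact.mk hp
  let S : Sylow p D := default
  haveI : IsMulCommutative D := Subgroup.le_centralizer_iff_isMulCommutative.1
    (Subgroup.commutator_eq_bot_iff_le_centralizer.1 hD)
  have h2 : (S : Subgroup D) ≤ (pCore p G).subgroupOf D := fun x hx =>
    H1.map_subtype_pCore_le D ⟨x, H1.le_pCore S.2 hx, rfl⟩
  have h3 : ¬ p ∣ (pCore p G).relIndex D := fun h3 =>
    S.not_dvd_index (h3.trans (Subgroup.index_dvd_of_le h2))
  have h4 := h1.trans (Subgroup.index_dvd_of_le (inf_le_left : pCore p G ⊓ D ≤ _))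
  rw [← Subgroup.relIndex_mul_index inf_le_right, Subgroup.inf_relIndex_right] at h4
  have h5 := ((((Nat.Prime.coprime_iff_not_dvd hp).2 h3).pow_left 2).dvd_of_dvd_mul_left h4).trans h
  have h6 := hp.two_le
  rw [hp.pow_dvd_factorial_iff (b := 2) (Nat.log_lt_of_lt_pow' (by norm_num) (by nlinarith))] at h5
  simp only [Nat.Ico_succ_singleton, Finset.sum_singleton, pow_one] at h5
  exact hn.not_ge ((Nat.le_div_iff_mul_le hp.pos).1 h5)

theorem sylow_quotient_pCore_comm (hp : p.Prime)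
    (h : (∃ P : Sylow p G, ∃ x ∈ (P : Subgroup G), ∃ y ∈ (P : Subgroup G), x * y ≠ y * x) →
      ¬ p ^ 2 ∣ (pCore p G).index) (Q : Sylow p (G ⧸ pCore p G)) :
    ∀ x ∈ (Q : Subgroup (G ⧸ pCore p G)), ∀ y ∈ (Q : Subgroup (G ⧸ pCore p G)), x * y = y * x := by
  haveI := Fact.mk hp
  by_cases h1 : ∃ P : Sylow p G, ∃ x ∈ (P : Subgroup G), ∃ y ∈ (P : Subgroup G), x * y ≠ y * x
  · obtain ⟨k, hk⟩ := IsPGroup.iff_card.1 Q.2
    have h2 : k < 2 := lt_of_not_ge fun h2 => h h1 ((pow_dvd_pow p h2).trans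
      (hk ▸ Subgroup.card_subgroup_dvd_card _))
    haveI : IsCyclic Q := isCyclic_of_card_dvd_prime (p := p) (by
      rw [hk]; exact (pow_dvd_pow p (Nat.lt_succ_iff.1 h2)).trans (pow_one p).dvd)
    exact fun x hx y hy => congrArg Subtype.val (mul_comm' (⟨x, hx⟩ : Q) ⟨y, hy⟩)
  · push Not at h1
    obtain ⟨P, rfl⟩ := Sylow.mapSurjective_surjective (QuotientGroup.mk'_surjective (pCore p G)) p Q
    rintro _ ⟨x, hx, rfl⟩ _ ⟨y, hy, rfl⟩
    rw [← map_mul, h1 P x hx y hy, map_mul]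

end Cfsg.Agent.H8
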