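import Mathlib
import Cfsg.Agent.H8.KB1
import Cfsg.Agent.H7.Central
import Cfsg.Agent.H7.Local5

/-!
# Gram determinants, and blocks modulo a central `p`-subgroup
-/

namespace Cfsg.Agent.H8

open Cfsg Cfsg.Agent.H4 Cfsg.Agent.H5 Cfsg.Agent.H3
open Cfsg.Agent.H6 hiding blockCoeff_eq_zero blockPart_add blockPart_eq_zero_of_regular
  blockPart_eq_zero_of_singular blockPart_irr_of_mem blockPart_irr_of_not_mem
  blockPart_isClassFunction blockPart_smul blockPart_sub blockPart_sum blockPart_zero
  block_eq_blockOf block_eq_of_mem block_nonempty centralChar_mem char_mem conj_char_mem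
  irrOne_mem_principal isPBlock_blockOf isPBlock_principal mem_blockOf_self orderOf_conj'
  sameBlock_refl sameBlock_symm sameBlock_trans weak_orth weak_orth' card_defectGroup
  exists_height_zero blockDefect_eq blockHeight_eq deg_factorization_le blockCoeff_mem
  isPGroup_zpowers
open scoped ComplexConjugate

section Gram
open Matrix
variable {ι κ : Type*} [Fintype ι] [DecidableEq ι]

/-- Gram matrix of the columns, restricted to the rows in `s` -/
def gramM (s : Finset κ) (w : κ → ι → ℤ) : Matrix ι ι ℤ := of fun a c => ∑ i ∈ s, w i a * w i c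

omit [DecidableEq ι] in
theorem gramM_posDef (s : Finset κ) (w : κ → ι → ℤ)
    (hinj : ∀ v : ι → ℝ, (∀ i ∈ s, ∑ j, (w i j : ℝ) * v j = 0) → v = 0) :
    ((gramM s w).map (Int.cast : ℤ → ℝ)).PosDef := by
  refine PosDef.of_dotProduct_mulVec_pos ?_ fun x hx => ?_
  · ext a c
    simp [gramM, mul_comm]
  · have key : star x ⬝ᵥ ((gramM s w).map (Int.cast : ℤ → ℝ)) *ᵥ x =
        ∑ i ∈ s, (∑ j, (w i j : ℝ) * x j) ^ 2 := by
      simp only [star_trivial, dotProduct, mulVec, gramM, map_apply, of_apply, Int.cast_sum,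
        Int.cast_mul, sq, Finset.sum_mul, Finset.mul_sum]
      rw [Finset.sum_comm (s := s)]
      refine Finset.sum_congr rfl fun a _ => ?_
      rw [Finset.sum_comm (s := s)]
      refine Finset.sum_congr rfl fun c _ => Finset.sum_congr rfl fun i _ => by ring
    rw [key]
    refine lt_of_le_of_ne (Finset.sum_nonneg fun _ _ => sq_nonneg _) fun h => hx ?_
    refine hinj x fun i hi => ?_
    have := (Finset.sum_eq_zero_iff_of_nonneg fun _ _ => sq_nonneg _).mp h.symm i hi
    exact pow_eq_zero_iff two_ne_zero |>.mp this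

theorem det_cast (A : Matrix ι ι ℤ) : (A.map (Int.cast : ℤ → ℝ)).det = (A.det : ℝ) :=
  (Int.cast_det A).symm

theorem card_le_det_gram (s : Finset κ) (w : κ → ι → ℤ) (h0 : ∀ i ∈ s, w i ≠ 0)
    (hinj : ∀ v : ι → ℝ, (∀ i ∈ s, ∑ j, (w i j : ℝ) * v j = 0) → v = 0) :
    (s.card : ℤ) + 1 ≤ (gramM s w).det + Fintype.card ι := by
  classical
  induction hn : s.card generalizing s with
  | zero =>
    have := (gramM_posDef s w hinj).det_pos
    rw [det_cast] at this
    have : 0 < (gramM s w).det := by exact_mod_cast this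
    omega
  | succ n ih =>
    have hpos := (gramM_posDef s w hinj).det_pos
    rw [det_cast] at hpos
    have hpos' : 0 < (gramM s w).det := by exact_mod_cast hpos
    by_cases hle : s.card ≤ Fintype.card ι
    · omega
    have hdep : ¬ LinearIndependent ℝ (fun i : s => fun j => (w i j : ℝ)) := by
      intro hli
      have := hli.fintype_card_le_finrank
      simp at this
      exact hle this
    obtain ⟨g, hg, i, hi⟩ := Fintype.not_linearIndependent_iff.mp hdep
    have hinj' : ∀ v : ι → ℝ, (∀ a ∈ s.erase i, ∑ j, (w a j : ℝ) * v j = 0) → v = 0 := by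
      intro v hv
      refine hinj v fun a ha => ?_
      by_cases hai : a = i
      · subst hai
        have h1 : ∑ c : s, g c * ∑ j, (w c j : ℝ) * v j = 0 := by
          simp only [Finset.mul_sum]
          rw [Finset.sum_comm]
          refine Finset.sum_eq_zero fun j _ => ?_
          have := congrFun hg j
          simp only [Finset.sum_apply, Pi.smul_apply, smul_eq_mul, Pi.zero_apply] at this
          simp only [← mul_assoc]
          rw [← Finset.sum_mul, this, zero_mul]
        rw [Finset.sum_eq_single i (fun c _ hc => by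
          rw [hv c (Finset.mem_erase.mpr ⟨fun h => hc (Subtype.ext h), c.2⟩), mul_zero])
          (by simp)] at h1
        exact (mul_eq_zero.mp h1).resolve_left hi
      · exact hv a (Finset.mem_erase.mpr ⟨hai, ha⟩)
    have h1 := ih (s.erase i) (fun a ha => h0 a (Finset.mem_of_mem_erase ha)) hinj'
      (by rw [Finset.card_erase_of_mem i.2, hn]; rfl)
    have hP := gramM_posDef _ w hinj'
    set A := (gramM (s.erase i) w).map (Int.cast : ℤ → ℝ) with hA
    set x : ι → ℝ := fun j => (w i j : ℝ) with hx
    have hx0 : x ≠ 0 := fun h => h0 i i.2 (funext fun j => by simpa [hx] using congrFun h j)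
    have h2 : (gramM s w).map (Int.cast : ℤ → ℝ) =
        A + replicateCol Unit x * replicateRow Unit x := by
      ext a c
      simp only [hA, hx, gramM, map_apply, of_apply, Matrix.add_apply, mul_apply, replicateCol_apply,
        replicateRow_apply, Finset.univ_unique, Finset.sum_singleton]
      rw [← Finset.sum_erase_add s _ i.2]
      push_cast; rfl
    have h3 : A.det < ((gramM s w).map (Int.cast : ℤ → ℝ)).det := by
      rw [h2, det_add_replicateCol_mul_replicateRow hP.det_pos.ne'.isUnit, det_unique (n := Unit)]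
      have := hP.inv.dotProduct_mulVec_pos hx0
      have e : (1 + replicateRow Unit x * A⁻¹ * replicateCol Unit x : Matrix Unit Unit ℝ)
          default default = 1 + star x ⬝ᵥ A⁻¹ *ᵥ x := by
        rw [Matrix.mul_assoc, ← replicateCol_mulVec, Matrix.add_apply,
          replicateRow_mul_replicateCol_apply]
        simp
      rw [e]
      nlinarith [hP.det_pos]
    rw [hA, det_cast, det_cast] at h3
    have : (gramM (s.erase i) w).det < (gramM s w).det := by exact_mod_cast h3
    push_cast
    omega

end Gram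

section MinGram
variable {G : Type*} [Group G] [Fintype G] {p : ℕ} [Fact p.Prime] {M : Ideal AlgInt}
  {B : Set (IrrCharacter G)}

/-- the generalized character with given coefficients -/
noncomputable def gch (B : Set (IrrCharacter G)) (a : IrrCharacter G → ℤ) : G → ℂ :=
  ∑ χ ∈ bfin B, (a χ : ℂ) • (χ : G → ℂ)

omit [Fact p.Prime] in
theorem gch_mem_bspan (a : IrrCharacter G → ℤ) : gch B a ∈ bspan B :=
  Submodule.sum_mem _ fun _ h => Submodule.smul_mem _ _ (mem_bspan_of_mem (mem_bfin.mp h))

theorem inner_gch_irr (a : IrrCharacter G → ℤ) {ψ : IrrCharacter G} (h : ψ ∈ B) :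
    classInner (gch B a) ψ = a ψ := classInner_sum_bfin_of_mem _ h

theorem inner_gch (a c : IrrCharacter G → ℤ) :
    classInner (gch B a) (gch B c) = ((∑ χ ∈ bfin B, a χ * c χ : ℤ) : ℂ) := by
  conv_lhs => rw [gch.eq_1 B c, classInner_sum_right]
  push_cast
  refine Finset.sum_congr rfl fun χ hχ => ?_
  rw [classInner_smul_right, inner_gch_irr a (mem_bfin.mp hχ), map_intCast, mul_comm]

theorem isGen_gch (a : IrrCharacter G → ℤ) : IsGeneralizedCharacter G (gch B a) :=
  isGen_sum _ _ fun χ _ => χ.2.isGen.intCast_smul _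

omit [Fact p.Prime] in
theorem pReg_gch (a : IrrCharacter G → ℤ) :
    pRegularPart p (gch B a) = ∑ χ ∈ bfin B, (a χ : ℂ) • pRegularPart p (χ : G → ℂ) := by
  simp only [gch, pReg_sum, pReg_smul]

/-- a maximal independent family of relations spans all relations -/
theorem exists_eq_sum_of_pReg_eq_zero {ι : Type*} [Fintype ι] (Ψ : ι → G → ℂ)
    (hΨ : ∀ i, Ψ i ∈ bspan B) (hreg : ∀ i, pRegularPart p (Ψ i) = 0) (hli : LinearIndependent ℂ Ψ)
    (hcard : Fintype.card ι + blockRank p B = Nat.card B) {θ : G → ℂ} (hθ : θ ∈ bspan B)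
    (h0 : pRegularPart p θ = 0) : ∃ t : ι → ℂ, θ = ∑ i, t i • Ψ i := by
  set L := (pRegL p G).domRestrict (bspan B) with hL
  have h1 := L.finrank_range_add_finrank_ker
  rw [hL, LinearMap.range_domRestrict, ← blockRank_eq, finrank_bspan, ← hL] at h1
  have hli' : LinearIndependent ℂ (fun i => (⟨Ψ i, hΨ i⟩ : bspan B)) :=
    LinearIndependent.of_comp (bspan B).subtype hli
  have hle : Submodule.span ℂ (Set.range fun i => (⟨Ψ i, hΨ i⟩ : bspan B)) ≤ LinearMap.ker L := by
    rw [Submodule.span_le]
    rintro _ ⟨i, rfl⟩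
    exact hreg i
  have heq := Submodule.eq_of_le_of_finrank_eq hle (by rw [finrank_span_eq_card hli']; omega)
  have hm : (⟨θ, hθ⟩ : bspan B) ∈ LinearMap.ker L := h0
  rw [← heq, Submodule.mem_span_range_iff_exists_fun] at hm
  obtain ⟨t, ht⟩ := hm
  refine ⟨t, ?_⟩
  have := congrArg Subtype.val ht
  simpa using this.symm

theorem min_of_gram (hM : IsPModular p M) (hB : IsPBlock M B) {ι : Type*} [Fintype ι]
    [DecidableEq ι] (v : IrrCharacter G → ι → ℤ)
    (hreg : ∀ i, pRegularPart p (gch B fun χ => v χ i) = 0)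
    (hdet : (gramM (bfin B) v).det = p ^ blockDefect p B)
    (hcard : Fintype.card ι + blockRank p B = Nat.card B) (hrow : ∀ χ ∈ B, v χ ≠ 0)
    {f : G → ℂ} (hf : f ∈ lat p B) (h0 : f ≠ 0) : (blockRank p B : ℤ) ≤ qf p B f f := by
  classical
  have hp : p.Prime := Fact.out
  obtain ⟨a, ha⟩ := mem_lat_iff.mp hf
  rw [← pReg_gch] at ha
  set Ψ : ι → G → ℂ := fun i => gch B fun χ => v χ i with hΨ
  set A : Matrix ι ι ℂ := (gramM (bfin B) v).map (Int.cast : ℤ → ℂ) with hA
  have hAij : ∀ i j, A i j = classInner (Ψ i) (Ψ j) := fun i j => by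
    simp only [hΨ, inner_gch, hA, gramM, Matrix.map_apply, Matrix.of_apply]
  have hAdet : A.det = ((p ^ blockDefect p B : ℕ) : ℂ) := by
    rw [hA, ← Int.cast_det, hdet]; push_cast; rfl
  have hli : LinearIndependent ℂ Ψ := by
    rw [Fintype.linearIndependent_iff]
    intro g hg
    have : Matrix.vecMul g A = 0 := by
      ext j
      have := congrArg (fun θ => classInner θ (Ψ j)) hg
      simp only [classInner_sum_left, classInner_smul_left, classInner_zero_left] at this
      simpa [Matrix.vecMul, dotProduct, hAij] using this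
    have := Matrix.eq_zero_of_vecMul_eq_zero (by rw [hAdet]; exact pow_cast_ne_zero _) this
    exact congrFun this
  have hfB : f ∈ bspan B := mem_bspan_of_mem_lat hM hB hf
  obtain ⟨t, ht⟩ := exists_eq_sum_of_pReg_eq_zero Ψ (fun _ => gch_mem_bspan _) hreg hli hcard
    (θ := gch B a - f) (sub_mem (gch_mem_bspan a) hfB) (by rw [pReg_sub, ha, pReg_pReg, sub_self])
  have hfΨ : ∀ i, classInner f (Ψ i) = 0 := fun i => by
    rw [ha, classInner_pReg_left, hreg, classInner_zero_right]
  set w : IrrCharacter G → ι ⊕ Unit → ℤ := fun χ => Sum.elim (v χ) fun _ => a χ with hw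
  set A' : Matrix (ι ⊕ Unit) (ι ⊕ Unit) ℂ := (gramM (bfin B) w).map (Int.cast : ℤ → ℂ) with hA'
  set Φ : ι ⊕ Unit → G → ℂ := Sum.elim Ψ fun _ => gch B a with hΦ
  have hA'ij : ∀ i j, A' i j = classInner (Φ i) (Φ j) := by
    rintro (i | i) (j | j) <;>
    simp only [hΨ, hΦ, hw, inner_gch, hA', gramM, Matrix.map_apply, Matrix.of_apply, Sum.elim_inl,
      Sum.elim_inr]
  have hga : gch B a = f + ∑ i, t i • Ψ i := by rw [← ht]; abel
  have hmul : Matrix.fromBlocks 1 0 (Matrix.of fun _ j => -t j) 1 * A' =
      Matrix.fromBlocks A (Matrix.of fun i _ => classInner (Ψ i) (gch B a)) 0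
        (Matrix.of fun _ _ => classInner f f) := by
    ext (i | i) (j | j)
    · simp [Matrix.mul_apply, Matrix.one_apply, hA'ij, hAij, hΦ]
    · simp [Matrix.mul_apply, Matrix.one_apply, hA'ij, hΦ]
    · simp only [Matrix.mul_apply, Fintype.sum_sum_type, hA'ij, hΦ, Matrix.fromBlocks_apply₂₁,
        Matrix.fromBlocks_apply₂₂, Matrix.of_apply, Sum.elim_inl, Sum.elim_inr,
        Finset.univ_unique, Finset.sum_singleton, Matrix.zero_apply, Matrix.one_apply_eq]
      rw [hga, classInner_add_left, hfΨ, classInner_sum_left]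
      simp [classInner_smul_left]
    · simp only [Matrix.mul_apply, Fintype.sum_sum_type, hA'ij, hΦ, Matrix.fromBlocks_apply₂₁,
        Matrix.fromBlocks_apply₂₂, Matrix.of_apply, Sum.elim_inl, Sum.elim_inr,
        Finset.univ_unique, Finset.sum_singleton, Matrix.one_apply_eq]
      have e : classInner f (gch B a) = classInner f f := by
        conv_lhs => rw [hga, classInner_add_right, classInner_sum_right]
        simp [classInner_smul_right, hfΨ]
      rw [← e]
      nth_rewrite 2 [hga]
      rw [classInner_add_left, classInner_sum_left]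
      simp [classInner_smul_left]
  have hd := congrArg Matrix.det hmul
  rw [Matrix.det_mul, Matrix.det_fromBlocks_zero₁₂, Matrix.det_fromBlocks_zero₂₁, Matrix.det_one,
    Matrix.det_one, one_mul, one_mul, hAdet, Matrix.det_unique (n := Unit), Matrix.of_apply,
    ← qf_cast hf hf, hA', ← Int.cast_det, Int.cast_inj] at hd
  have key := card_le_det_gram (bfin B) w (fun χ hχ h => hrow χ (mem_bfin.mp hχ)
    (funext fun i => congrFun h (Sum.inl i))) (fun x hx => by
      have hne : ((gramM (bfin B) w).map (Int.cast : ℤ → ℝ)).det ≠ 0 := by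
        rw [det_cast, hd]; exact_mod_cast (qf_self_pos hf h0).ne'
      refine Matrix.eq_zero_of_mulVec_eq_zero hne (funext fun i => ?_)
      simp only [Matrix.mulVec, dotProduct, gramM, Matrix.map_apply, Matrix.of_apply,
        Int.cast_sum, Int.cast_mul, Finset.sum_mul, Pi.zero_apply]
      rw [Finset.sum_comm]
      refine Finset.sum_eq_zero fun χ hχ => ?_
      simp only [mul_assoc]
      rw [← Finset.mul_sum, hx χ hχ, mul_zero])
  rw [hd, card_bfin, ← hcard] at key
  simp only [Fintype.card_sum, Fintype.card_unique] at key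
  push_cast at key
  omega

end MinGram

end Cfsg.Agent.H8
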