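import Mathlib
import Cfsg.Agent.H8.Height
import Cfsg.Agent.H11.Invol
import Cfsg.Agent.H12.SmallRecog
import Cfsg.Agent.H26.Suzuki
import Cfsg.Agent.H1.Cores
import Cfsg.Agent.H3.PGroup1

/-!
# Landau's theorem and bounds of Brauer-Fowler type
-/

namespace Cfsg.Agent.H8

open Cfsg Cfsg.Agent.H4 Subgroup

universe u

theorem landau_nat (k : ℕ) : ∀ r : ℚ, ∃ N : ℕ, ∀ s : Multiset ℕ, s.card ≤ k → (∀ n ∈ s, 0 < n) →
    (s.map fun n : ℕ => (n : ℚ)⁻¹).sum = r → ∀ n ∈ s, n ≤ N := by
  induction k with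
  | zero => exact fun r => ⟨0, fun s h _ _ n hn => by simp [Multiset.card_eq_zero.mp (Nat.le_zero.mp h)] at hn⟩
  | succ k ih =>
    intro r
    choose N hN using ih
    refine ⟨(Finset.range (⌊(k + 1 : ℚ) / r⌋₊ + 1)).sup fun m => max m (N (r - (m : ℚ)⁻¹)), fun s h h0 hr n hn => ?_⟩
    obtain ⟨m, hm, hmin⟩ := s.toFinset.exists_min_image id ⟨n, Multiset.mem_toFinset.mpr hn⟩
    rw [Multiset.mem_toFinset] at hm
    have hm0 : (0 : ℚ) < m := by exact_mod_cast h0 m hm
    have h1 : r ≤ (k + 1) * (m : ℚ)⁻¹ := by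
      rw [← hr]
      refine (Multiset.sum_le_card_nsmul _ (m : ℚ)⁻¹ fun x hx => ?_).trans ?_
      · obtain ⟨y, hy, rfl⟩ := Multiset.mem_map.mp hx
        exact inv_anti₀ hm0 (by exact_mod_cast hmin y (Multiset.mem_toFinset.mpr hy))
      · rw [Multiset.card_map, nsmul_eq_mul]
        exact mul_le_mul_of_nonneg_right (by exact_mod_cast h) (by positivity)
    obtain ⟨t, rfl⟩ := Multiset.exists_cons_of_mem hm
    rw [Multiset.map_cons, Multiset.sum_cons] at hr
    have h2 : 0 < r := by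
      rw [← hr]
      exact add_pos_of_pos_of_nonneg (by positivity) (Multiset.sum_nonneg fun x hx => by
        obtain ⟨y, -, rfl⟩ := Multiset.mem_map.mp hx
        positivity)
    refine le_trans ?_ (Finset.le_sup (f := fun m => max m (N (r - (m : ℚ)⁻¹))) (b := m) (Finset.mem_range.mpr
      (Nat.lt_succ_of_le (Nat.le_floor (by rw [le_div_iff₀ h2]; rwa [← div_eq_mul_inv, le_div_iff₀' hm0] at h1)))))
    rcases Multiset.mem_cons.mp hn with rfl | hn
    · exact le_max_left _ _
    · exact (hN _ t (by simpa using h) (fun n hn => h0 n (Multiset.mem_cons_of_mem hn)) (by linarith) n hn).trans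
        (le_max_right _ _)

/-- Landau: the order of a finite group is bounded in terms of its class number -/
theorem landau (k : ℕ) : ∃ N : ℕ, ∀ (G : Type u) [Group G] [Finite G],
    Nat.card (IrrCharacter G) ≤ k → Nat.card G ≤ N := by
  obtain ⟨N, hN⟩ := landau_nat k 1
  refine ⟨N, fun G _ _ h => ?_⟩
  haveI := Fintype.ofFinite G
  haveI := Fintype.ofFinite (ConjClasses G)
  choose f hf using ConjClasses.mk_surjective (α := G)
  have h1 : ∀ g : G, Nat.card (centralizer ({f (ConjClasses.mk g)} : Set G)) =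
      Nat.card (centralizer ({g} : Set G)) := fun g =>
    card_centralizer_of_isConj (ConjClasses.mk_eq_mk_iff_isConj.mp (hf _))
  have h2 := sum_mul_card_centralizer (G := G) (R := ℚ) fun C => (Nat.card (centralizer ({f C} : Set G)) : ℚ)⁻¹
  rw [Finset.sum_congr rfl fun g _ => by
    rw [h1, inv_mul_cancel₀ (by exact_mod_cast Nat.card_pos.ne')]] at h2
  refine hN (Finset.univ.val.map fun C => Nat.card (centralizer ({f C} : Set G))) ?_ ?_ ?_ _
    (Multiset.mem_map.mpr ⟨ConjClasses.mk 1, Finset.mem_univ_val _, ?_⟩)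
  · rwa [Multiset.card_map, Finset.card_val, Finset.card_univ, ← Nat.card_eq_fintype_card,
      ← card_irr_eq_card_conjClasses]
  · intro n hn
    obtain ⟨C, -, rfl⟩ := Multiset.mem_map.mp hn
    exact Nat.card_pos
  · rw [Multiset.map_map]
    refine mul_left_cancel₀ (a := (Nat.card G : ℚ)) (by exact_mod_cast Nat.card_pos.ne') (h2.symm.trans ?_)
    simp
  · rw [h1, (centralizer_eq_top_iff_subset).mpr (by simp), card_top]

theorem one_block_bound (p : ℕ) [Fact p.Prime] (a : ℕ) : ∃ N : ℕ, ∀ (G : Type u) [Group G] [Finite G]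
    (M : Ideal AlgInt), IsPModular p M → (Nat.card G).factorization p ≤ a →
    (∀ B : Set (IrrCharacter G), IsPBlock M B → B = principalBlock M G) → Nat.card G ≤ N := by
  obtain ⟨N, hN⟩ := landau.{u} (p ^ (2 * a) + 4)
  refine ⟨N, fun G _ _ M hM ha h => hN G ?_⟩
  haveI := Fintype.ofFinite G
  have := hM.2.1
  have h1 : principalBlock M G = Set.univ := Set.eq_univ_of_forall fun χ =>
    h _ (isPBlock_blockOf χ) ▸ mem_blockOf_self χ
  have h2 := brauer_feit hM (isPBlock_principal (M := M) (G := G))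
  have h3 : p ^ (2 * blockDefect p (principalBlock M G)) ≤ p ^ (2 * a) :=
    Nat.pow_le_pow_right hM.1.pos (Nat.mul_le_mul_left _ ((Nat.sub_le _ _).trans ha))
  rw [h1, Nat.card_univ] at h2
  rw [h1] at h3
  omega

section BF
variable {G : Type*} [Group G] [Finite G]

theorem card_conj_mem_le (s : G) (H : Subgroup G) :
    Nat.card {g : G // g * s * g⁻¹ ∈ H} ≤ Nat.card (centralizer ({s} : Set G)) * Nat.card H := by
  classical
  haveI := Fintype.ofFinite G
  rw [Nat.card_eq_fintype_card, Nat.card_eq_fintype_card (α := H)]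
  refine Finset.card_le_mul_card_image_of_maps_to (f := fun g : {g : G // g * s * g⁻¹ ∈ H} => (⟨_, g.2⟩ : H))
    (fun _ _ => Finset.mem_univ _) _ fun h _ => ?_
  rw [← Fintype.card_coe, ← Nat.card_eq_fintype_card]
  refine (Nat.card_le_card_of_injective (β := {x : G // x * s * x⁻¹ = h})
    (fun g => ⟨g.1.1, by have := (Finset.mem_filter.mp g.2).2; exact congrArg Subtype.val this⟩)
    fun a b hab => Subtype.ext (Subtype.ext (congrArg (fun x => x.1) hab))).trans ?_
  by_cases hc : IsConj s h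
  · exact (card_conjugator_of_isConj hc).le
  · rw [card_conjugator_of_not_isConj hc]; exact Nat.zero_le _

theorem exists_small_class {s : G} (hs : s * s = 1) (hz : s ∉ center G) {c : ℕ}
    (hc : Nat.card (centralizer ({s} : Set G)) ≤ c) :
    ∃ x : G, x ≠ 1 ∧ (centralizer ({x} : Set G)).index ≤ 2 * c ^ 2 := by
  classical
  haveI := Fintype.ofFinite G
  obtain ⟨x, hx, hmax⟩ := (Finset.univ.erase (1 : G)).exists_max_image
    (fun x => Nat.card (centralizer ({x} : Set G))) ⟨s, Finset.mem_erase.mpr ⟨fun h => hz (h ▸ one_mem _), Finset.mem_univ _⟩⟩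
  refine ⟨x, Finset.ne_of_mem_erase hx, ?_⟩
  obtain ⟨K, hK⟩ : ∃ K, K = Finset.univ.filter (IsConj s) := ⟨_, rfl⟩
  have h1 : K.card = (centralizer ({s} : Set G)).index := by
    rw [← card_isConj_eq_index, Nat.card_eq_fintype_card, Fintype.card_subtype, hK]
  have h2 : ∀ a ∈ K, a * a = 1 := fun a ha => by
    obtain ⟨g, rfl⟩ := isConj_iff.mp (Finset.mem_filter.mp (hK ▸ ha)).2
    simp [mul_assoc, ← mul_assoc s, hs]
  have h3 : 2 ≤ K.card := by
    rw [h1]
    refine (Nat.two_le_iff _).mpr ⟨index_ne_zero_of_finite, fun h => hz ?_⟩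
    exact (centralizer_eq_top_iff_subset.mp (index_eq_one.mp h)) rfl
  have h4 : (K ×ˢ K).card ≤ K.card + Nat.card G * Nat.card (centralizer ({x} : Set G)) := by
    rw [Finset.card_eq_sum_card_fiberwise (f := fun q : G × G => q.1 * q.2) (t := Finset.univ)
      (fun _ _ => Finset.mem_univ _), ← Finset.add_sum_erase _ _ (Finset.mem_univ 1)]
    refine add_le_add (Finset.card_le_card_of_injOn Prod.fst (fun q hq => ?_) fun q hq q' hq' h => ?_)
      ((Finset.sum_le_card_nsmul _ _ (Nat.card (centralizer ({x} : Set G))) fun y hy => ?_).trans ?_)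
    · simp only [Finset.coe_filter, Finset.mem_product, Set.mem_setOf_eq] at hq
      exact hq.1.1
    · simp only [Finset.coe_filter, Set.mem_setOf_eq] at hq hq'
      exact Prod.ext h (mul_left_cancel (hq.2.trans (h ▸ hq'.2.symm)))
    · refine le_trans ?_ (hmax y hy)
      rcases (((K ×ˢ K).filter fun q : G × G => q.1 * q.2 = y)).eq_empty_or_nonempty with h | ⟨b, hb⟩
      · simp [h]
      have h5 : ∀ q ∈ (K ×ˢ K).filter fun q : G × G => q.1 * q.2 = y, q.1 * y * q.1⁻¹ = y⁻¹ := fun q hq => by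
        simp only [Finset.mem_filter, Finset.mem_product] at hq
        rw [← hq.2]
        exact H11.invol_inverts_left (h2 _ hq.1.1) (h2 _ hq.1.2)
      rw [← Fintype.card_coe, ← Nat.card_eq_fintype_card,
        ← card_conjugator_of_isConj (isConj_iff.mpr ⟨_, h5 b hb⟩)]
      refine Nat.card_le_card_of_injective (fun q => ⟨q.1.1, h5 _ q.2⟩) fun q q' h => Subtype.ext ?_
      have h6 : q.1.1 = q'.1.1 := congrArg Subtype.val h
      exact Prod.ext h6 (mul_left_cancel ((Finset.mem_filter.mp q.2).2.trans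
        (h6 ▸ (Finset.mem_filter.mp q'.2).2.symm)))
    · exact Nat.mul_le_mul_right _ ((Finset.card_le_univ _).trans_eq Nat.card_eq_fintype_card.symm)
  have h5 := (centralizer ({x} : Set G)).card_mul_index
  have h6 : Nat.card G ≤ c * K.card := by
    rw [← (centralizer ({s} : Set G)).card_mul_index, h1]; exact Nat.mul_le_mul_right _ hc
  rw [Finset.card_product] at h4
  generalize (centralizer ({x} : Set G)).index = i at *
  generalize Nat.card (centralizer ({x} : Set G)) = z at *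
  generalize K.card = m at *
  generalize Nat.card G = n at *
  have h7 : m * m * i ≤ m * i + (c * m) * (c * m) := by
    calc m * m * i ≤ (m + n * z) * i := Nat.mul_le_mul_right _ h4
      _ = m * i + n * n := by rw [add_mul, mul_assoc n, h5]
      _ ≤ _ := by gcongr
  have h8 : 2 * (m * i) ≤ m * m * i := by nlinarith [Nat.mul_le_mul_right (m * i) h3]
  exact Nat.le_of_mul_le_mul_left (c := m * m) (by nlinarith) (by positivity)

theorem card_odd_normal_le (O : Subgroup G) [O.Normal] (hO : Odd (Nat.card O)) {s t : G} (hs : s * s = 1)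
    (ht : t * t = 1) (hst : Commute s t) {c : ℕ} (h1 : Nat.card (centralizer ({s} : Set G)) ≤ c)
    (h2 : Nat.card (centralizer ({t} : Set G)) ≤ c) (h3 : Nat.card (centralizer ({s * t} : Set G)) ≤ c) :
    Nat.card O ≤ c ^ 4 := by
  classical
  haveI := Fintype.ofFinite G
  have h4 : s * t * (s * t) = 1 := by rw [hst.symm.mul_mul_mul_comm, hs, ht, one_mul]
  have key : ∀ q : O × O, ∃ w : O, IsConj (s * t) (s * t * w) ∧
      q.1 * s * (q.1 : G)⁻¹ ∈ centralizer ({s * t * w} : Set G) ∧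
      q.2 * t * (q.2 : G)⁻¹ ∈ centralizer ({s * t * w} : Set G) := by
    rintro ⟨a, b⟩
    obtain ⟨x, hx⟩ : ∃ x, x = a * s * (a : G)⁻¹ := ⟨_, rfl⟩
    obtain ⟨y, hy⟩ : ∃ y, y = b * t * (b : G)⁻¹ := ⟨_, rfl⟩
    have e1 : x * x = 1 := by simp [hx, mul_assoc, ← mul_assoc s, hs]
    have e2 : y * y = 1 := by simp [hy, mul_assoc, ← mul_assoc t, ht]
    have e3 : ((x * y : G) : G ⧸ O) = (s * t : G) := by
      simp [hx, hy, (QuotientGroup.eq_one_iff _).mpr a.2, (QuotientGroup.eq_one_iff _).mpr b.2]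
    have e4 : (x * y) ^ 2 ∈ O := by
      rw [← QuotientGroup.eq_one_iff, QuotientGroup.mk_pow, e3, ← QuotientGroup.mk_pow, sq, h4]; rfl
    obtain ⟨m, hm⟩ := H11.odd_orderOf_of_odd_card hO e4
    obtain ⟨z, hz⟩ : ∃ z, z = (x * y) ^ (2 * m + 1) := ⟨_, rfl⟩
    have e5 : z * z = 1 := by rw [hz, ← sq, ← pow_mul, mul_comm, pow_mul, ← hm, pow_orderOf_eq_one]
    have e6 : s * t * z ∈ O := by
      rw [← QuotientGroup.eq_one_iff, hz, pow_succ, pow_mul, QuotientGroup.mk_mul, QuotientGroup.mk_mul O (_ ^ m),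
        (QuotientGroup.eq_one_iff _).mpr (O.pow_mem e4 m), one_mul, e3, ← QuotientGroup.mk_mul, h4]; rfl
    have e7 : s * t * (s * t * z) = z := by rw [← mul_assoc, h4, one_mul]
    have e8 : ∀ v : G, v * (x * y) * v⁻¹ = (x * y)⁻¹ → v ∈ centralizer ({z} : Set G) := fun v hv => by
      rw [mem_centralizer_singleton_iff, ← mul_inv_eq_iff_eq_mul, hz, ← conj_pow, hv, inv_pow, ← hz,
        inv_eq_of_mul_eq_one_left e5]
    refine ⟨⟨_, e6⟩, ?_⟩
    simp only [e7, ← hx, ← hy]
    exact ⟨H11.isConj_of_odd h4 e5 (H11.odd_orderOf_of_odd_card hO e6), e8 _ (H11.invol_inverts_left e1 e2),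
      e8 _ (H11.invol_inverts_right e1 e2)⟩
  choose w h5 h6 h7 using key
  have h8 : Fintype.card (O × O) ≤ c ^ 4 * Fintype.card O := by
    refine Finset.card_le_mul_card_image_of_maps_to (f := w) (fun _ _ => Finset.mem_univ _) _ fun v _ => ?_
    rcases (Finset.univ.filter fun q => w q = v).eq_empty_or_nonempty with h | ⟨b, hb⟩
    · simp [h]
    have e1 : Nat.card (centralizer ({s * t * v} : Set G)) ≤ c := by
      rw [← (Finset.mem_filter.mp hb).2, ← card_centralizer_of_isConj (h5 b)]; exact h3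
    rw [← Fintype.card_coe, ← Nat.card_eq_fintype_card]
    refine (Nat.card_le_card_of_injective (β := {g : G // g * s * g⁻¹ ∈ centralizer ({s * t * v} : Set G)} ×
      {g : G // g * t * g⁻¹ ∈ centralizer ({s * t * v} : Set G)})
      (fun q => (⟨q.1.1, by have := h6 q.1; rwa [(Finset.mem_filter.mp q.2).2] at this⟩,
        ⟨q.1.2, by have := h7 q.1; rwa [(Finset.mem_filter.mp q.2).2] at this⟩))
      fun a b h => Subtype.ext (Prod.ext (Subtype.ext (congrArg (fun x => x.1.1) h))
        (Subtype.ext (congrArg (fun x => x.2.1) h)))).trans ?_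
    rw [Nat.card_prod]
    refine (Nat.mul_le_mul ((card_conj_mem_le _ _).trans (Nat.mul_le_mul h1 e1))
      ((card_conj_mem_le _ _).trans (Nat.mul_le_mul h2 e1))).trans_eq (by ring)
  rw [Fintype.card_prod, ← Nat.card_eq_fintype_card] at h8
  exact Nat.le_of_mul_le_mul_right h8 Nat.card_pos

theorem exists_small_normal (hO : pPrimeCore 2 G = ⊥) {x : G} (hx : x ≠ 1) {a j : ℕ}
    (ha : (Nat.card G).factorization 2 ≤ a) (hj : (centralizer ({x} : Set G)).index ≤ j) :
    ∃ N : Subgroup G, N.Normal ∧ 2 ∣ Nat.card N ∧ Nat.card N ≤ 2 ^ a + j.factorial := by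
  have key : ∀ N : Subgroup G, N.Normal → N ≠ ⊥ → 2 ∣ Nat.card N := fun N _ h => by
    by_contra h2
    exact h (le_bot_iff.mp (hO ▸ H1.le_pPrimeCore ((Nat.prime_two.coprime_iff_not_dvd.mpr h2).symm)))
  obtain ⟨D, hD⟩ : ∃ D, D = (centralizer ({x} : Set G)).normalCore := ⟨_, rfl⟩
  haveI : D.Normal := hD ▸ inferInstance
  obtain ⟨X, hX⟩ : ∃ X, X = normalClosure ({x} : Set G) := ⟨_, rfl⟩
  haveI : X.Normal := hX ▸ inferInstance
  have h1 : X ≤ centralizer (D : Set G) := hX ▸ normalClosure_le_normal (by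
    rintro _ rfl g hg
    exact mem_centralizer_singleton_iff.mp (normalCore_le _ (hD ▸ hg)))
  by_cases h : D ⊓ X = ⊥
  · refine ⟨X, inferInstance, key X inferInstance fun h => hx (mem_bot.mp (h ▸ hX ▸ subset_normalClosure rfl)),
      le_add_left ?_⟩
    refine le_trans ?_ ((Nat.le_of_dvd (Nat.factorial_pos _) (hD ▸ H12.index_normalCore_dvd _)).trans
      (Nat.factorial_le hj))
    rw [← relIndex_bot_left, ← h, inf_relIndex_right]
    exact Nat.le_of_dvd (Nat.pos_of_ne_zero index_ne_zero_of_finite) (relIndex_dvd_index_of_normal D X)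
  · refine ⟨D ⊓ X, inferInstance, key _ inferInstance h, le_add_right ?_⟩
    haveI : IsMulCommutative (D ⊓ X : Subgroup G) := ⟨⟨fun a b => Subtype.ext (h1 b.2.2 a a.2.1)⟩⟩
    have h2 : IsPGroup 2 (D ⊓ X : Subgroup G) :=
      (H1.isPGroup_pCore 2 G).to_le (H1.fittingSubgroup_eq_pCore hO ▸ H1.le_fittingSubgroup
        (open scoped IsMulCommutative in inferInstance))
    obtain ⟨n, hn⟩ := h2.exists_card_eq
    rw [hn]
    refine Nat.pow_le_pow_right two_pos (le_trans ?_ ha)
    exact (Nat.prime_two.pow_dvd_iff_le_factorization Nat.card_pos.ne').mp (hn ▸ card_subgroup_dvd_card _)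

end BF

/-- a group containing a four-group whose involutions have bounded centralizers -/
theorem four_group_bound (c a : ℕ) : ∃ F : ℕ, ∀ (G : Type u) [Group G] [Finite G] (s t : G),
    (Nat.card G).factorization 2 < a → s * s = 1 → t * t = 1 → Commute s t →
    Nat.card (centralizer ({s} : Set G)) ≤ c → Nat.card (centralizer ({t} : Set G)) ≤ c →
    Nat.card (centralizer ({s * t} : Set G)) ≤ c → Nat.card G ≤ F := by
  induction a with
  | zero => exact ⟨0, fun G _ _ s t h => absurd h (Nat.not_lt_zero _)⟩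
  | succ a ih =>
    obtain ⟨F, hF⟩ := ih
    have key : ∀ (G : Type u) [Group G] [Finite G] (s t : G), pPrimeCore 2 G = ⊥ →
        (Nat.card G).factorization 2 < a + 1 → s * s = 1 → t * t = 1 → Commute s t →
        Nat.card (centralizer ({s} : Set G)) ≤ c → Nat.card (centralizer ({t} : Set G)) ≤ c →
        Nat.card (centralizer ({s * t} : Set G)) ≤ c →
        Nat.card G ≤ c + F * (2 ^ a + (2 * c ^ 2).factorial) := by
      intro G _ _ s t hO ha hs ht hst h1 h2 h3
      by_cases hz : s ∈ center G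
      · rw [centralizer_eq_top_iff_subset.mpr (by simpa using hz), card_top] at h1
        exact le_add_right h1
      obtain ⟨x, hx, hj⟩ := exists_small_class hs hz h1
      obtain ⟨N, _, h4, h5⟩ := exists_small_normal hO hx (Nat.le_of_lt_succ ha) hj
      rw [card_eq_card_quotient_mul_card_subgroup N]
      refine le_add_left (Nat.mul_le_mul (hF (G ⧸ N) s t ?_ (by rw [← QuotientGroup.mk_mul, hs]; rfl)
        (by rw [← QuotientGroup.mk_mul, ht]; rfl) (hst.map (QuotientGroup.mk' N))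
        ((H26.card_cent_quot_le N s).trans h1) ((H26.card_cent_quot_le N t).trans h2)
        ((H26.card_cent_quot_le N (s * t)).trans h3)) h5)
      rw [card_eq_card_quotient_mul_card_subgroup N, Nat.factorization_mul Nat.card_pos.ne' Nat.card_pos.ne',
        Finsupp.add_apply] at ha
      have := Nat.prime_two.factorization_pos_of_dvd Nat.card_pos.ne' h4
      omega
    refine ⟨(c + F * (2 ^ a + (2 * c ^ 2).factorial)) * c ^ 4, fun G _ _ s t ha hs ht hst h1 h2 h3 => ?_⟩
    rw [card_eq_card_quotient_mul_card_subgroup (pPrimeCore 2 G)]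
    refine Nat.mul_le_mul (key (G ⧸ pPrimeCore 2 G) s t (H1.pPrimeCore_quotient_pPrimeCore 2)
      (lt_of_le_of_lt ?_ ha) (by rw [← QuotientGroup.mk_mul, hs]; rfl)
      (by rw [← QuotientGroup.mk_mul, ht]; rfl) (hst.map (QuotientGroup.mk' _))
      ((H26.card_cent_quot_le _ s).trans h1) ((H26.card_cent_quot_le _ t).trans h2)
      ((H26.card_cent_quot_le _ (s * t)).trans h3))
      (card_odd_normal_le _ (Nat.coprime_two_right.mp (H1.coprime_card_pPrimeCore 2 G)) hs ht hst h1 h2 h3)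
    exact (Nat.factorization_le_iff_dvd Nat.card_pos.ne' Nat.card_pos.ne').mpr (card_quotient_dvd_card _) 2

theorem elem_chain_bound (c a j : ℕ) : ∃ F : ℕ, ∀ (G : Type u) [Group G] [Finite G] (E : Subgroup G) (r : ℕ),
    (Nat.card G).factorization 2 ≤ a → IsMulCommutative E → (∀ x ∈ E, x * x = 1) → Nat.card E = 2 ^ (r + 1) →
    (∀ Q ≤ E, Nat.card Q = 2 ^ r → Nat.card (centralizer (Q : Set G)) ≤ c) →
    ∀ Q ≤ E, Nat.card Q * 2 ^ j = 2 ^ r → Nat.card (centralizer (Q : Set G)) ≤ F := by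
  induction j with
  | zero => exact ⟨c, fun G _ _ E r _ _ _ _ h Q hQ h' => h Q hQ (by simpa using h')⟩
  | succ j ih =>
    obtain ⟨F, hF⟩ := ih
    obtain ⟨F', hF'⟩ := four_group_bound.{u} F (a + 1)
    refine ⟨F', fun G _ _ E r ha hE h2 hc h Q hQ hj => ?_⟩
    have h0 : ∀ x ∈ E, ∀ y ∈ E, x * y = y * x := fun x hx y hy =>
      congrArg Subtype.val (hE.is_comm.comm ⟨x, hx⟩ ⟨y, hy⟩)
    have h1 : ∀ R ≤ E, E ≤ centralizer (R : Set G) := fun R hR x hx y hy => h0 y (hR hy) x hx
    have h3 : ∀ R ≤ E, ∀ v ∈ E, v ∉ R → Nat.card (R ⊔ zpowers v : Subgroup G) = 2 * Nat.card R :=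
      fun R hR v hv hv' => H3.card_sup_zpowers (centralizer_le_normalizer _ (h1 R hR hv)) hv'
        (by rw [sq, h2 v hv]; exact R.one_mem)
    have h4 : ∀ R ≤ E, Nat.card R ≤ 2 ^ r → ∃ v ∈ E, v ∉ R := fun R hR hr => by
      by_contra hc'
      push Not at hc'
      have := card_le_of_le hc'
      have := Nat.two_pow_pos r
      omega
    have h5 : ∀ v (hv : v ∈ E), v ∉ Q →
        Nat.card (centralizer ({⟨v, h1 Q hQ hv⟩} : Set (centralizer (Q : Set G)))) ≤ F := fun v hv hv' => by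
      refine le_trans ?_ (hF G E r ha hE h2 hc h (Q ⊔ zpowers v) (sup_le hQ (zpowers_le.mpr hv))
        (by rw [h3 Q hQ v hv hv', ← hj]; ring))
      refine Nat.card_le_card_of_injective (fun x => ⟨x.1.1, ?_⟩) fun a b hab =>
        Subtype.ext (Subtype.ext (congrArg (fun x => x.1) hab))
      refine le_centralizer_iff.mp (sup_le (le_centralizer_iff.mp (zpowers_le.mpr x.1.2)) (zpowers_le.mpr ?_))
        (mem_zpowers _)
      exact le_centralizer_iff.mp (zpowers_le.mpr (by
        rintro _ ⟨k, rfl⟩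
        exact (Commute.zpow_left (congrArg Subtype.val (x.2 _ rfl)) k).eq)) (mem_zpowers _)
    have h6 : 2 * Nat.card Q ≤ 2 ^ r := by
      rw [← hj, pow_succ]; nlinarith [Nat.two_pow_pos j, Nat.zero_le (Nat.card Q)]
    obtain ⟨s, hs, hs'⟩ := h4 Q hQ (by omega)
    obtain ⟨t, ht, ht'⟩ := h4 (Q ⊔ zpowers s) (sup_le hQ (zpowers_le.mpr hs)) (by rwa [h3 Q hQ s hs hs'])
    refine hF' _ ⟨s, h1 Q hQ hs⟩ ⟨t, h1 Q hQ ht⟩ (Nat.lt_succ_of_le (le_trans ?_ ha)) (Subtype.ext (h2 s hs))
      (Subtype.ext (h2 t ht)) (Subtype.ext (h0 s hs t ht)) (h5 s hs hs') (h5 t ht fun h => ht' (mem_sup_left h))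
      (h5 _ (E.mul_mem hs ht) fun h => ht' ((Subgroup.mul_mem_cancel_left _ (mem_sup_right (mem_zpowers s))).mp
        (mem_sup_left h)))
    exact (Nat.factorization_le_iff_dvd Nat.card_pos.ne' Nat.card_pos.ne').mpr (card_subgroup_dvd_card _) 2

end Cfsg.Agent.H8
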