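import Mathlib
import Cfsg.Agent.H16.M24h
import Cfsg.Agent.H16.Norm
import Cfsg.Agent.S5394
import Cfsg.Agent.S5607
import Cfsg.Agent.S5608
import Cfsg.Agent.H8.OneBlk

/-!
# Centralizers of elements of prime order in the Mathieu groups of degree 24 and 22
-/

set_option maxRecDepth 100000

namespace Cfsg.Agent.H8

open Cfsg Cfsg.Agent.H16 MulAction
open scoped Pointwise

noncomputable def m5 : M24 := elt 957478776841326336708359841186678880 (by decide +kernel)
theorem rep_m5 : Rep gpt 24 m5 (get 5 957478776841326336708359841186678880) := rep_elt _ _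
theorem orderOf_m5 : orderOf m5 = 5 :=
  rep_m5.orderOf_eq five_le gpt_inj (faith_M24 ⊤) trivial (by norm_num) (by decide +kernel)
theorem m5_mem : m5 ∈ K22 :=
  ⟨((rep_m5 23 (by norm_num)).2).trans (congrArg gpt (by decide +kernel)),
    ((rep_m5 0 (by norm_num)).2).trans (congrArg gpt (by decide +kernel))⟩
theorem card_cent_m5 : Nat.card (Subgroup.centralizer ({m5} : Set M24)) = 60 := by
  have := (cent_gen1 mulOk24 gpt_inj (faith_M24 ⊤) (B := [1, 3, 11, 6, 22, 4, 17]) (by decide) le_rfl
    (SK := [956302485175575353788796878166559809, 265463202357446280297592754337532963,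
      846002723224071803981457045872287795, 920867647010745736353683710712863783,
      878079675999583782488748961258643490, 652392904582292218745234145875689513,
      361814324119017875204249488000656418, 859922358684070172112777058827995168])
    (inK_top_of_allL (by decide +kernel)) card_top_M24.le trivial rep_m5 []
    (S := [984278101664821444891270506467140642, 384984720624050656906549764477618711]) (M := 60) (by decide +kernel)).1
  rwa [top_inf_eq] at this
theorem card_cent22_m5 :
    Nat.card (K22 ⊓ Subgroup.centralizer ({m5} : Set M24) : Subgroup M24) = 5 :=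
  (cent_gen1 mulOk24 gpt_inj (faith_M24 ⊤) (B := [1, 3, 11, 6, 22]) (by decide) le_top
    (SK := [967166094871619492645943304783079872, 962264130507931868310611982411272224,
      963714475446758026264925216357592096, 973662912979506284570855774517056544,
      965223560137663349194592461648934944, 958692642855693373148440630252381216])
    (inK_of_fixAll (A := [bit 23, bit 0]) (K := K22) (by decide +kernel) fun _ h =>
      ⟨fix_bit h (by norm_num) (by simp), fix_bit h (by norm_num) (by simp)⟩)
    card_K22.le trivial rep_m5 [] (S := [960031597051766310216705382083135840]) (M := 5) (by decide +kernel)).1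

noncomputable def m7 : M24 := elt 975141551516559584958176701702155584 (by decide +kernel)
theorem rep_m7 : Rep gpt 24 m7 (get 5 975141551516559584958176701702155584) := rep_elt _ _
theorem orderOf_m7 : orderOf m7 = 7 :=
  rep_m7.orderOf_eq five_le gpt_inj (faith_M24 ⊤) trivial (by norm_num) (by decide +kernel)
theorem m7_mem : m7 ∈ K22 :=
  ⟨((rep_m7 23 (by norm_num)).2).trans (congrArg gpt (by decide +kernel)),
    ((rep_m7 0 (by norm_num)).2).trans (congrArg gpt (by decide +kernel))⟩
theorem card_cent_m7 : Nat.card (Subgroup.centralizer ({m7} : Set M24)) = 42 := by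
  have := (cent_gen1 mulOk24 gpt_inj (faith_M24 ⊤) (B := [1, 10, 14, 2, 11, 13, 19, 3]) (by decide) le_rfl
    (SK := [956302485175575353788796878166559809, 265463202357446280297592754337532963,
      791839773710417790282159804516810801, 269472991947623817202553105450153000,
      173172015814389384297194870718892071, 228977000155562625621949123656976429,
      148635348299282148129487813497030688, 899228993768975771826073685484636192,
      187657435605622400589679359786879008, 265113408181403359848357246499293216])
    (inK_top_of_allL (by decide +kernel)) card_top_M24.le trivial rep_m7 []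
    (S := [384452567122095654858615243735959584, 958389790131275520334514379612768969]) (M := 42) (by decide +kernel)).1
  rwa [top_inf_eq] at this
theorem card_cent22_m7 :
    Nat.card (K22 ⊓ Subgroup.centralizer ({m7} : Set M24) : Subgroup M24) = 7 :=
  (cent_gen1 mulOk24 gpt_inj (faith_M24 ⊤) (B := [1, 10, 14, 2, 11]) (by decide) le_top
    (SK := [967166094871619492645943304783079872, 962264130507931868310611982411272224,
      962006984587124259553679686276430880, 962612118154131067505286622741736480,
      971821815175309450842214300706641952, 971141327765099060857928081805445152])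
    (inK_of_fixAll (A := [bit 23, bit 0]) (K := K22) (by decide +kernel) fun _ h =>
      ⟨fix_bit h (by norm_num) (by simp), fix_bit h (by norm_num) (by simp)⟩)
    card_K22.le trivial rep_m7 [] (S := [976645032743542479555662252720915808]) (M := 7) (by decide +kernel)).1

noncomputable def m11 : M24 := elt 977626150660632446484585456855397888 (by decide +kernel)
theorem rep_m11 : Rep gpt 24 m11 (get 5 977626150660632446484585456855397888) := rep_elt _ _
theorem orderOf_m11 : orderOf m11 = 11 :=
  rep_m11.orderOf_eq five_le gpt_inj (faith_M24 ⊤) trivial (by norm_num) (by decide +kernel)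
theorem m11_mem : m11 ∈ K22 :=
  ⟨((rep_m11 23 (by norm_num)).2).trans (congrArg gpt (by decide +kernel)),
    ((rep_m11 0 (by norm_num)).2).trans (congrArg gpt (by decide +kernel))⟩
theorem card_cent_m11 : Nat.card (Subgroup.centralizer ({m11} : Set M24)) = 11 := by
  have := (cent_gen1 mulOk24 gpt_inj (faith_M24 ⊤) (B := [1, 16, 7, 22, 17, 12, 3]) (by decide) le_rfl
    (SK := [956302485175575353788796878166559809, 265463202357446280297592754337532963,
      939443396423443465668149659122812960, 819537486484162731308400657664984099,
      569381750438578278525889303718998062, 817884627435902134467872167960870965,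
      237118467371839156807759020658002978, 651812217987038356343953380111342632])
    (inK_top_of_allL (by decide +kernel)) card_top_M24.le trivial rep_m11 []
    (S := [959368413164694669956740918894208704]) (M := 11) (by decide +kernel)).1
  rwa [top_inf_eq] at this
theorem card_cent22_m11 :
    Nat.card (K22 ⊓ Subgroup.centralizer ({m11} : Set M24) : Subgroup M24) = 11 :=
  (cent_gen1 mulOk24 gpt_inj (faith_M24 ⊤) (B := [1, 16, 7, 22, 17]) (by decide) le_top
    (SK := [967166094871619492645943304783079872, 962264130507931868310611982411272224,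
      972546188438231222103733846239741984, 968624602096686592631760061220375584,
      966231583689153259696059970005582880, 984527973361309327778015162543682592])
    (inK_of_fixAll (A := [bit 23, bit 0]) (K := K22) (by decide +kernel) fun _ h =>
      ⟨fix_bit h (by norm_num) (by simp), fix_bit h (by norm_num) (by simp)⟩)
    card_K22.le trivial rep_m11 [] (S := [980859997482932198562596289319772640]) (M := 11) (by decide +kernel)).1

noncomputable def m23 : M24 := elt 192786286039542568186584632028083671 (by decide +kernel)
theorem rep_m23 : Rep gpt 24 m23 (get 5 192786286039542568186584632028083671) := rep_elt _ _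
theorem orderOf_m23 : orderOf m23 = 23 :=
  rep_m23.orderOf_eq five_le gpt_inj (faith_M24 ⊤) trivial (by norm_num) (by decide +kernel)
theorem card_cent_m23 : Nat.card (Subgroup.centralizer ({m23} : Set M24)) = 23 := by
  have := (cent_gen1 mulOk24 gpt_inj (faith_M24 ⊤) (B := [0, 23, 4, 3, 9, 11, 19]) (by decide) le_rfl
    (SK := [956302485175575353788796878166559809, 974380510768821363662145534143076928,
      921841040779540204408771860564877408, 958679307344834587376075327169445248,
      967270201796705417498053461833528928, 969999329664257111732989330142123520,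
      972364122272827033837244540413649248, 975202406163575003147595349001098880])
    (inK_top_of_allL (by decide +kernel)) card_top_M24.le trivial rep_m23 []
    (S := [860993885769422780344339636030197014]) (M := 23) (by decide +kernel)).1
  rwa [top_inf_eq] at this

theorem card_cent_conj {G : Type*} [Group G] (c x : G) :
    Nat.card (Subgroup.centralizer ({c * x * c⁻¹} : Set G)) =
      Nat.card (Subgroup.centralizer ({x} : Set G)) :=
  card_conj fun y => conj_mem_centralizer c x y

theorem card_cent_of_orderOf {G : Type*} [Group G] [Finite G] {p m : ℕ} (hp : p.Prime)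
    (hG : Nat.card G = p * m) (hm : ¬ p ∣ m) {x y : G} (hx : orderOf x = p) (hy : orderOf y = p) :
    Nat.card (Subgroup.centralizer ({y} : Set G)) =
      Nat.card (Subgroup.centralizer ({x} : Set G)) := by
  obtain ⟨c, hc⟩ := exists_conj_zpowers hp hG hm hx (S := Subgroup.zpowers y)
    (by rw [Nat.card_zpowers, hy])
  rw [← centralizer_zpowers, hc, centralizer_zpowers, card_cent_conj]

theorem card_cent3 {y : M24} (hy : orderOf y = 3) :
    Nat.card (Subgroup.centralizer ({y} : Set M24)) = 1080 ∨
      Nat.card (Subgroup.centralizer ({y} : Set M24)) = 504 := by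
  obtain ⟨c, rfl | rfl⟩ := class3 hy
  · exact Or.inl ((card_cent_conj _ _).trans C3A_facts.1)
  · exact Or.inr ((card_cent_conj _ _).trans C3B_facts.1)

theorem card_cent5 {y : M24} (hy : orderOf y = 5) :
    Nat.card (Subgroup.centralizer ({y} : Set M24)) = 60 :=
  (card_cent_of_orderOf (m := 48964608) (by norm_num) card_M24 (by norm_num) orderOf_m5 hy).trans
    card_cent_m5

theorem card_cent7 {y : M24} (hy : orderOf y = 7) :
    Nat.card (Subgroup.centralizer ({y} : Set M24)) = 42 :=
  (card_cent_of_orderOf (m := 34974720) (by norm_num) card_M24 (by norm_num) orderOf_m7 hy).trans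
    card_cent_m7

theorem card_cent11 {y : M24} (hy : orderOf y = 11) :
    Nat.card (Subgroup.centralizer ({y} : Set M24)) = 11 :=
  (card_cent_of_orderOf (m := 22256640) (by norm_num) card_M24 (by norm_num) orderOf_m11 hy).trans
    card_cent_m11

theorem card_cent23 {y : M24} (hy : orderOf y = 23) :
    Nat.card (Subgroup.centralizer ({y} : Set M24)) = 23 :=
  (card_cent_of_orderOf (m := 10644480) (by norm_num) card_M24 (by norm_num) orderOf_m23 hy).trans
    card_cent_m23

theorem not_dvd_card_cent {y : M24} (hy : (orderOf y).Prime) (h2 : orderOf y ≠ 2) :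
    ¬ 16 ∣ Nat.card (Subgroup.centralizer ({y} : Set M24)) := by
  have h := orderOf_dvd_natCard y
  rw [card_M24, show 244823040 = 2 ^ 10 * (3 ^ 3 * (5 * (7 * (11 * 23)))) by norm_num] at h
  simp only [hy.dvd_mul] at h
  rcases h with h | h | h | h | h | h
  · exact (h2 ((Nat.prime_dvd_prime_iff_eq hy (by norm_num)).1 (hy.dvd_of_dvd_pow h))).elim
  · rcases card_cent3 ((Nat.prime_dvd_prime_iff_eq hy (by norm_num)).1 (hy.dvd_of_dvd_pow h))
      with e | e <;> rw [e] <;> norm_num
  · rw [card_cent5 ((Nat.prime_dvd_prime_iff_eq hy (by norm_num)).1 h)]; norm_num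
  · rw [card_cent7 ((Nat.prime_dvd_prime_iff_eq hy (by norm_num)).1 h)]; norm_num
  · rw [card_cent11 ((Nat.prime_dvd_prime_iff_eq hy (by norm_num)).1 h)]; norm_num
  · rw [card_cent23 ((Nat.prime_dvd_prime_iff_eq hy (by norm_num)).1 h)]; norm_num

theorem fix_octad_comm {o : Finset GolayPt} (ho : o ∈ octads) {x y : M24}
    (hx : x ∈ fixingSubgroup M24 (o : Set GolayPt)) (hy : y ∈ fixingSubgroup M24 (o : Set GolayPt)) :
    x * y = y * x := by
  obtain ⟨g, hg⟩ := M24_octad ho oct0_mem
  have h : ∀ x ∈ fixingSubgroup M24 (o : Set GolayPt), x * x = 1 := fun x hx => by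
    have := E16_sq _ (by rw [E16, ← hg]; exact (conj_mem_fixing g o x).1 hx)
    rw [conj_pow, conj_eq_one_iff, sq] at this
    exact this
  have h1 := h _ (Subgroup.mul_mem _ hx hy)
  calc x * y = x * (x * y * (x * y)) * y * (y * y) * (x * x) * 1 := by
        rw [h1, h _ hx, h _ hy]; group
    _ = (x * x) * y * x * (y * y) * (y * y) * (x * x) := by group
    _ = y * x := by rw [h _ hx, h _ hy]; group

theorem smul_fixSet {z c : M24} (hc : c ∈ Subgroup.centralizer ({z} : Set M24)) :
    c • fixSet z = fixSet z := by
  rw [← fixSet_conj, Subgroup.mem_centralizer_singleton_iff.1 hc, mul_inv_cancel_right]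

theorem facts_2A {z : M24} (hz : orderOf z = 2) (hf : (fixSet z).Nonempty) :
    Nat.card (fixingSubgroup M24 (fixSet z : Set GolayPt)) = 16 ∧
    fixingSubgroup M24 (fixSet z : Set GolayPt) ≤ Subgroup.centralizer {z} ∧
    ∀ c ∈ Subgroup.centralizer ({z} : Set M24), ∀ q ∈ fixingSubgroup M24 (fixSet z : Set GolayPt),
      c * q * c⁻¹ ∈ fixingSubgroup M24 (fixSet z : Set GolayPt) := by
  have ho : fixSet z ∈ octads := (S5394.result.1 z z.2 (by rwa [Subgroup.orderOf_coe])).resolve_right
    fun h => hf.ne_empty (fixSet_eq_empty.2 h)
  refine ⟨card_fix_octad ho, fun q hq => Subgroup.mem_centralizer_singleton_iff.2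
    (fix_octad_comm ho hq ((mem_fixingSubgroup_iff _).2 fun p hp => mem_fixSet.1 hp)),
    fun c hc q hq => ?_⟩
  have := (conj_mem_fixing c _ q).1 hq
  rwa [smul_fixSet hc] at this

theorem facts_2B {z : M24} (hz : orderOf z = 2) (hf : fixSet z = ∅) : ∃ Q : Subgroup M24,
    IsPGroup 2 Q ∧ 16 ∣ Nat.card Q ∧ Q ≤ Subgroup.centralizer {z} ∧
    ∀ c ∈ Subgroup.centralizer ({z} : Set M24), ∀ q ∈ Q, c * q * c⁻¹ ∈ Q := by
  classical
  obtain ⟨h1, -, S, hS, -, h2⟩ := S5607.result z z.2 (by rwa [Subgroup.orderOf_coe])
    (fixSet_eq_empty.1 hf)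
  have e : ∀ g : M24, g ∈ Subgroup.centralizer {z} ↔ (g : Equiv.Perm GolayPt) * z = z * g :=
    fun g => by rw [Subgroup.mem_centralizer_singleton_iff, Subtype.ext_iff]; rfl
  rw [card_sub_equiv _ e] at h1
  have h3 : Subgroup.centralizer {z} ≤ stabilizer M24 S := fun c hc => h2 c c.2 ((e c).1 hc)
  let f := (stabHom M24 S).comp (Subgroup.inclusion h3)
  have hf' : ∀ q : Subgroup.centralizer {z}, q ∈ f.ker → ∀ t ∈ S, (q : M24) • t = t :=
    fun q hq => mem_ker_stabHom.1 hq
  have h4 : IsPGroup 2 f.ker := isPGroup_of_prime_order fun y hy hy' => by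
    by_contra h5
    rw [← Subgroup.orderOf_coe] at hy' h5
    have h6 : orderOf (y : M24) ∣ 2 ^ 9 * (3 * 5) := by
      rw [Subgroup.orderOf_coe]; exact (orderOf_dvd_natCard y).trans (by rw [h1]; norm_num)
    haveI := Fact.mk hy'
    have h7 : ∀ t ∈ S, ((fixSet (y : M24)) ∩ t).card ≡ 4 [MOD orderOf (y : M24)] := fun t ht => by
      let σ : Equiv.Perm t := stabHom M24 t ⟨y, hf' y hy t ht⟩
      have h8 : σ ^ orderOf (y : M24) ^ 1 = 1 := by
        rw [pow_one, ← map_pow]
        convert map_one (stabHom M24 t)
        exact Subtype.ext (pow_orderOf_eq_one _)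
      have h9 := Equiv.Perm.card_compl_support_modEq h8
      rw [Fintype.card_coe, hS.2.1 t ht] at h9
      convert h9 using 1
      refine (Finset.card_bij (fun a _ => a.1) (fun a ha => Finset.mem_inter.2
        ⟨mem_fixSet.2 (congrArg Subtype.val (Equiv.Perm.notMem_support.1 (Finset.mem_compl.1 ha))),
          a.2⟩) (fun a _ b _ => Subtype.ext) fun a ha => ⟨⟨a, (Finset.mem_inter.1 ha).2⟩,
          Finset.mem_compl.2 (Equiv.Perm.notMem_support.2
            (Subtype.ext (mem_fixSet.1 (Finset.mem_inter.1 ha).1))), rfl⟩).symm
    simp only [hy'.dvd_mul] at h6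
    rcases h6 with h | h | h
    · exact h5 ((Nat.prime_dvd_prime_iff_eq hy' (by norm_num)).1 (hy'.dvd_of_dvd_pow h))
    · have h3' := (Nat.prime_dvd_prime_iff_eq hy' (by norm_num)).1 h
      obtain ⟨t, ht, -⟩ := sextet_cover hS none
      have h8 := h7 t ht
      rcases S5608.result (y : M24) z (y : M24).2 z.2 (by rwa [Subgroup.orderOf_coe])
        (by rwa [Subgroup.orderOf_coe]) ((e y).1 y.2) with h9 | h9
      · have : (fixSet z).card = 8 := h9.2
        rw [hf] at this
        simp at this
      · have : fixSet y = ∅ := Finset.card_eq_zero.1 h9.1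
        rw [this, h3'] at h8
        revert h8
        simp [Nat.ModEq]
    · have h5' := (Nat.prime_dvd_prime_iff_eq hy' (by norm_num)).1 h
      have : (y : M24) = 1 := by
        refine Subtype.ext (Equiv.ext fun p => ?_)
        obtain ⟨t, ht, hp⟩ := sextet_cover hS p
        have h8 := h7 t ht
        have h9 := Finset.card_le_card (Finset.inter_subset_right (s₁ := fixSet y) (s₂ := t))
        rw [h5'] at h8
        rw [hS.2.1 t ht] at h9
        have := Finset.eq_of_subset_of_card_le
          (Finset.inter_subset_right (s₁ := fixSet y) (s₂ := t))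
          (by rw [hS.2.1 t ht]; unfold Nat.ModEq at h8; omega)
        rw [← this] at hp
        exact mem_fixSet.1 (Finset.mem_inter.1 hp).1
      rw [this, orderOf_one] at h5'
      omega
  refine ⟨f.ker.map (Subgroup.subtype _), h4.map _, ?_, Subgroup.map_subtype_le _, ?_⟩
  · rw [Subgroup.card_map_of_injective (Subgroup.subtype_injective _)]
    have h5 := f.ker.card_mul_index
    have h6 : f.ker.index ∣ 720 := by
      rw [Subgroup.index_ker]
      refine (Subgroup.card_subgroup_dvd_card _).trans ?_
      rw [Nat.card_eq_fintype_card, Fintype.card_perm, Fintype.card_coe, hS.1]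
      rfl
    have h7 : 7680 ∣ Nat.card f.ker * 720 := by rw [← h1, ← h5]; exact Nat.mul_dvd_mul_left _ h6
    omega
  · rintro c hc _ ⟨q, hq, rfl⟩
    exact ⟨_, f.normal_ker.conj_mem q hq ⟨c, hc⟩, rfl⟩

end Cfsg.Agent.H8
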