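import Mathlib
import Cfsg.Agent.H8.Deg5
import Cfsg.Agent.H8.Val
import Cfsg.Agent.H8.Gal1

/-!
Bounds of Schur and Blichfeldt type for the `p`-part of the order of a linear group.
-/

set_option autoImplicit false
set_option linter.dupNamespace false

namespace Cfsg.Agent.H8

open Cfsg Cfsg.Agent.H4 Cfsg.Agent.H5 Cfsg.Agent.H3
open scoped ComplexConjugate Pointwise commutatorElement

universe u

section schur
variable {G : Type*} [Group G] [Finite G] {p : ℕ} {χ : G → ℂ}

theorem re_sum_pow_nonneg (hχ : IsCharacter G χ) {x : G} {N : ℕ} (hx : x ^ N = 1) :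
    0 ≤ (∑ j ∈ Finset.range N, χ (x ^ (j + 1))).re := by
  obtain ⟨ε, h1, h2⟩ := hχ.exists_roots hχ.charDegree_cast.symm x
  simp only [h2]
  rw [Finset.sum_comm, Complex.re_sum]
  refine Finset.sum_nonneg fun i _ => ?_
  by_cases h3 : ε i = 1
  · simp [h3]
  · obtain ⟨c, rfl⟩ := orderOf_dvd_of_pow_eq_one hx
    simp only [pow_succ]
    rw [← Finset.sum_mul, geom_sum_eq h3, pow_mul, h1, one_pow, sub_self, zero_div, zero_mul,
      Complex.zero_re]

theorem exists_value_of_rational (hp : p.Prime) (hχ : IsCharacter G χ) {x : G} {k : ℕ}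
    (hx : x ^ p ^ k = 1) (h : ∀ j, j.Coprime p → χ (x ^ j) = χ x) :
    ∃ y : ℕ, y ≤ charDegree χ / (p - 1) ∧ χ x = charDegree χ - p * y := by
  by_cases h0 : x = 1
  · exact ⟨0, Nat.zero_le _, by simp [h0, hχ.charDegree_cast]⟩
  obtain ⟨z, hz⟩ := hχ.isGen.exists_int_of_forall_pow (g := x) fun m hm => h m
    (hm.coprime_dvd_right (by
      obtain ⟨_ | i, -, hi⟩ := (Nat.dvd_prime_pow hp).1 (orderOf_dvd_of_pow_eq_one hx)
      · exact (h0 (orderOf_eq_one_iff.1 hi)).elim
      · exact hi ▸ dvd_pow_self p i.succ_ne_zero))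
  obtain ⟨M, hM⟩ := H6.exists_isPModular hp
  haveI := hM.2.1
  have h1 := redC_char_pElem hM hχ hx
  rw [hz, ← hχ.charDegree_cast, H6.redC_intCast, H6.redC_natCast, eq_comm, ← sub_eq_zero,
    ← Int.cast_natCast, ← Int.cast_sub, H6.intCast_res_eq_zero_iff hM] at h1
  obtain ⟨y, hy⟩ := h1
  have h2 : ∀ g, (χ g).re ≤ charDegree χ := fun g =>
    (Complex.re_le_norm _).trans ((hχ.norm_le g).trans_eq (by
      rw [← hχ.charDegree_cast, Complex.norm_natCast]))
  have h3 := h2 x
  rw [hz, Complex.intCast_re] at h3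
  have hp0 : (0 : ℤ) < p := by exact_mod_cast hp.pos
  have h4 : 0 ≤ y := by
    have : z ≤ charDegree χ := by exact_mod_cast h3
    exact le_of_mul_le_mul_left (by linarith) hp0
  lift y to ℕ using h4
  refine ⟨y, (Nat.le_div_iff_mul_le (Nat.sub_pos_of_lt hp.one_lt)).2 ?_, by
    rw [hz, show z = charDegree χ - p * y by linarith]; push_cast; rfl⟩
  have h5 := re_sum_pow_nonneg hχ (x := x) (N := p * p ^ k) (by rw [mul_comm, pow_mul, hx, one_pow])
  rw [Complex.re_sum] at h5
  have h6 := h5.trans (Finset.sum_le_sum (g := fun j => if p ∣ j + 1 then (charDegree χ : ℝ) else z)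
    fun j _ => by
      split_ifs with h6
      · exact h2 _
      · rw [h _ ((Nat.Prime.coprime_iff_not_dvd hp).2 h6).symm, hz, Complex.intCast_re])
  have h7 := Finset.card_filter_add_card_filter_not (s := Finset.range (p * p ^ k)) (p ∣ · + 1)
  rw [Finset.sum_ite, Finset.sum_const, Finset.sum_const] at h6
  rw [Nat.card_multiples, Nat.mul_div_cancel_left _ hp.pos] at h6 h7
  rw [Finset.card_range] at h7
  rw [eq_tsub_of_add_eq ((add_comm _ _).trans h7), nsmul_eq_mul, nsmul_eq_mul,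
    Nat.cast_sub (Nat.le_mul_of_pos_left _ hp.pos), Nat.cast_mul] at h6
  have h8 : (0 : ℝ) < (p ^ k : ℕ) := by exact_mod_cast pow_pos hp.pos k
  have h9 : (0 : ℝ) ≤ charDegree χ + (p - 1) * z := le_of_mul_le_mul_left (by linarith) h8
  have h10 : (0 : ℤ) ≤ charDegree χ + (p - 1) * z := by exact_mod_cast h9
  zify [hp.one_le]
  refine le_of_mul_le_mul_left ?_ hp0
  rw [show z = charDegree χ - p * y by linarith] at h10
  linarith

theorem index_charKer_dvd_of_rational [hp : Fact p.Prime] (hG : IsPGroup p G)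
    (hχ : IsCharacter G χ) (h : ∀ x j, j.Coprime p → χ (x ^ j) = χ x) :
    (charKer χ).index ∣ (p * (charDegree χ / (p - 1))).factorial := by
  haveI := hχ.charKer_normal
  set m := charDegree χ / (p - 1)
  have h1 : IsGeneralizedCharacter (G ⧸ charKer χ) (∏ y ∈ Finset.range m,
      (deflate (charKer χ) χ - ((charDegree χ - p * (y + 1 : ℕ) : ℤ) : ℂ) • fun _ => 1)) :=
    Finset.prod_induction _ _ (fun _ _ h1 h2 => h1.mul h2) isGen_one fun y _ =>
      (hχ.deflate le_rfl).isGen.sub (isGen_one.intCast_smul _)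
  obtain ⟨k, hk⟩ := h1.exists_int_of_vanishing ⊤ fun q _ hq => by
    obtain ⟨g, rfl⟩ := QuotientGroup.mk_surjective q
    obtain ⟨a, ha⟩ := hG g
    obtain ⟨_ | y, h2, h3⟩ := exists_value_of_rational hp.out hχ ha (h g)
    · exact (hq ((QuotientGroup.eq_one_iff g).2 (hχ.mem_charKer.2 (by
        simpa [hχ.charDegree_cast] using h3)))).elim
    · rw [Finset.prod_apply]
      refine Finset.prod_eq_zero (Finset.mem_range.2 h2) ?_
      simp [deflate_mk le_rfl, h3]
  have h2 : ((p ^ m * m.factorial : ℕ) : ℂ) = (charKer χ).index * k := by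
    rw [Subgroup.index_eq_card, ← Subgroup.card_top, ← hk, Finset.prod_apply,
      ← Finset.prod_range_add_one_eq_factorial, Finset.pow_eq_prod_const,
      ← Finset.prod_mul_distrib, Nat.cast_prod]
    refine Finset.prod_congr rfl fun y _ => ?_
    simp [← QuotientGroup.mk_one, deflate_mk le_rfl, hχ.charDegree_cast]
  have h3 : (charKer χ).index ∣ p ^ m * m.factorial := Int.natCast_dvd_natCast.1 ⟨k, by exact_mod_cast h2⟩
  obtain ⟨a, ha⟩ := hG.index (charKer χ)
  rw [ha] at h3 ⊢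
  rw [hp.out.pow_dvd_iff_le_factorization (Nat.factorial_ne_zero _),
    Nat.factorization_factorial_mul hp.out]
  rwa [hp.out.pow_dvd_iff_le_factorization (mul_pos (pow_pos hp.out.pos _) m.factorial_pos).ne',
    Nat.factorization_mul (pow_pos hp.out.pos _).ne' m.factorial_ne_zero, Finsupp.add_apply,
    hp.out.factorization_pow, Finsupp.single_eq_same, add_comm] at h3

theorem factorization_bound (hp : p.Prime) {n d : ℕ} (h : d ∣ (p * (n / (p - 1))).factorial) :
    d.factorization p ≤ ∑ i ∈ Finset.range (n + 1), n / ((p - 1) * p ^ i) := by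
  refine ((Nat.factorization_le_iff_dvd (ne_zero_of_dvd_ne_zero (Nat.factorial_ne_zero _) h)
    (Nat.factorial_ne_zero _)).2 h p).trans_eq ?_
  rw [Nat.factorization_factorial_mul hp, Nat.factorization_factorial hp (b := n + 1)
    (Nat.lt_succ_of_le ((Nat.log_le_self _ _).trans (Nat.div_le_self _ _))),
    Finset.range_eq_Ico, Finset.sum_eq_sum_Ico_succ_bot n.succ_pos, add_comm]
  simp only [← Nat.div_div_eq_div_mul, pow_zero, Nat.div_one, zero_add]

theorem exists_rational_ext {K : Type*} [Group K] (E : NEmb K G)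
    (hcop : E.f.range.index.Coprime (Nat.card K)) (hχ : IsCharacter G χ) :
    ∃ ψ, IsCharacter G ψ ∧ (∀ k, ψ (E.f k) = χ (E.f k)) ∧ ∀ m : ℕ, m.Coprime E.f.range.index →
      m ≡ 1 [MOD Nat.card K] → ∀ g, ψ (g ^ m) = ψ g := by
  haveI := E.finite
  haveI := Fintype.ofFinite G
  haveI := Fintype.ofFinite K
  refine hχ.induction (P := fun χ => ∃ ψ, IsCharacter G ψ ∧ (∀ k, ψ (E.f k) = χ (E.f k)) ∧
    ∀ m : ℕ, m.Coprime E.f.range.index → m ≡ 1 [MOD Nat.card K] → ∀ g, ψ (g ^ m) = ψ g)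
    ⟨0, isCharacter_zero, fun _ => rfl, fun _ _ _ _ => rfl⟩ ?_
  rintro η φ hη - ⟨ψ, h1, h2, h3⟩
  obtain ⟨θ, hθ, h4⟩ := exists_irr_under_hom E.f hη
  have h5 := E.f_mem_inertia hθ.isClassFunction
  have h6 : (E.restrict _ h5).f.range.index ∣ E.f.range.index := by
    rw [E.restrict_range]
    exact Subgroup.relIndex_dvd_index_of_le (E.range_le_inertia hθ.isClassFunction)
  obtain ⟨τ, hτ, h7, h8⟩ := (E.restrict _ h5).exists_ext_of_coprime hθ
    (fun g n => E.mem_inertia.1 g.2 n) (hcop.coprime_dvd_left h6)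
  have h9 : (fun n => τ ⟨E.f n, h5 n⟩) = θ := funext h7
  obtain ⟨h10, h11⟩ := E.isIrr_indFun_of_inertia_le hθ _ h5 le_rfl hτ
    (by rw [h9, hθ.classInner_self]; exact one_ne_zero)
  rw [h9, hθ.classInner_self] at h11
  obtain ⟨e, he⟩ := (hη.isCharacter.comp E.f).classInner_nat hθ.isCharacter
  refine ⟨(e : ℂ) • indFun _ τ + ψ, (h10.isCharacter.natCast_smul e).add h1, fun k => ?_,
    fun m hm hm1 g => ?_⟩
  · have h12 := congrFun (E.clifford hη hθ h4) k
    have h13 := congrFun (E.clifford h10 hθ (h11 ▸ one_ne_zero)) k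
    rw [h11, one_smul] at h13
    rw [he] at h12
    simp only [Pi.add_apply, Pi.smul_apply, h2, h12, h13]
  · have h12 : (fun g => τ (g ^ m)) = τ := funext (canon_pow (E.restrict _ h5)
      (hcop.coprime_dvd_left h6) hτ.isCharacter (by rwa [funext h7])
      (h8 ▸ (hcop.coprime_dvd_left h6).coprime_dvd_right (detOrder_dvd_card θ))
      (hm.coprime_dvd_right h6) hm1)
    simp only [Pi.add_apply, Pi.smul_apply, h3 m hm hm1]
    rw [← indFun_comp_pow (E.card_mul_index ▸ (Nat.coprime_of_mul_modEq_one 1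
      (by rwa [mul_one])).mul_right hm), h12]

theorem relIndex_centralizer_dvd [hp : Fact p.Prime] (hχ : IsCharacter G χ)
    (hf : ∀ g, χ g = χ 1 → g = 1) {K S : Subgroup G} (hS : IsPGroup p S)
    (hSK : S ≤ Subgroup.normalizer (K : Set G)) (hK : (Nat.card K).Coprime p) :
    (Subgroup.centralizer (K : Set G)).relIndex S ∣ (p * (charDegree χ / (p - 1))).factorial := by
  have h1 := H1.sup_le_normalizer_left hSK
  let E := NEmb.ofLe (le_sup_left : K ≤ K ⊔ S) fun t ht n hn =>
    (Subgroup.mem_normalizer_iff.1 (h1 ht) n).1 hn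
  obtain ⟨a, ha⟩ := IsPGroup.iff_card.1 hS
  have h2 : E.f.range.index ∣ p ^ a := by
    rw [NEmb.ofLe_range, ← ha]
    exact (H1.relIndex_sup_of_le_normalizer hSK).dvd.trans (Subgroup.relIndex_dvd_card K S)
  obtain ⟨ψ, h3, h4, h5⟩ := exists_rational_ext E ((hK.symm.pow_left a).coprime_dvd_left h2)
    (hχ.restrict _)
  have h6 := h3.comp (Subgroup.inclusion (le_sup_right : S ≤ K ⊔ S))
  have h7 := index_charKer_dvd_of_rational hS h6 fun x j hj => by
    obtain ⟨m, hm1, hm2⟩ := Nat.chineseRemainder (hK.symm.pow_left a) j 1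
    rw [← pow_eq_pow_of_modEq hm1 (ha ▸ pow_card_eq_one'), map_pow]
    refine h5 m (Nat.Coprime.coprime_dvd_right h2 ?_) hm2 _
    rw [Nat.coprime_iff_gcd_eq_one, hm1.gcd_eq]
    exact hj.pow_right a
  have h8 : ψ 1 = χ 1 := by simpa using h4 1
  rw [show charDegree (fun x => ψ (Subgroup.inclusion le_sup_right x)) = charDegree χ from
    charDegree_eq_of (by rw [map_one, h8, hχ.charDegree_cast])] at h7
  refine (Subgroup.index_dvd_of_le fun x hx k hk => ?_).trans h7
  haveI := h3.charKer_normal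
  have h9 : Subgroup.inclusion le_sup_right x ∈ charKer ψ :=
    h3.mem_charKer.2 (by simpa using apply_of_mem_charKer hx)
  have h10 : (x : G) * k⁻¹ * (x : G)⁻¹ ∈ K := (Subgroup.mem_normalizer_iff.1 (hSK x.2) _).1 (inv_mem hk)
  have h11 := apply_of_mem_charKer (mul_mem (‹(charKer ψ).Normal›.conj_mem _ h9 (E.f ⟨k, hk⟩))
    (inv_mem h9))
  have h12 := h4 ⟨k * ((x : G) * k⁻¹ * (x : G)⁻¹), mul_mem hk h10⟩
  have h13 := hf _ (h12.symm.trans ((congrArg ψ (Subtype.ext ?_)).trans (h11.trans h8)))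
  · change k * ((x : G) * k⁻¹ * (x : G)⁻¹) = 1 at h13
    change k * x = x * k
    rw [← mul_inv_eq_one, ← h13]; group
  · change k * ((x : G) * k⁻¹ * (x : G)⁻¹) = k * x * k⁻¹ * (x : G)⁻¹
    group

theorem index_pCore_bound [hp : Fact p.Prime] (hχ : IsCharacter G χ)
    (hf : ∀ g, χ g = χ 1 → g = 1) (hs : IsPSolvable p G) : (pCore p G).index.factorization p ≤
      ∑ i ∈ Finset.range (charDegree χ + 1), charDegree χ / ((p - 1) * p ^ i) := by
  set U := pCore p G
  set π := QuotientGroup.mk' U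
  set D := pPrimeCore p (G ⧸ U)
  have hU := H1.isPGroup_pCore p G
  have h1 : U.relIndex (D.comap π) = Nat.card D := by
    rw [H9.relIndex_eq_card_map_mk', Subgroup.map_comap_eq_self_of_surjective
      (QuotientGroup.mk'_surjective U)]
  have h2 := H1.coprime_card_pPrimeCore p (G ⧸ U)
  obtain ⟨u, hu⟩ := IsPGroup.iff_card.1 hU
  obtain ⟨K, -, h3, -, h4⟩ := H1.exists_complement_le (N := U) (L := D.comap π)
    (fun x hx => by simp [π, (QuotientGroup.eq_one_iff x).2 hx]) Subgroup.le_normalizer_of_normal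
    (by rw [h1, hu]; exact h2.symm.pow_left u)
  rw [h1] at h4
  have h5 : K.map π = D := by
    rw [← Subgroup.map_comap_eq_self_of_surjective (QuotientGroup.mk'_surjective U) D, ← h3,
      Subgroup.map_sup, QuotientGroup.map_mk'_self, bot_sup_eq]
  have h6 := H1.normalizer_map_mk'_eq (A := K) (N := U) (by rw [h4, hu]; exact h2.pow_right u)
    (Or.inr (H1.isSolvable_of_isPGroup hU))
  rw [h5, Subgroup.normalizer_eq_top] at h6
  obtain ⟨S, hS⟩ := exists_sylowIn p (Subgroup.normalizer (K : Set G))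
  have h7 : ¬ p ∣ (S.map π).index := fun h7 => hS.not_dvd (h7.trans (by
    rw [← Subgroup.relIndex_top_right, h6]
    exact H9.relIndex_map_dvd _ _ _))
  have h8 := relIndex_centralizer_dvd hχ hf hS.isPGroup hS.le (h4 ▸ h2)
  rw [Subgroup.index_eq_card, ← (S.map π).card_mul_index, Nat.factorization_mul Nat.card_pos.ne'
    Subgroup.index_ne_zero_of_finite, Finsupp.add_apply, Nat.factorization_eq_zero_of_not_dvd h7,
    add_zero]
  refine factorization_bound hp.out (Dvd.dvd.trans ?_ h8)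
  rw [← H9.relIndex_eq_card_map_mk']
  refine Subgroup.index_dvd_of_le fun x hx => ?_
  have h9 : π x ∈ D := H9.centralizer_pPrimeCore_le_of_isPSolvable (H9.isPSolvable_quotient hs U)
    (H1.pCore_quotient_pCore p) (by
      change π x ∈ Subgroup.centralizer (D : Set (G ⧸ U))
      rw [← h5]
      rintro _ ⟨k, hk, rfl⟩
      rw [← map_mul, ← map_mul]
      exact congrArg π (hx k hk))
  obtain ⟨b, hb⟩ := IsPGroup.iff_card.1 (hS.isPGroup.map π)
  exact (QuotientGroup.eq_one_iff (x : G)).1 (Subgroup.mem_bot.1 ((Subgroup.inf_eq_bot_of_coprime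
    (H := D) (K := S.map π) (hb ▸ h2.pow_right b)).le ⟨h9, x, x.2, rfl⟩))

end schur

section galois
variable {G : Type*} [Group G] [Finite G] {χ : G → ℂ}

theorem finite_galOrbit (hχ : IsIrrCharacter G χ) : (MulAction.orbit (RingAut ℂ) χ).Finite :=
  (Set.finite_range fun ψ : IrrCharacter G => ψ.1).subset fun _ ⟨σ, h⟩ =>
    ⟨⟨_, hχ.map_ringHom (σ : ℂ →+* ℂ)⟩, h⟩

omit [Group G] [Finite G] in
theorem ncard_galOrbit_le [FiniteDimensional ℚ (IntermediateField.adjoin ℚ (Set.range χ))] :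
    (MulAction.orbit (RingAut ℂ) χ).ncard ≤
      Module.finrank ℚ (IntermediateField.adjoin ℚ (Set.range χ)) := by
  rw [← AlgHom.card ℚ _ ℂ, ← Nat.card_eq_fintype_card, ← Set.ncard_univ]
  refine (Set.ncard_le_ncard ?_).trans (Set.ncard_image_le (f := fun φ g =>
    φ ⟨χ g, IntermediateField.subset_adjoin _ _ ⟨g, rfl⟩⟩))
  rintro _ ⟨σ, rfl⟩
  exact ⟨(σ : ℂ →+* ℂ).toRatAlgHom.comp (IntermediateField.val _), trivial, rfl⟩

theorem totient_le_ncard_galOrbit (lam : G →* ℂˣ) :
    lam.ker.index.totient ≤ (MulAction.orbit (RingAut ℂ) fun g => (lam g : ℂ)).ncard := by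
  haveI : Finite lam.range := Finite.of_surjective _ lam.rangeRestrict_surjective
  haveI : IsCyclic lam.range := isCyclic_of_injective_ringHom
    ((Units.coeHom ℂ).comp lam.range.subtype) (Units.val_injective.comp Subtype.val_injective)
  obtain ⟨⟨w, hw⟩, hy⟩ := IsCyclic.exists_generator (α := lam.range)
  have h0 := orderOf_eq_card_of_forall_mem_zpowers hy
  rw [Subgroup.orderOf_mk] at h0
  obtain ⟨y, rfl⟩ := hw
  have h1 : IsPrimitiveRoot (lam y : ℂ) lam.ker.index := by
    rw [Subgroup.index_ker, ← h0, IsPrimitiveRoot.coe_units_iff]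
    exact IsPrimitiveRoot.orderOf _
  have h2 := fun (m : ℕ) (hm : m.Coprime lam.ker.index) =>
    exists_ringEquiv_pow Subgroup.index_ne_zero_of_finite hm
  choose! σ hσ using h2
  rw [Nat.totient, ← Set.ncard_coe_finset]
  refine Set.ncard_le_ncard_of_injOn (fun m => (show RingAut ℂ from σ m) • fun g => (lam g : ℂ))
    (fun m _ => ⟨_, rfl⟩) (fun a ha b hb h => ?_) (finite_galOrbit (isIrrCharacter_linear lam))
  simp only [Finset.coe_filter, Finset.mem_range, Set.mem_setOf_eq] at ha hb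
  have h3 : σ a (lam y) = σ b (lam y) := congrFun h y
  rw [hσ a ha.2.symm _ h1.pow_eq_one, hσ b hb.2.symm _ h1.pow_eq_one] at h3
  exact h1.pow_inj ha.1 hb.1 h3

theorem exists_indHom_of_pGroup [Fintype G] {p : ℕ} [hp : Fact p.Prime] (hG : IsPGroup p G)
    (hχ : IsIrrCharacter G χ) (h1 : χ 1 ≠ 1) : ∃ (H : Subgroup G) (_ : H.Normal) (_ : Fintype H)
      (θ : H → ℂ), H.index = p ∧ IsIrrCharacter H θ ∧
        (NEmb.ofNormal H).inertia θ = (NEmb.ofNormal H).f.range ∧
          indHom (NEmb.ofNormal H).f θ = χ := by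
  haveI := hG.isNilpotent
  obtain ⟨K, lam, h2⟩ := exists_indFun_linear_of_nilpotent hχ
  have h3 : K ≠ ⊤ := by
    rintro rfl
    exact h1 (by rw [h2, indFun_one]; simp)
  obtain ⟨H, hH, hKH⟩ := (eq_top_or_exists_le_coatom K).resolve_left h3
  haveI hn : H.Normal := H1.normal_of_isCoatom hH
  haveI := Fintype.ofFinite H
  have h4 : H.index = p := H1.index_eq_of_isCoatom hG hH
  obtain ⟨θ, hθ, h5⟩ := exists_irr_under H hχ
  have h6 : (NEmb.ofNormal H).f.range.index = p := by rw [NEmb.ofNormal_range, h4]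
  have h7 := (NEmb.ofNormal H).res_eq_or_indHom_eq_of_prime (by rw [h6]; exact hp.out) hχ hθ h5
  refine ⟨H, hn, inferInstance, θ, h4, hθ, h7.resolve_left fun h7 => hp.out.one_lt.ne ?_⟩
  rw [← h6, ← one_pow 2]
  refine ((NEmb.ofNormal H).sq_eq_index_iff hχ hθ (e := 1) (by simpa using h7)).2 fun g hg => ?_
  rw [NEmb.ofNormal_range] at hg
  rw [h2]
  exact indFun_eq_zero_of_not_conj _ _ fun x hx => hg (by
    simpa [mul_assoc] using hn.conj_mem _ (hKH hx) x⁻¹)

end galois

theorem log_index_charKer_le {p : ℕ} [hp : Fact p.Prime] (G : Type u) [Group G] [Finite G] :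
    IsPGroup p G → ∀ χ, IsIrrCharacter G χ → ∀ a t : ℕ, (charKer χ).index = p ^ a →
      (MulAction.orbit (RingAut ℂ) χ).ncard ≤ (p - 1) * p ^ t →
        (p - 1) * a + 1 ≤ charDegree χ + (p - 1) * (t + 1) * charDegree χ := by
  refine H2.card_induction (P := fun G _ _ => IsPGroup p G → ∀ χ, IsIrrCharacter G χ → ∀ a t : ℕ,
    (charKer χ).index = p ^ a → (MulAction.orbit (RingAut ℂ) χ).ncard ≤ (p - 1) * p ^ t →
      (p - 1) * a + 1 ≤ charDegree χ + (p - 1) * (t + 1) * charDegree χ)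
    (fun G _ _ ih hG χ hχ a t ha ht => ?_) G
  classical
  haveI := Fintype.ofFinite G
  have hp1 : 0 < p - 1 := Nat.sub_pos_of_lt hp.out.one_lt
  by_cases h1 : χ 1 = 1
  · obtain ⟨lam, rfl⟩ := hχ.isCharacter.exists_linear h1
    rw [charDegree_eq_of (d := 1) (by simp), mul_one, add_comm, Nat.add_le_add_iff_left]
    refine Nat.mul_le_mul_left _ ?_
    rcases a with _ | a
    · exact Nat.zero_le _
    have h2 := (totient_le_ncard_galOrbit lam).trans ht
    rw [← charKer_linear, ha, Nat.totient_prime_pow_succ hp.out, mul_comm,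
      Nat.mul_le_mul_left_iff hp1, Nat.pow_le_pow_iff_right hp.out.one_lt] at h2
    omega
  obtain ⟨H, _, _, θ, hH, hθ, h2, h3⟩ := exists_indHom_of_pGroup hG hχ h1
  set E := NEmb.ofNormal H
  have hE : E.f.range.index = p := by rw [NEmb.ofNormal_range, hH]
  have h4 := E.res_indHom_of_inertia_eq h2
  rw [h3] at h4
  have h5 : (E.orbit θ).card = p := by rw [E.card_orbit, h2, hE]
  have h6 : charDegree χ = p * charDegree θ := charDegree_eq_of (by
    rw [← h3, indHom_one_of_injective _ E.inj, hE, Nat.cast_mul, hθ.isCharacter.charDegree_cast])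
  obtain ⟨b, hb⟩ := (hG.to_subgroup H).index (charKer θ)
  have h7 := ih H (H1.card_lt_of_ne_top (by rintro rfl; simp [hp.out.ne_one.symm] at hH))
    (hG.to_subgroup H) θ hθ b
  have h8 : ∀ L : Subgroup H, (∀ φ ∈ E.orbit θ, L ≤ charKer φ) → p ^ a ≤ p * L.index := by
    intro L hL
    rw [← ha, ← hH, mul_comm, ← Subgroup.index_map_subtype]
    refine Subgroup.index_antitone ?_
    rintro _ ⟨x, hx, rfl⟩
    refine hχ.isCharacter.mem_charKer.2 ((congrFun h4 x).trans (Eq.trans ?_ (congrFun h4 1).symm))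
    rw [Finset.sum_apply, Finset.sum_apply]
    exact Finset.sum_congr rfl fun φ hφ => apply_of_mem_charKer (hL φ hφ hx)
  set S := MulAction.stabilizer (RingAut ℂ) χ
  have h9 : MulAction.stabilizer (RingAut ℂ) θ ≤ S := fun σ hσ => funext fun g => by
    have h9 : ∀ x, σ (θ x) = θ x := congrFun hσ
    change σ (χ g) = χ g
    rw [← h3, indHom_apply]
    simp [apply_ite σ, h9]
  have h10 : ∀ σ ∈ S, σ • θ ∈ E.orbit θ := fun σ hσ => by
    have h10 : classInner (fun n => χ (E.f n)) θ ≠ 0 := by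
      rw [← inner_indHom_right _ _ hχ.isClassFunction, h3, hχ.classInner_self]; exact one_ne_zero
    refine E.mem_orbit.2 (E.exists_cj_eq_of_constituents hχ hθ (hθ.map_ringHom (σ : ℂ →+* ℂ)) h10 ?_)
    rw [← (hχ.isCharacter.comp E.f).isGen.classInner_map_ringHom' hθ.isGen (σ : ℂ →+* ℂ)] at h10
    exact (congrArg (classInner · _) (funext fun n => congrFun hσ (E.f n))) ▸ h10
  have h11 := Subgroup.relIndex_mul_index h9
  rw [MulAction.index_stabilizer, MulAction.index_stabilizer] at h11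
  have hd := hθ.charDegree_pos
  by_cases h12 : S ≤ MulAction.stabilizer (RingAut ℂ) θ
  · rw [Subgroup.relIndex_eq_one.2 h12, one_mul] at h11
    have h13 := h7 t hb (h11 ▸ ht)
    have h14 := (h8 (⨅ φ : E.orbit θ, charKer φ.1) fun φ hφ => iInf_le_of_le ⟨φ, hφ⟩ le_rfl).trans
      (Nat.mul_le_mul_left p (Subgroup.index_iInf_le _))
    rw [Finset.prod_congr rfl (g := fun _ => p ^ b) fun φ _ => by
      obtain ⟨g, hg⟩ := E.mem_orbit.1 φ.2
      rw [← hg, ← hb]
      exact (congrArg Subgroup.index (charKer_comp_of_surjective θ (E.actEquiv g).toMonoidHom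
        (E.actEquiv g).surjective)).trans (Subgroup.index_comap_of_surjective _
          (E.actEquiv g).surjective), Finset.prod_const, Finset.card_univ, Fintype.card_coe, h5,
      ← pow_mul, ← pow_succ', Nat.pow_le_pow_iff_right hp.out.one_lt] at h14
    rw [h6]
    obtain ⟨q, rfl⟩ := Nat.exists_eq_succ_of_ne_zero hp.out.ne_zero
    simp only [Nat.succ_sub_one, Nat.succ_eq_add_one] at *
    nlinarith [Nat.mul_le_mul_left q h14, Nat.mul_le_mul_left (q + 1) h13]
  obtain ⟨σ, hσ, h13⟩ := SetLike.not_le_iff_exists.1 h12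
  have h14 : (MulAction.stabilizer (RingAut ℂ) θ).relIndex S ≤ p := by
    have h14 := MulAction.index_stabilizer S θ
    rw [← h5, ← Set.ncard_coe_finset]
    refine (Eq.trans_le ?_ h14.le).trans (Set.ncard_le_ncard ?_)
    · rfl
    · rintro _ ⟨τ, rfl⟩; exact h10 τ τ.2
  have h15 := h7 (t + 1) hb (by
    rw [← h11, pow_succ', mul_left_comm]; exact Nat.mul_le_mul h14 ht)
  obtain ⟨g, hg⟩ := E.mem_orbit.1 (h10 σ hσ)
  have h16 : ∀ g, ∀ x ∈ charKer θ, E.act g x ∈ charKer θ := by
    let T : Subgroup G := (MulAction.stabilizer (MulAut H) (charKer θ)).comap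
      (MulAut.conjNormal (H := H))
    have h16 : ∀ g, g ∈ T ↔ ∀ x, E.act g⁻¹ x ∈ charKer θ ↔ x ∈ charKer θ := fun g => by
      rw [Subgroup.mem_comap, MulAction.mem_stabilizer_iff, SetLike.ext_iff]
      refine forall_congr' fun x => ?_
      rw [Subgroup.mem_pointwise_smul_iff_inv_smul_mem, ← map_inv]
      rfl
    have h17 : H ≤ T := fun y hy => inv_mem_iff.1 ((h16 _).2 fun x => by
      rw [inv_inv, show y = E.f ⟨y, hy⟩ from rfl, E.act_f]
      exact hθ.isCharacter.charKer_normal.mem_comm_iff.trans (by simp))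
    have h18 : g ∈ T := inv_mem_iff.1 ((h16 _).2 fun x => by
      rw [inv_inv, hθ.isCharacter.mem_charKer, hθ.isCharacter.mem_charKer, ← E.cj_apply θ g x]
      have h18 : σ (θ 1) = θ 1 := by rw [← hθ.isCharacter.charDegree_cast, map_natCast]
      rw [hg, ← σ.injective.eq_iff (a := θ x), h18]
      rfl)
    have h19 : T = ⊤ := by
      rcases (Nat.dvd_prime hp.out).1 (hH ▸ Subgroup.index_dvd_of_le h17) with h19 | h19
      · exact Subgroup.index_eq_one.1 h19
      · refine (h13 (hg.symm.trans (E.mem_inertia_iff_cj.1 ?_))).elim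
        have h20 := Subgroup.relIndex_mul_index h17
        rw [h19, hH, Nat.mul_eq_right hp.out.ne_zero, Subgroup.relIndex_eq_one] at h20
        rw [h2, NEmb.ofNormal_range]
        exact h20 h18
    intro y x hx
    have := (h16 y⁻¹).1 (h19 ▸ Subgroup.mem_top _) x
    rw [inv_inv] at this
    exact this.2 hx
  have h17 := h8 (charKer θ) fun φ hφ x hx => by
    obtain ⟨y, rfl⟩ := E.mem_orbit.1 hφ
    exact (E.isIrr_cj hθ y).isCharacter.mem_charKer.2
      ((apply_of_mem_charKer (h16 y x hx)).trans (E.cj_apply_one θ y).symm)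
  rw [hb, ← pow_succ', Nat.pow_le_pow_iff_right hp.out.one_lt] at h17
  rw [h6]
  obtain ⟨q, rfl⟩ := Nat.exists_eq_succ_of_ne_zero hp.out.ne_zero
  simp only [Nat.succ_sub_one, Nat.succ_eq_add_one] at *
  obtain ⟨d, hd⟩ := Nat.exists_eq_succ_of_ne_zero hd.ne'
  obtain ⟨q, rfl⟩ := Nat.exists_eq_succ_of_ne_zero hp1.ne'
  rw [hd] at h15 ⊢
  simp only [Nat.succ_eq_add_one] at *
  nlinarith [Nat.mul_le_mul_left (q + 1) h17, Nat.zero_le (q * q * t * d), Nat.zero_le (q * q * t),
    Nat.zero_le (q * q * d), Nat.zero_le (q * t * d), Nat.zero_le (q * q), Nat.zero_le (t * d),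
    Nat.zero_le (q * t), Nat.zero_le (q * d)]

end Cfsg.Agent.H8
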